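import Mathlib

set_option autoImplicit false
set_option maxHeartbeats 400000

namespace H77.CardFour

theorem card_four {G : Type*} [Group G] [Finite G] (T : Subgroup G) (s : G) (hs : s * s = 1)
    (hsT : ∀ t ∈ T, s * t * s⁻¹ ∈ T) (h2 : ∀ t ∈ T, ∃ k : ℕ, t ^ 2 ^ k = 1)
    (hc : ∀ t ∈ T, ∀ t' ∈ T, t ≠ 1 → t' ≠ 1 → s * t * s⁻¹ = t → s * t' * s⁻¹ = t' → t = t')
    (hcen : ∀ j ∈ T, j * j = 1 → ∀ t ∈ T, j * t = t * j)
    (hfour : ∃ i ∈ T, ∃ j ∈ T, i ≠ 1 ∧ j ≠ 1 ∧ i ≠ j ∧ i * i = 1 ∧ j * j = 1) : Nat.card T = 4 := by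
  classical
  set σ : MulAut G := MulAut.conj s with hσ
  have hσa : ∀ t, σ t = s * t * s⁻¹ := fun t => rfl
  have hσσ : ∀ t, σ (σ t) = t := by
    intro t
    have hsi : s⁻¹ = s := inv_eq_of_mul_eq_one_left hs
    rw [hσa, hσa, hsi]
    calc s * (s * t * s) * s = (s * s) * t * (s * s) := by group
      _ = t := by rw [hs]; simp
  have hsT' : ∀ t ∈ T, σ t ∈ T := fun t ht => hsT t ht
  have hc' : ∀ t ∈ T, ∀ t' ∈ T, t ≠ 1 → t' ≠ 1 → σ t = t → σ t' = t' → t = t' := fun t ht t' ht' a b c d =>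
    hc t ht t' ht' a b c d
  have inv2 : ∀ a : G, a * a = 1 → a⁻¹ = a := fun a ha => inv_eq_of_mul_eq_one_left ha
  -- the subgroup of involutions
  let Z : Subgroup G :=
    { carrier := {j | j ∈ T ∧ j * j = 1}
      mul_mem' := by
        rintro a b ⟨ha, ha2⟩ ⟨hb, hb2⟩
        refine ⟨T.mul_mem ha hb, ?_⟩
        calc a * b * (a * b) = a * (b * a) * b := by group
          _ = a * (a * b) * b := by rw [hcen a ha ha2 b hb]
          _ = (a * a) * (b * b) := by group
          _ = 1 := by rw [ha2, hb2, one_mul]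
      one_mem' := ⟨T.one_mem, one_mul 1⟩
      inv_mem' := by
        rintro a ⟨ha, ha2⟩
        refine ⟨T.inv_mem ha, ?_⟩
        rw [inv2 a ha2, ha2] }
  have mZ : ∀ j, j ∈ Z ↔ j ∈ T ∧ j * j = 1 := fun j => Iff.rfl
  have σZ : ∀ j ∈ Z, σ j ∈ Z := by
    rintro j ⟨hj, hj2⟩
    exact ⟨hsT' j hj, by rw [← map_mul, hj2, map_one]⟩
  have cenZ : ∀ j ∈ Z, ∀ t ∈ T, j * t = t * j := fun j hj t ht => hcen j hj.1 hj.2 t ht
  obtain ⟨i, hi, j, hj, hi1, hj1, hij, hi2, hj2⟩ := hfour
  have hiZ : i ∈ Z := ⟨hi, hi2⟩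
  have hjZ : j ∈ Z := ⟨hj, hj2⟩
  have fixmul : ∀ y ∈ Z, σ (y * σ y) = y * σ y := by
    intro y hy
    rw [map_mul, hσσ]
    exact (cenZ y hy (σ y) (hsT' y hy.1)).symm
  obtain ⟨z, hzZ, hz1, hσz⟩ : ∃ z ∈ Z, z ≠ 1 ∧ σ z = z := by
    by_cases h : i * σ i = 1
    · refine ⟨i, hiZ, hi1, ?_⟩
      have := eq_inv_of_mul_eq_one_right h
      rw [this, inv2 i hi2]
    · exact ⟨i * σ i, Z.mul_mem hiZ (σZ i hiZ), h, fixmul i hiZ⟩
  have hz2 : z * z = 1 := hzZ.2
  have fix_z : ∀ t ∈ T, t ≠ 1 → σ t = t → t = z := fun t ht h1 hf => hc' t ht z hzZ.1 h1 hz1 hf hσz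
  have key : ∀ y ∈ Z, y ≠ 1 → y ≠ z → σ y = y * z := by
    intro y hy hy1 hyz
    by_cases h : y * σ y = 1
    · exfalso
      have h3 := eq_inv_of_mul_eq_one_right h
      rw [inv2 y hy.2] at h3
      exact hyz (fix_z y hy.1 hy1 h3)
    · have h3 := fix_z _ (T.mul_mem hy.1 (hsT' y hy.1)) h (fixmul y hy)
      calc σ y = y⁻¹ * (y * σ y) := by group
        _ = y * z := by rw [h3, inv2 y hy.2]
  obtain ⟨y, hyZ, hy1, hyz⟩ : ∃ y ∈ Z, y ≠ 1 ∧ y ≠ z := by
    by_cases h : i = z
    · exact ⟨j, hjZ, hj1, fun h' => hij (h.trans h'.symm)⟩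
    · exact ⟨i, hiZ, hi1, h⟩
  have hσy := key y hyZ hy1 hyz
  have hy2 : y * y = 1 := hyZ.2
  have hyzc : y * z = z * y := cenZ y hyZ z hzZ.1
  have all : ∀ w ∈ Z, w = 1 ∨ w = z ∨ w = y ∨ w = y * z := by
    intro w hw
    by_cases hw1 : w = 1
    · exact Or.inl hw1
    by_cases hwz : w = z
    · exact Or.inr (Or.inl hwz)
    have h3 := key w hw hw1 hwz
    have h4 : σ (y * w) = y * w := by
      rw [map_mul, hσy, h3]
      calc y * z * (w * z) = y * (z * w) * z := by group
        _ = y * (w * z) * z := by rw [cenZ z hzZ w hw.1]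
        _ = y * w * (z * z) := by group
        _ = y * w := by rw [hz2, mul_one]
    by_cases h5 : y * w = 1
    · right; right; left
      rw [eq_inv_of_mul_eq_one_right h5, inv2 y hy2]
    · right; right; right
      have h6 := fix_z _ (T.mul_mem hyZ.1 hw.1) h5 h4
      calc w = y⁻¹ * (y * w) := by group
        _ = y * z := by rw [h6, inv2 y hy2]
  by_cases hTZ : T ≤ Z
  · have hTZ' : T = Z := le_antisymm hTZ (fun t ht => ht.1)
    have hset : (T : Set G) = ↑({1, z, y, y * z} : Finset G) := by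
      ext w
      simp only [SetLike.mem_coe, Finset.coe_insert, Finset.coe_singleton, Set.mem_insert_iff, Set.mem_singleton_iff]
      constructor
      · intro hw; exact all w (hTZ hw)
      · rintro (rfl | rfl | rfl | rfl)
        · exact T.one_mem
        · exact hzZ.1
        · exact hyZ.1
        · exact T.mul_mem hyZ.1 hzZ.1
    have hcard : Nat.card T = ({1, z, y, y * z} : Finset G).card := by
      have : Nat.card T = Set.ncard (T : Set G) := rfl
      rw [this, hset, Set.ncard_coe_finset]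
    rw [hcard, Finset.card_insert_of_notMem, Finset.card_insert_of_notMem, Finset.card_pair]
    · intro h; exact hz1 (by simpa using h)
    · simp only [Finset.mem_insert, Finset.mem_singleton, not_or]
      refine ⟨fun h => hyz h.symm, fun h => hy1 ?_⟩
      simpa using h
    · simp only [Finset.mem_insert, Finset.mem_singleton, not_or]
      refine ⟨fun h => hz1 h.symm, fun h => hy1 h.symm, fun h => hyz ?_⟩
      rw [← inv2 z hz2]
      exact eq_inv_of_mul_eq_one_left h.symm
  · exfalso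
    -- an element outside Z, with square in Z, fixed modulo Z
    obtain ⟨x, hxT, hxZ, hxx, hxσ⟩ : ∃ x ∈ T, x ∉ Z ∧ x * x ∈ Z ∧ x⁻¹ * σ x ∈ Z := by
      let Z' : Subgroup T := Z.subgroupOf T
      have hZ'n : Z'.Normal := by
        constructor
        intro n hn g
        have hn' : (n : G) ∈ Z := hn
        show ((g * n * g⁻¹ : T) : G) ∈ Z
        have : ((g * n * g⁻¹ : T) : G) = n := by
          show (g : G) * n * (g : G)⁻¹ = n
          rw [← cenZ n hn' g g.2]; group
        rw [this]; exact hn'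
      have hpT : IsPGroup 2 T := by
        intro t
        obtain ⟨k, hk⟩ := h2 t t.2
        exact ⟨k, Subtype.ext hk⟩
      haveI : Fact (Nat.Prime 2) := ⟨Nat.prime_two⟩
      have hpQ : IsPGroup 2 (T ⧸ Z') := hpT.to_quotient Z'
      haveI : Nontrivial (T ⧸ Z') := by
        obtain ⟨t, ht, htZ⟩ := SetLike.not_le_iff_exists.1 hTZ
        refine ⟨⟨QuotientGroup.mk (⟨t, ht⟩ : T), 1, fun h => htZ ?_⟩⟩
        rw [QuotientGroup.eq_one_iff] at h
        exact h
      haveI := hpQ.center_nontrivial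
      have hpc : IsPGroup 2 (Subgroup.center (T ⧸ Z')) := hpQ.to_subgroup _
      obtain ⟨c, hc1⟩ := exists_ne (1 : Subgroup.center (T ⧸ Z'))
      -- an element of order two in the center
      obtain ⟨d, hd⟩ : ∃ d : Subgroup.center (T ⧸ Z'), orderOf d = 2 := by
        apply exists_prime_orderOf_dvd_card' 2
        obtain ⟨n, hn0, hn⟩ := hpc.nontrivial_iff_card.1 inferInstance
        rw [hn]
        exact dvd_pow_self 2 (by omega)
      obtain ⟨x, hx⟩ := QuotientGroup.mk_surjective (d : T ⧸ Z')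
      have hd1 : (d : T ⧸ Z') ≠ 1 := by
        intro h
        have : d = 1 := Subtype.ext h
        rw [this, orderOf_one] at hd
        omega
      have hd2 : (d : T ⧸ Z') * d = 1 := by
        have : d * d = 1 := by rw [← pow_two, ← hd]; exact pow_orderOf_eq_one d
        exact congrArg Subtype.val this
      have hxZ : (x : G) ∉ Z := by
        intro h
        apply hd1
        rw [← hx, QuotientGroup.eq_one_iff]
        exact h
      have hxx : (x : G) * x ∈ Z := by
        have : (QuotientGroup.mk (x * x) : T ⧸ Z') = 1 := by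
          rw [QuotientGroup.mk_mul, hx, hd2]
        rw [QuotientGroup.eq_one_iff] at this
        exact this
      have hcomm : ∀ t ∈ T, (t * x)⁻¹ * (x * t) ∈ Z := by
        intro t ht
        have h3 := (Subgroup.mem_center_iff.1 d.2) (QuotientGroup.mk (⟨t, ht⟩ : T))
        rw [← hx, ← QuotientGroup.mk_mul, ← QuotientGroup.mk_mul, QuotientGroup.eq] at h3
        exact h3
      have hσx : σ x ∈ T := hsT' x x.2
      by_cases hw : (x : G) * σ x ∈ Z
      · refine ⟨x, x.2, hxZ, hxx, ?_⟩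
        have : (x : G)⁻¹ * σ x = ((x : G) * x)⁻¹ * (x * σ x) := by group
        rw [this]
        exact Z.mul_mem (Z.inv_mem hxx) hw
      · refine ⟨x * σ x, T.mul_mem x.2 hσx, hw, ?_, ?_⟩
        · -- (x σx)(x σx) = x (σx x) σx
          have h3 := hcomm (σ x) hσx
          set e := (σ (x : G) * x)⁻¹ * (x * σ x) with he
          have h4 : (x : G) * σ x = σ x * x * e := by rw [he]; group
          have h5 : (x : G) * σ x * (x * σ x) = (x * x) * (e⁻¹ * (σ x * σ x)) := by
            have h6 : σ (x : G) * x = x * σ x * e⁻¹ := by rw [h4]; group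
            have h7 : e⁻¹ * σ (x : G) = σ x * e⁻¹ := cenZ _ (Z.inv_mem h3) _ hσx
            calc (x : G) * σ x * (x * σ x) = x * (σ x * x) * σ x := by group
              _ = x * (x * σ x * e⁻¹) * σ x := by rw [h6]
              _ = (x * x) * ((σ x * e⁻¹) * σ x) := by group
              _ = (x * x) * (e⁻¹ * (σ x * σ x)) := by rw [← h7]; group
          rw [h5]
          refine Z.mul_mem hxx (Z.mul_mem (Z.inv_mem h3) ?_)
          rw [← map_mul]
          exact σZ _ hxx
        · rw [map_mul, hσσ]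
          -- (x σx)⁻¹ (σx x)
          have h3 := hcomm (σ x) hσx
          have : ((x : G) * σ x)⁻¹ * (σ x * x) = ((σ (x : G) * x)⁻¹ * (x * σ x))⁻¹ := by group
          rw [this]
          exact Z.inv_mem h3
    set w := x⁻¹ * σ x with hw
    have hσx : σ x = x * w := by rw [hw]; group
    have hwc : ∀ t ∈ T, w * t = t * w := cenZ w hxσ
    have hw2 : w * w = 1 := hxσ.2
    have hx1 : x * x ≠ 1 := fun h => hxZ ⟨hxT, h⟩
    have hxne : x ≠ 1 := fun h => hx1 (by rw [h, one_mul])
    have hσw : σ w = w := by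
      have h3 : σ (σ x) = x * w * σ w := by rw [hσx, map_mul, hσx]
      rw [hσσ] at h3
      have h4 : w * σ w = 1 := by
        calc w * σ w = x⁻¹ * (x * w * σ w) := by group
          _ = 1 := by rw [← h3]; group
      rw [eq_inv_of_mul_eq_one_right h4, inv2 w hw2]
    by_cases hw1 : w = 1
    · have h3 : σ x = x := by rw [hσx, hw1, mul_one]
      exact hxZ (fix_z x hxT hxne h3 ▸ hzZ)
    · have hwz : w = z := fix_z w hxσ.1 hw1 hσw
      have h3 : σ (x * y) = x * y := by
        rw [map_mul, hσx, hσy, hwz]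
        calc x * z * (y * z) = x * (z * y) * z := by group
          _ = x * (y * z) * z := by rw [hyzc]
          _ = x * y * (z * z) := by group
          _ = x * y := by rw [hz2, mul_one]
      have h4 : x * y ≠ 1 := by
        intro h
        apply hxZ
        rw [eq_inv_of_mul_eq_one_left h]
        exact Z.inv_mem hyZ
      have h5 := fix_z _ (T.mul_mem hxT hyZ.1) h4 h3
      apply hxZ
      have : x = z * y⁻¹ := by rw [← h5]; group
      rw [this]
      exact Z.mul_mem hzZ (Z.inv_mem hyZ)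

end H77.CardFour
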