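import Mathlib

/-!
# Frobenius' commutator argument for finite groups of unitary elements

In a finite group of unitary elements of a C*-algebra two elements `a`, `b` with
`‖a - α‖ < 1/2` for some scalar `α` and `‖1 - b‖ < 1` commute.
-/

set_option autoImplicit false

namespace H77.FrobComm

variable {A : Type*} [NormedRing A] [NormedAlgebra ℂ A] [StarRing A] [CStarRing A]

theorem norm_commutator_le {a b : A} (ha : a ∈ unitary A) (hb : b ∈ unitary A) (α : ℂ) :
    ‖1 - a * b * star a * star b‖ ≤ 2 * ‖a - algebraMap ℂ A α‖ * ‖1 - b‖ := by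
  have h1 : (1 : A) - a * b * star a * star b = (b * a - a * b) * star a * star b := by
    have e1 : a * star a = 1 := Unitary.mul_star_self_of_mem ha
    have e2 : b * star b = 1 := Unitary.mul_star_self_of_mem hb
    rw [sub_mul, sub_mul, mul_assoc b a (star a), e1, mul_one, e2]
  have ha' : star a ∈ unitary A := Unitary.star_mem ha
  have hb' : star b ∈ unitary A := Unitary.star_mem hb
  rw [h1, CStarRing.norm_mul_mem_unitary _ hb', CStarRing.norm_mul_mem_unitary _ ha']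
  have h2 : b * a - a * b = (a - algebraMap ℂ A α) * (1 - b) - (1 - b) * (a - algebraMap ℂ A α) := by
    have hc : algebraMap ℂ A α * b = b * algebraMap ℂ A α := Algebra.commutes α b
    simp only [sub_mul, mul_sub, one_mul, mul_one, hc]
    abel
  rw [h2]
  calc ‖(a - algebraMap ℂ A α) * (1 - b) - (1 - b) * (a - algebraMap ℂ A α)‖
      ≤ ‖(a - algebraMap ℂ A α) * (1 - b)‖ + ‖(1 - b) * (a - algebraMap ℂ A α)‖ := norm_sub_le _ _
    _ ≤ ‖a - algebraMap ℂ A α‖ * ‖1 - b‖ + ‖1 - b‖ * ‖a - algebraMap ℂ A α‖ :=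
        add_le_add (norm_mul_le _ _) (norm_mul_le _ _)
    _ = 2 * ‖a - algebraMap ℂ A α‖ * ‖1 - b‖ := by ring

/-- In a group `G` mapped into the unitary elements: if `a` commutes with `[a, b]`, the element
`[a,b]` has finite order and `‖1 - b‖ < 1` then `[a, b]` acts trivially. -/
theorem commutator_eq_one_of_commute [CompleteSpace A] [NormOneClass A]
    {G : Type*} [Group G] [Finite G] (ρ : G →* A)
    (hρ : ∀ g, ρ g ∈ unitary A) {a b : G} (hcomm : Commute a (a * b * a⁻¹ * b⁻¹))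
    (hb : ‖1 - ρ b‖ < 1) : ρ (a * b * a⁻¹ * b⁻¹) = 1 := by
  set c : G := a * b * a⁻¹ * b⁻¹ with hc
  have hcb : ∀ k : ℕ, a ^ k * b * (a ^ k)⁻¹ = c ^ k * b := by
    intro k
    induction k with
    | zero => simp
    | succ k ih =>
      have : a ^ (k + 1) * b * (a ^ (k + 1))⁻¹ = a * (a ^ k * b * (a ^ k)⁻¹) * a⁻¹ := by
        rw [pow_succ' a k]; group
      rw [this, ih]
      have h2 : a * (c ^ k * b) * a⁻¹ = (a * c ^ k) * b * a⁻¹ := by group
      rw [h2, (hcomm.pow_right k).eq]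
      have h3 : c ^ k * a * b * a⁻¹ = c ^ k * (a * b * a⁻¹ * b⁻¹) * b := by group
      rw [h3, ← hc, pow_succ]
  have hnorm : ∀ k : ℕ, ‖1 - ρ (c ^ k * b)‖ = ‖1 - ρ b‖ := by
    intro k
    rw [← hcb k]
    have h1 : (1 : A) - ρ (a ^ k * b * (a ^ k)⁻¹) = ρ (a ^ k) * (1 - ρ b) * ρ ((a ^ k)⁻¹) := by
      rw [mul_sub, sub_mul, mul_one, ← map_mul, ← map_mul, ← map_mul, mul_inv_cancel, map_one]
    rw [h1, CStarRing.norm_mul_mem_unitary _ (hρ _), CStarRing.norm_mem_unitary_mul _ (hρ _)]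
  set m := orderOf c with hm
  have hmpos : 0 < m := orderOf_pos c
  set e : A := ∑ k ∈ Finset.range m, ρ (c ^ k) with he
  have hce : ρ c * e = e := by
    rw [he, Finset.mul_sum]
    have : ∀ k ∈ Finset.range m, ρ c * ρ (c ^ k) = ρ (c ^ (k + 1)) := by
      intro k _
      rw [← map_mul, ← pow_succ']
    rw [Finset.sum_congr rfl this]
    have h1 := Finset.sum_range_succ (fun k => ρ (c ^ k)) m
    have h2 := Finset.sum_range_succ' (fun k => ρ (c ^ k)) m
    rw [h1] at h2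
    simp only [pow_zero] at h2
    rw [hm, pow_orderOf_eq_one] at h2
    exact (add_right_cancel h2).symm
  -- `‖m - e * ρ b‖ < m`
  have hlt : ‖(m : A) - e * ρ b‖ < m := by
    have h1 : (m : A) - e * ρ b = ∑ k ∈ Finset.range m, (1 - ρ (c ^ k * b)) := by
      rw [Finset.sum_sub_distrib, he, Finset.sum_mul]
      simp
    rw [h1]
    calc ‖∑ k ∈ Finset.range m, (1 - ρ (c ^ k * b))‖ ≤ ∑ k ∈ Finset.range m, ‖1 - ρ (c ^ k * b)‖ :=
          norm_sum_le _ _
      _ = ∑ k ∈ Finset.range m, ‖1 - ρ b‖ := Finset.sum_congr rfl fun k _ => hnorm k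
      _ = m * ‖1 - ρ b‖ := by simp
      _ < m * 1 := by
          apply mul_lt_mul_of_pos_left hb
          exact_mod_cast hmpos
      _ = m := mul_one _
  have hunit : IsUnit (e * ρ b) := by
    set x : A := ((m : ℂ)⁻¹) • (e * ρ b) with hx
    have hmC : (m : ℂ) ≠ 0 := by exact_mod_cast hmpos.ne'
    have h1 : ‖1 - x‖ < 1 := by
      have h2 : 1 - x = ((m : ℂ)⁻¹) • ((m : A) - e * ρ b) := by
        rw [smul_sub, hx]
        congr 1
        have h5 : (m : A) = algebraMap ℂ A (m : ℂ) := by simp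
        rw [h5, Algebra.algebraMap_eq_smul_one, smul_smul, inv_mul_cancel₀ hmC, one_smul]
      rw [h2, norm_smul]
      have h3 : ‖((m : ℂ)⁻¹)‖ = (m : ℝ)⁻¹ := by simp
      rw [h3]
      have hmR : (0 : ℝ) < m := by exact_mod_cast hmpos
      calc (m : ℝ)⁻¹ * ‖(m : A) - e * ρ b‖ < (m : ℝ)⁻¹ * m :=
            mul_lt_mul_of_pos_left hlt (inv_pos.mpr hmR)
        _ = 1 := inv_mul_cancel₀ hmR.ne'
    have h2 : IsUnit x := by
      have := isUnit_one_sub_of_norm_lt_one h1
      simpa using this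
    have h3 : e * ρ b = (m : ℂ) • x := by
      rw [hx, smul_smul, mul_inv_cancel₀ hmC, one_smul]
    rw [h3]
    exact (isUnit_smul_iff (Units.mk0 (m : ℂ) hmC) x).mpr h2
  -- conclude
  have h1 : (ρ c - 1) * (e * ρ b) = 0 := by
    rw [← mul_assoc, sub_mul, hce, one_mul, sub_self, zero_mul]
  have h2 : ρ c - 1 = 0 := by
    have := hunit.mul_left_eq_zero.mp h1
    exact this
  exact sub_eq_zero.mp h2

/-- Main lemma: in a finite group of unitary elements, `a` and `b` commute as soon as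
`‖a - α‖ < 1/2` for some scalar `α` and `‖1 - b‖ < 1`. -/
theorem commute_of_small [CompleteSpace A] [NormOneClass A]
    {G : Type*} [Group G] [Finite G] (ρ : G →* A)
    (hρ : ∀ g, ρ g ∈ unitary A) (hinj : Function.Injective ρ) {a b : G} (α : ℂ)
    (ha : ‖ρ a - algebraMap ℂ A α‖ < 1 / 2) (hb : ‖1 - ρ b‖ < 1) : Commute a b := by
  classical
  set q : ℝ := 2 * ‖ρ a - algebraMap ℂ A α‖ with hq
  have hq0 : 0 ≤ q := by positivity
  have hq1 : q < 1 := by rw [hq]; linarith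
  -- iterated commutators
  obtain ⟨f, hf0, hfs⟩ : ∃ f : ℕ → G, f 0 = b ∧ ∀ k, f (k + 1) = a * f k * a⁻¹ * (f k)⁻¹ :=
    ⟨fun k => Nat.rec (motive := fun _ => G) b (fun _ x => a * x * a⁻¹ * x⁻¹) k, rfl, fun k => rfl⟩
  have hstar : ∀ g : G, ρ g⁻¹ = star (ρ g) := by
    intro g
    have h1 : ρ g * ρ g⁻¹ = 1 := by rw [← map_mul]; simp
    have h2 : star (ρ g) * ρ g = 1 := Unitary.star_mul_self_of_mem (hρ g)
    calc ρ g⁻¹ = star (ρ g) * ρ g * ρ g⁻¹ := by rw [h2, one_mul]
      _ = star (ρ g) := by rw [mul_assoc, h1, mul_one]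
  have hstep : ∀ x : G, ‖1 - ρ (a * x * a⁻¹ * x⁻¹)‖ ≤ q * ‖1 - ρ x‖ := by
    intro x
    have := norm_commutator_le (hρ a) (hρ x) α
    rw [map_mul, map_mul, map_mul, hstar, hstar]
    exact this
  have hbound : ∀ k, ‖1 - ρ (f k)‖ ≤ q ^ k * ‖1 - ρ b‖ := by
    intro k
    induction k with
    | zero => simp [hf0]
    | succ k ih =>
      rw [hfs]
      calc ‖1 - ρ (a * f k * a⁻¹ * (f k)⁻¹)‖ ≤ q * ‖1 - ρ (f k)‖ := hstep _
        _ ≤ q * (q ^ k * ‖1 - ρ b‖) := mul_le_mul_of_nonneg_left ih hq0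
        _ = q ^ (k + 1) * ‖1 - ρ b‖ := by ring
  have hlt1 : ∀ k, ‖1 - ρ (f k)‖ < 1 := by
    intro k
    calc ‖1 - ρ (f k)‖ ≤ q ^ k * ‖1 - ρ b‖ := hbound k
      _ ≤ 1 * ‖1 - ρ b‖ := mul_le_mul_of_nonneg_right (pow_le_one₀ hq0 hq1.le) (norm_nonneg _)
      _ < 1 := by rw [one_mul]; exact hb
  -- there is a positive lower bound for the norms `‖1 - ρ x‖`, `x ≠ 1`
  obtain ⟨δ, hδ, hδ'⟩ : ∃ δ : ℝ, 0 < δ ∧ ∀ x : G, ‖1 - ρ x‖ < δ → x = 1 := by
    have := Fintype.ofFinite G
    by_cases hne : (Finset.univ.filter fun x : G => x ≠ 1).Nonempty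
    · obtain ⟨y, hy, hmin⟩ := Finset.exists_min_image _ (fun x => ‖1 - ρ x‖) hne
      refine ⟨‖1 - ρ y‖, ?_, ?_⟩
      · rw [norm_pos_iff, sub_ne_zero]
        intro h
        have : y = 1 := hinj (by rw [← h, map_one])
        simp [this] at hy
      · intro x hx
        by_contra hx1
        exact absurd (hmin x (by simp [hx1])) (not_le.mpr hx)
    · refine ⟨1, one_pos, fun x _ => ?_⟩
      by_contra hx1
      exact hne ⟨x, by simp [hx1]⟩
  obtain ⟨K, hK⟩ : ∃ K, f K = 1 := by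
    have hlim : Filter.Tendsto (fun k => q ^ k * ‖1 - ρ b‖) Filter.atTop (nhds (0 * ‖1 - ρ b‖)) :=
      (tendsto_pow_atTop_nhds_zero_of_lt_one hq0 hq1).mul_const _
    rw [zero_mul] at hlim
    obtain ⟨K, hK⟩ := (hlim.eventually (gt_mem_nhds hδ)).exists
    exact ⟨K, hδ' _ (lt_of_le_of_lt (hbound K) hK)⟩
  -- descend
  have hdesc : ∀ k, f (k + 1) = 1 := by
    by_contra hcon
    push Not at hcon
    obtain ⟨k₀, hk₀⟩ := hcon
    have hstay : ∀ k j, f k = 1 → f (k + j) = 1 := by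
      intro k j h
      induction j with
      | zero => simpa using h
      | succ j ih =>
        rw [← add_assoc, hfs, ih]; group
    -- the least K with f K = 1
    have hex : ∃ K, f K = 1 := ⟨K, hK⟩
    obtain ⟨K₀, hfK, hmin₀⟩ : ∃ K₀, f K₀ = 1 ∧ ∀ m < K₀, f m ≠ 1 :=
      ⟨Nat.find (p := fun n => f n = 1) hex, Nat.find_spec (p := fun n => f n = 1) hex,
        fun m hm => Nat.find_min (p := fun n => f n = 1) hex hm⟩
    have hlt : k₀ + 1 < K₀ := by
      by_contra hle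
      push Not at hle
      obtain ⟨j, hj⟩ := Nat.exists_eq_add_of_le hle
      exact hk₀ (by rw [hj]; exact hstay _ _ hfK)
    obtain ⟨m, hm⟩ : ∃ m, K₀ = m + 2 := ⟨K₀ - 2, by omega⟩
    have hm1 : f (m + 1) ≠ 1 := hmin₀ _ (by omega)
    apply hm1
    have hc : Commute a (f (m + 1)) := by
      have h1 : f (m + 2) = 1 := by rw [← hm]; exact hfK
      rw [hfs] at h1
      have h2 : a * f (m + 1) * a⁻¹ = f (m + 1) := by
        have := mul_eq_one_iff_eq_inv.mp h1
        simpa using this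
      show a * f (m + 1) = f (m + 1) * a
      calc a * f (m + 1) = a * f (m + 1) * a⁻¹ * a := by group
        _ = f (m + 1) * a := by rw [h2]
    have h3 := commutator_eq_one_of_commute ρ hρ (a := a) (b := f m) (by rw [← hfs]; exact hc) (hlt1 m)
    rw [← hfs] at h3
    exact hinj (by rw [h3, map_one])
  have h1 := hdesc 0
  rw [hfs, hf0] at h1
  have h2 : a * b * a⁻¹ = b := by
    have := mul_eq_one_iff_eq_inv.mp h1
    simpa using this
  show a * b = b * a
  calc a * b = a * b * a⁻¹ * a := by group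
    _ = b * a := by rw [h2]

end H77.FrobComm
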