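import Mathlib

/-!
# Unitary form of a finite matrix group
-/

set_option autoImplicit false

namespace H77.Unitary

open Matrix
open scoped MatrixOrder ComplexOrder

/-- A representation of a finite group by complex matrices is conjugate to a unitary one. -/
theorem exists_unitary_conj {G : Type*} [Group G] [Finite G] {n : ℕ}
    (R : G →* Matrix (Fin n) (Fin n) ℂ) :
    ∃ P : Matrix (Fin n) (Fin n) ℂ, IsUnit P ∧
      ∀ g, P * R g * P⁻¹ ∈ Matrix.unitaryGroup (Fin n) ℂ := by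
  classical
  haveI := Fintype.ofFinite G
  set A : Matrix (Fin n) (Fin n) ℂ := ∑ g : G, (R g)ᴴ * R g with hA
  have hApos : A.PosDef := by
    have h1 : ∀ g : G, ((R g)ᴴ * R g).PosDef := by
      intro g
      apply Matrix.PosDef.conjTranspose_mul_self
      apply Matrix.mulVec_injective_of_isUnit
      exact ⟨⟨R g, R g⁻¹, by rw [← map_mul]; simp, by rw [← map_mul]; simp⟩, rfl⟩
    have := Matrix.posDef_sum (s := (Finset.univ : Finset G)) (A := fun g => (R g)ᴴ * R g)
      ⟨1, Finset.mem_univ _⟩ (fun g _ => h1 g)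
    exact this
  obtain ⟨B, hB⟩ := (CStarAlgebra.nonneg_iff_eq_star_mul_self (a := A)).mp
    (Matrix.nonneg_iff_posSemidef.mpr hApos.posSemidef)
  have hAinv : ∀ h : G, (R h)ᴴ * A * R h = A := by
    intro h
    rw [hA, Finset.mul_sum, Finset.sum_mul]
    refine Fintype.sum_bijective (fun g => g * h) (Group.mulRight_bijective h) _ _ ?_
    intro g
    simp only [map_mul, Matrix.conjTranspose_mul, Matrix.mul_assoc]
  have hBu : IsUnit B := by
    have hAu : IsUnit A := hApos.isUnit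
    rw [hB] at hAu
    have hd : IsUnit (star B * B).det := (Matrix.isUnit_iff_isUnit_det _).mp hAu
    rw [Matrix.det_mul] at hd
    exact (Matrix.isUnit_iff_isUnit_det _).mpr (isUnit_of_mul_isUnit_right hd)
  refine ⟨B, hBu, fun g => ?_⟩
  have hdet : IsUnit B.det := (Matrix.isUnit_iff_isUnit_det _).mp hBu
  rw [Matrix.mem_unitaryGroup_iff']
  have h1 : star (B * R g * B⁻¹) = (B⁻¹)ᴴ * ((R g)ᴴ * Bᴴ) := by
    rw [Matrix.star_eq_conjTranspose, Matrix.conjTranspose_mul, Matrix.conjTranspose_mul]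
  rw [h1]
  have h2 : (B⁻¹)ᴴ * ((R g)ᴴ * Bᴴ) * (B * R g * B⁻¹) = (B⁻¹)ᴴ * ((R g)ᴴ * (star B * B) * R g) * B⁻¹ := by
    rw [Matrix.star_eq_conjTranspose]
    simp only [Matrix.mul_assoc]
  rw [h2, ← hB, hAinv, hB, Matrix.star_eq_conjTranspose]
  have h3 : (B⁻¹)ᴴ * (Bᴴ * B) * B⁻¹ = ((B⁻¹)ᴴ * Bᴴ) * (B * B⁻¹) := by
    simp only [Matrix.mul_assoc]
  rw [h3, ← Matrix.conjTranspose_mul, Matrix.mul_nonsing_inv _ hdet]
  simp

end H77.Unitary
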