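import Cfsg.Agent.Lib.H19.BrMap
import Cfsg.Agent.Lib.H1.Cores

/-!
# Values of central characters at block idempotents (helper77)
-/

set_option autoImplicit false
set_option linter.unusedSectionVars false
set_option linter.unusedVariables false
set_option linter.style.haveILetI false
open Cfsg H18 H20.Loc H20.GA H20.Blk H20.Orth
open scoped ComplexConjugate

namespace H77.BlkReg

universe u
variable {G : Type u} [Group G] [Finite G] {p : ℕ} {M : Ideal AlgInt}

theorem centralChar_one (χ : IrrCharacter G) : centralChar (χ : G → ℂ) 1 = 1 := by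
  have h : (Subgroup.centralizer ({1} : Set G)) = ⊤ := by
    rw [eq_top_iff]
    intro x _
    rw [Subgroup.mem_centralizer_singleton_iff, one_mul, mul_one]
  rw [centralChar, h, Subgroup.index_top, Nat.cast_one, one_mul,
    div_self (H18.CharBasic.irr_one_ne_zero χ.2)]

theorem out_eq_one_iff (C : ConjClasses G) : C.out = 1 ↔ C = ConjClasses.mk 1 := by
  constructor
  · intro h
    rw [← h]; exact (Quotient.out_eq C).symm
  · rintro rfl
    have h1 : ConjClasses.mk (ConjClasses.mk (1 : G)).out = ConjClasses.mk (1 : G) := Quotient.out_eq _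
    rw [ConjClasses.mk_eq_mk_iff_isConj] at h1
    exact isConj_one_right.1 h1.symm

/-- If all terms outside the identity class are in `M`, `ω_χ(z) ≡ z_1`. -/
theorem omega_congr_one [M.IsPrime] {z : ZG G} (χ : IrrCharacter G)
    (h : ∀ g : G, g ≠ 1 → MemLocalIdeal M (zc z g * centralChar (χ : G → ℂ) g)) :
    MemLocalIdeal M (omega χ z - zc z 1) := by
  classical
  letI := Fintype.ofFinite (ConjClasses G)
  rw [eq_sum_cls z, map_sum]
  rw [← Finset.add_sum_erase _ _ (Finset.mem_univ (ConjClasses.mk (1 : G)))]
  have h1 : (ConjClasses.mk (1 : G)).out = 1 := (out_eq_one_iff _).2 rfl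
  rw [← eq_sum_cls z, map_smul, smul_eq_mul, omega_cls, h1, centralChar_one, mul_one,
    add_comm, add_sub_cancel_right]
  refine locI_sum fun C hC => ?_
  rw [map_smul, smul_eq_mul, omega_cls]
  apply h
  rw [Ne, out_eq_one_iff]
  exact (Finset.mem_erase.1 hC).1

/-- If no nonidentity `p`-regular element centralizes the normal `p`-subgroup `P`, then `G` has
a single block. -/
theorem single_block (hM : IsPModular p M) (P : Subgroup G) [P.Normal] (hP : IsPGroup p P)
    (h : ∀ g ∈ Subgroup.centralizer (P : Set G), ¬ p ∣ orderOf g → g = 1)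
    (χ ψ : IrrCharacter G) : SameBlock M (χ : G → ℂ) (ψ : G → ℂ) := by
  haveI := pm_isPrime hM
  have hB := isPBlock_blockOf (M := M) χ
  have key : ∀ ξ : IrrCharacter G, MemLocalIdeal M
      (omega ξ (eB (blockOf M (χ : G → ℂ))) - zc (eB (blockOf M (χ : G → ℂ))) 1) := by
    intro ξ
    apply omega_congr_one
    intro g hg
    by_cases hr : p ∣ orderOf g
    · rw [zc_eB, blockCoeff_eq_zero hM (isUnion_of_isPBlock hB) hr, zero_mul]
      exact locI_zero
    · refine locI_mul_left (eB_mem hB g) ?_
      rw [← omega_cls]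
      apply H19.BrMap.omega_cls_memI hM P hP
      intro hc
      exact hg (h g hc hr)
  have h1 := locI_trans (key χ) (locI_sub_comm.1 (key ψ))
  rw [omega_eB_mem (mem_blockOf_self χ)] at h1
  by_contra hne
  have h2 : ψ ∉ blockOf M (χ : G → ℂ) := hne
  rw [omega_eB_notMem h2, sub_zero] at h1
  exact not_locI_one h1

end H77.BlkReg
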