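import Mathlib
import Cfsg.Agent.Lib.H77.Unitary
import Cfsg.Agent.Lib.H77.FrobComm
import Cfsg.Agent.Lib.H77.JointEigen

/-!
# The abelian normal subgroup of a finite linear group generated by elements near 1
-/

set_option autoImplicit false

namespace H77.Blich12

open Module
open scoped Matrix.Norms.L2Operator

/-- Sectors of 30 degrees. -/
noncomputable def sector (z : ℂ) : ℤ := ⌈(z.arg + Real.pi) * (6 / Real.pi)⌉

theorem sector_mem (z : ℂ) : 1 ≤ sector z ∧ sector z ≤ 12 := by
  have hpi := Real.pi_pos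
  have h1 := Complex.neg_pi_lt_arg z
  have h2 := Complex.arg_le_pi z
  constructor
  · have : 0 < sector z := by
      apply Int.ceil_pos.mpr
      apply mul_pos (by linarith) (by positivity)
    omega
  · apply Int.ceil_le.mpr
    have : (z.arg + Real.pi) * (6 / Real.pi) ≤ (2 * Real.pi) * (6 / Real.pi) := by
      apply mul_le_mul_of_nonneg_right (by linarith) (by positivity)
    refine this.trans (le_of_eq ?_)
    field_simp
    norm_num

theorem abs_arg_sub_lt {z w : ℂ} (h : sector z = sector w) : |w.arg - z.arg| < Real.pi / 6 := by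
  have hpi := Real.pi_pos
  unfold sector at h
  set x := (z.arg + Real.pi) * (6 / Real.pi) with hx
  set y := (w.arg + Real.pi) * (6 / Real.pi) with hy
  have h1 : |y - x| < 1 := by
    have hx1 := Int.ceil_lt_add_one x
    have hx2 := Int.le_ceil x
    have hy1 := Int.ceil_lt_add_one y
    have hy2 := Int.le_ceil y
    rw [← h] at hy1 hy2
    rw [abs_lt]
    constructor <;> linarith
  have h2 : w.arg - z.arg = (y - x) * (Real.pi / 6) := by
    rw [hx, hy]; field_simp; ring
  rw [h2, abs_mul, abs_of_pos (show (0 : ℝ) < Real.pi / 6 by positivity)]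
  calc |y - x| * (Real.pi / 6) < 1 * (Real.pi / 6) :=
        mul_lt_mul_of_pos_right h1 (by positivity)
    _ = Real.pi / 6 := one_mul _

/-- If two unit complex numbers lie in the same sector their quotient has real part `> √3/2`. -/
theorem re_gt {z w : ℂ} (hz : ‖z‖ = 1) (hw : ‖w‖ = 1) (h : sector z = sector w) :
    Real.sqrt 3 / 2 < (z⁻¹ * w).re := by
  have hz1 : z = Complex.exp (z.arg * Complex.I) := by
    conv_lhs => rw [← Complex.norm_mul_exp_arg_mul_I z, hz]
    simp
  have hw1 : w = Complex.exp (w.arg * Complex.I) := by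
    conv_lhs => rw [← Complex.norm_mul_exp_arg_mul_I w, hw]
    simp
  have h1 : z⁻¹ * w = Complex.exp (((w.arg - z.arg : ℝ) : ℂ) * Complex.I) := by
    rw [hz1, hw1, ← Complex.exp_neg, ← Complex.exp_add, ← hz1, ← hw1]
    congr 1
    push_cast
    ring
  rw [h1, Complex.exp_ofReal_mul_I_re]
  have h2 := abs_arg_sub_lt h
  have hpi := Real.pi_pos
  rw [← Real.cos_abs, ← Real.cos_pi_div_six]
  exact Real.cos_lt_cos_of_nonneg_of_le_pi (abs_nonneg _) (by linarith) h2

theorem norm_sub_lt {z : ℂ} (hz : ‖z‖ = 1) (h : Real.sqrt 3 / 2 < z.re) :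
    ‖z - ((Real.sqrt 3 / 2 : ℝ) : ℂ)‖ < 1 / 2 ∧ ‖1 - z‖ < 1 := by
  have h3 : Real.sqrt 3 ^ 2 = 3 := Real.sq_sqrt (by norm_num)
  have h3' : 0 < Real.sqrt 3 := by positivity
  have hsq : z.re ^ 2 + z.im ^ 2 = 1 := by
    have := Complex.sq_norm z
    rw [hz, Complex.normSq_apply] at this
    nlinarith
  constructor
  · have h4 : ‖z - ((Real.sqrt 3 / 2 : ℝ) : ℂ)‖ ^ 2 < (1 / 2) ^ 2 := by
      rw [Complex.sq_norm, Complex.normSq_apply]
      simp only [Complex.sub_re, Complex.sub_im, Complex.ofReal_re, Complex.ofReal_im, sub_zero]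
      nlinarith
    exact lt_of_pow_lt_pow_left₀ 2 (by norm_num) h4
  · have h5 : (3 : ℝ) / 2 < Real.sqrt 3 := by
      rw [Real.lt_sqrt (by norm_num)]; norm_num
    have h4 : ‖1 - z‖ ^ 2 < 1 ^ 2 := by
      rw [Complex.sq_norm, Complex.normSq_apply]
      simp only [Complex.sub_re, Complex.sub_im, Complex.one_re, Complex.one_im, zero_sub]
      nlinarith
    exact lt_of_pow_lt_pow_left₀ 2 (by norm_num) h4

/-- Norm of `u - α` for unitary `u` is attained on the spectrum. -/
theorem norm_sub_lt_of_spectrum {n : ℕ} [NeZero n] {U : Matrix (Fin n) (Fin n) ℂ}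
    (hU : U ∈ Matrix.unitaryGroup (Fin n) ℂ) (α : ℂ) {r : ℝ}
    (h : ∀ μ ∈ spectrum ℂ U, ‖μ - α‖ < r) : ‖U - algebraMap ℂ _ α‖ < r := by
  have hnorm : IsStarNormal (U - algebraMap ℂ (Matrix (Fin n) (Fin n) ℂ) α) := by
    have h1 : star U * U = 1 := Unitary.star_mul_self_of_mem hU
    have h2 : U * star U = 1 := Unitary.mul_star_self_of_mem hU
    refine ⟨?_⟩
    show star (U - algebraMap ℂ _ α) * (U - algebraMap ℂ _ α)
      = (U - algebraMap ℂ _ α) * star (U - algebraMap ℂ _ α)
    rw [star_sub]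
    have h3 : star (algebraMap ℂ (Matrix (Fin n) (Fin n) ℂ) α) = algebraMap ℂ _ (star α) :=
      (algebraMap_star_comm α).symm
    rw [h3, sub_mul, mul_sub, mul_sub, sub_mul, mul_sub, mul_sub, h1, h2,
      Algebra.commutes (star α) U, ← Algebra.commutes α (star U),
      Algebra.commutes (star α) (algebraMap ℂ (Matrix (Fin n) (Fin n) ℂ) α)]
    abel
  obtain ⟨k, hk, hk'⟩ := spectrum.exists_nnnorm_eq_spectralRadius
    (U - algebraMap ℂ (Matrix (Fin n) (Fin n) ℂ) α)
  have h1 := IsStarNormal.spectralRadius_eq_nnnorm (U - algebraMap ℂ (Matrix (Fin n) (Fin n) ℂ) α)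
  rw [h1] at hk'
  have h2 : ‖k‖ = ‖U - algebraMap ℂ (Matrix (Fin n) (Fin n) ℂ) α‖ := by
    have h4 : ‖k‖₊ = ‖U - algebraMap ℂ (Matrix (Fin n) (Fin n) ℂ) α‖₊ := by exact_mod_cast hk'
    exact congrArg NNReal.toReal h4
  rw [← h2]
  have h5 : k + α ∈ spectrum ℂ U := by
    rw [spectrum.add_mem_iff, neg_add_eq_sub]
    exact hk
  have := h _ h5
  simpa using this

/-- A finite group of complex `n × n` matrices has a normal abelian subgroup `A` meeting every
abelian subgroup in a subgroup of index at most `12 ^ n`. -/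
theorem exists_normal_abelian {G : Type*} [Group G] [Finite G] {n : ℕ}
    (R : G →* Matrix (Fin n) (Fin n) ℂ) (hinj : Function.Injective R) :
    ∃ A : Subgroup G, A.Normal ∧ (∀ x ∈ A, ∀ y ∈ A, x * y = y * x) ∧
      ∀ H : Subgroup G, (∀ x ∈ H, ∀ y ∈ H, x * y = y * x) → (A.subgroupOf H).index ≤ 12 ^ n := by
  classical
  rcases Nat.eq_zero_or_pos n with hn | hn
  · subst hn
    have hsub : Subsingleton G := ⟨fun a b => hinj (Subsingleton.elim _ _)⟩
    refine ⟨⊥, inferInstance, fun x _ y _ => Subsingleton.elim _ _, fun H _ => ?_⟩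
    have : Subsingleton H := inferInstance
    have h1 : (Subgroup.subgroupOf ⊥ H) = ⊤ := by
      ext x; simp [Subsingleton.elim x 1]
    rw [h1]; simp
  have : NeZero n := ⟨hn.ne'⟩
  obtain ⟨P, hP, hPU⟩ := H77.Unitary.exists_unitary_conj R
  have hdet : IsUnit P.det := (Matrix.isUnit_iff_isUnit_det _).mp hP
  have hP1 : P⁻¹ * P = 1 := Matrix.nonsing_inv_mul _ hdet
  have hP2 : P * P⁻¹ = 1 := Matrix.mul_nonsing_inv _ hdet
  let U : G →* Matrix (Fin n) (Fin n) ℂ :=
    { toFun := fun g => P * R g * P⁻¹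
      map_one' := by rw [map_one, mul_one, hP2]
      map_mul' := fun g h => by
        show P * R (g * h) * P⁻¹ = (P * R g * P⁻¹) * (P * R h * P⁻¹)
        rw [map_mul]
        calc P * (R g * R h) * P⁻¹ = P * R g * 1 * R h * P⁻¹ := by simp only [mul_assoc, one_mul]
          _ = P * R g * (P⁻¹ * P) * R h * P⁻¹ := by rw [hP1]
          _ = (P * R g * P⁻¹) * (P * R h * P⁻¹) := by simp only [mul_assoc] }
  have hUdef : ∀ g, U g = P * R g * P⁻¹ := fun g => rfl
  have hU : ∀ g, U g ∈ unitary (Matrix (Fin n) (Fin n) ℂ) := hPU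
  have hUinj : Function.Injective U := by
    intro g h hgh
    apply hinj
    have h1 : P⁻¹ * (U g) * P = P⁻¹ * (U h) * P := by rw [hgh]
    rw [hUdef, hUdef] at h1
    have h2 : ∀ X : Matrix (Fin n) (Fin n) ℂ, P⁻¹ * (P * X * P⁻¹) * P = X := by
      intro X
      calc P⁻¹ * (P * X * P⁻¹) * P = (P⁻¹ * P) * X * (P⁻¹ * P) := by simp only [mul_assoc]
        _ = X := by rw [hP1, one_mul, mul_one]
    rwa [h2, h2] at h1
  set α : ℂ := ((Real.sqrt 3 / 2 : ℝ) : ℂ) with hα
  set D : Set G := {g | ‖U g - algebraMap ℂ _ α‖ < 1 / 2 ∧ ‖1 - U g‖ < 1} with hD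
  have hDcomm : ∀ a ∈ D, ∀ b ∈ D, Commute a b := by
    intro a ha b hb
    exact H77.FrobComm.commute_of_small U hU hUinj α ha.1 hb.2
  have hDconj : ∀ x : G, ∀ a ∈ D, x * a * x⁻¹ ∈ D := by
    intro x a ha
    have h1 : ∀ c : ℂ, U (x * a * x⁻¹) - algebraMap ℂ _ c = U x * (U a - algebraMap ℂ _ c) * U x⁻¹ := by
      intro c
      rw [mul_sub, sub_mul, ← map_mul, ← map_mul]
      congr 1
      rw [← Algebra.commutes, mul_assoc, ← map_mul]
      simp
    constructor
    · rw [h1, CStarRing.norm_mul_mem_unitary _ (hU _), CStarRing.norm_mem_unitary_mul _ (hU _)]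
      exact ha.1
    · have h2 := h1 1
      rw [map_one] at h2
      rw [norm_sub_rev, h2, CStarRing.norm_mul_mem_unitary _ (hU _),
        CStarRing.norm_mem_unitary_mul _ (hU _), norm_sub_rev]
      exact ha.2
  refine ⟨Subgroup.closure D, ?_, ?_, ?_⟩
  · have : Subgroup.closure D = Subgroup.normalClosure D := by
      rw [Subgroup.normalClosure]
      congr 1
      apply Set.Subset.antisymm
      · exact Group.subset_conjugatesOfSet
      · intro y hy
        obtain ⟨a, ha, hay⟩ := Group.mem_conjugatesOfSet_iff.mp hy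
        obtain ⟨c, hc⟩ := isConj_iff.mp hay
        rw [← hc]
        exact hDconj c a ha
    rw [this]
    infer_instance
  · intro x hx y hy
    have h1 : ∀ a ∈ D, ∀ b ∈ D, a * b = b * a := fun a ha b hb => hDcomm a ha b hb
    have h2 := (Subgroup.isMulCommutative_closure h1).is_comm.comm ⟨x, hx⟩ ⟨y, hy⟩
    exact congrArg Subtype.val h2
  · intro H hH
    -- joint eigenbasis
    have hn' : ∀ h : G, (Matrix.toLin' (R h)) ^ (Nat.card G) = 1 := by
      intro h
      rw [← Matrix.toLin'_pow, ← map_pow, pow_card_eq_one', map_one, Matrix.toLin'_one]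
      rfl
    obtain ⟨κ, b, χ, hb⟩ := H77.JointEigen.exists_basis (fun h : H => Matrix.toLin' (R (h : G)))
      (fun i j => by
        show _ * _ = _ * _
        rw [Module.End.mul_eq_comp, Module.End.mul_eq_comp, ← Matrix.toLin'_mul, ← Matrix.toLin'_mul,
          ← map_mul, ← map_mul, hH _ i.2 _ j.2])
      (fun i => H77.JointEigen.isSemisimple_of_pow_eq_one _ Nat.card_pos (hn' _))
    have hfin : Finite κ := Module.Finite.finite_basis b
    have := Fintype.ofFinite κ
    have hcard : Fintype.card κ = n := by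
      have := Module.finrank_eq_card_basis b
      simpa using this.symm
    have hχmul : ∀ g h : H, ∀ k, χ (g * h) k = χ g k * χ h k := by
      intro g h k
      have h1 := hb (g * h) k
      have h2 : (Matrix.toLin' (R ((g * h : H) : G))) (b k) = χ g k • χ h k • b k := by
        rw [Subgroup.coe_mul, map_mul, Matrix.toLin'_mul, LinearMap.comp_apply]
        have h3 : (Matrix.toLin' (R (h : G))) (b k) = χ h k • b k := hb h k
        rw [h3, map_smul]
        have h4 : (Matrix.toLin' (R (g : G))) (b k) = χ g k • b k := hb g k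
        rw [h4, smul_comm]
      have h1 : (Matrix.toLin' (R ((g * h : H) : G))) (b k) = χ (g * h) k • b k := h1
      rw [h2, smul_smul] at h1
      exact (smul_left_injective ℂ (b.ne_zero k) h1).symm
    have hχone : ∀ k, χ 1 k = 1 := by
      intro k
      have h1 := hb 1 k
      simp only [Subgroup.coe_one, map_one, Matrix.toLin'_one, LinearMap.id_apply] at h1
      have h2 : (1 : ℂ) • b k = χ 1 k • b k := by rw [one_smul]; exact h1
      exact (smul_left_injective ℂ (b.ne_zero k) h2).symm
    have hχpow : ∀ g : H, ∀ k, ∀ m : ℕ, χ (g ^ m) k = χ g k ^ m := by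
      intro g k m
      induction m with
      | zero => simp [hχone]
      | succ m ih => rw [pow_succ, hχmul, ih, pow_succ]
    have hχnorm : ∀ g : H, ∀ k, ‖χ g k‖ = 1 := by
      intro g k
      have h1 : χ g k ^ Nat.card H = 1 := by
        rw [← hχpow, pow_card_eq_one', hχone]
      exact Complex.norm_eq_one_of_pow_eq_one h1 Nat.card_pos.ne'
    -- sectors
    have hsec : ∀ g h : H, (∀ k, sector (χ g k) = sector (χ h k)) →
        ((g⁻¹ * h : H) : G) ∈ Subgroup.closure D := by
      intro g h hgh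
      apply Subgroup.subset_closure
      have hspec : ∀ μ ∈ spectrum ℂ (U ((g⁻¹ * h : H) : G)),
          ‖μ‖ = 1 ∧ Real.sqrt 3 / 2 < μ.re := by
        intro μ hμ
        have h1 : spectrum ℂ (U ((g⁻¹ * h : H) : G)) = spectrum ℂ (R ((g⁻¹ * h : H) : G)) := by
          exact spectrum.units_conjugate (u := ⟨P, P⁻¹, hP2, hP1⟩)
        rw [h1, ← Matrix.spectrum_toLin'] at hμ
        obtain ⟨k, hk⟩ := H77.JointEigen.mem_range_of_mem_spectrum b _ (χ (g⁻¹ * h))
          (fun k => hb (g⁻¹ * h) k) hμ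
        have h2 : χ g⁻¹ k = (χ g k)⁻¹ := by
          have h3 : χ g⁻¹ k * χ g k = 1 := by rw [← hχmul]; simp [hχone]
          exact eq_inv_of_mul_eq_one_left h3
        rw [← hk]
        refine ⟨hχnorm _ _, ?_⟩
        rw [hχmul, h2]
        exact re_gt (hχnorm _ _) (hχnorm _ _) (hgh k)
      constructor
      · exact norm_sub_lt_of_spectrum (hU _) α fun μ hμ =>
          (norm_sub_lt (hspec μ hμ).1 (hspec μ hμ).2).1
      · rw [norm_sub_rev]
        have := norm_sub_lt_of_spectrum (hU ((g⁻¹ * h : H) : G)) 1 (r := 1) fun μ hμ => by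
          rw [norm_sub_rev]
          exact (norm_sub_lt (hspec μ hμ).1 (hspec μ hμ).2).2
        rwa [map_one] at this
    -- counting
    let φ : H ⧸ ((Subgroup.closure D).subgroupOf H) → (κ → Finset.Icc (1 : ℤ) 12) :=
      fun q k => ⟨sector (χ q.out k), Finset.mem_Icc.mpr (sector_mem _)⟩
    have hφ : Function.Injective φ := by
      intro q r hqr
      have h1 : ∀ k, sector (χ q.out k) = sector (χ r.out k) := by
        intro k
        have := congrFun hqr k
        exact congrArg Subtype.val this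
      have h2 := hsec q.out r.out h1
      rw [← QuotientGroup.out_eq' q, ← QuotientGroup.out_eq' r]
      apply QuotientGroup.eq.mpr
      rw [Subgroup.mem_subgroupOf]
      exact h2
    have h3 := Nat.card_le_card_of_injective φ hφ
    rw [← Subgroup.index_eq_card] at h3
    refine h3.trans (le_of_eq ?_)
    rw [Nat.card_eq_fintype_card, Fintype.card_fun, hcard]
    simp

end H77.Blich12
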