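import Cfsg.Agent.S4475
import Cfsg.Agent.Lib.H77.Unitary
import Cfsg.Agent.Lib.H83.Gallagher

/-!
# Real representations and the Frobenius–Schur indicator (H77.RealRep)
-/

set_option autoImplicit false
set_option linter.style.haveILetI false
open Cfsg
open scoped ComplexConjugate Matrix

namespace H77.RealRep

open H4.FrobSchur H83.FSMult

universe u

variable {G : Type u} [Group G]

/-- entrywise complex conjugate -/
noncomputable def cj {n : ℕ} (A : Matrix (Fin n) (Fin n) ℂ) : Matrix (Fin n) (Fin n) ℂ := A.map conj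

theorem cj_mul {n : ℕ} (A B : Matrix (Fin n) (Fin n) ℂ) : cj (A * B) = cj A * cj B :=
  Matrix.map_mul (f := starRingEnd ℂ)

theorem cj_cj {n : ℕ} (A : Matrix (Fin n) (Fin n) ℂ) : cj (cj A) = A := by
  ext i j; simp [cj]

theorem cj_one {n : ℕ} : cj (1 : Matrix (Fin n) (Fin n) ℂ) = 1 := by
  ext i j
  by_cases h : i = j
  · subst h; simp [cj]
  · simp [cj, Matrix.one_apply_ne h]

theorem cj_smul {n : ℕ} (c : ℂ) (A : Matrix (Fin n) (Fin n) ℂ) : cj (c • A) = conj c • cj A := by
  ext i j; simp [cj]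

theorem cj_add {n : ℕ} (A B : Matrix (Fin n) (Fin n) ℂ) : cj (A + B) = cj A + cj B := by
  ext i j; simp [cj]

theorem cj_transpose {n : ℕ} (A : Matrix (Fin n) (Fin n) ℂ) : (cj A)ᵀ = Aᴴ := by
  ext i j; simp [cj, Matrix.conjTranspose]

/-- there is a real `t` with `(1 + it) + (1 - it) S` invertible -/
theorem exists_t {n : ℕ} (S : Matrix (Fin n) (Fin n) ℂ) (hS : S.det ≠ 0) :
    ∃ t : ℝ, (((1 : ℂ) + Complex.I * t) • (1 : Matrix (Fin n) (Fin n) ℂ) +
      ((1 : ℂ) - Complex.I * t) • S).det ≠ 0 := by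
  let F : Matrix (Fin n) (Fin n) (Polynomial ℂ) :=
    (1 + Polynomial.C Complex.I * Polynomial.X) • (1 : Matrix (Fin n) (Fin n) (Polynomial ℂ)) +
      (1 - Polynomial.C Complex.I * Polynomial.X) • S.map Polynomial.C
  have hev : ∀ z : ℂ, (F.det).eval z = (((1 : ℂ) + Complex.I * z) • (1 : Matrix (Fin n) (Fin n) ℂ) +
      ((1 : ℂ) - Complex.I * z) • S).det := by
    intro z
    have h1 := RingHom.map_det (Polynomial.evalRingHom z) F
    rw [Polynomial.coe_evalRingHom] at h1
    rw [h1]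
    congr 1
    ext i j
    by_cases h : i = j
    · subst h
      simp [F, Matrix.add_apply, Matrix.smul_apply, RingHom.mapMatrix_apply]
    · simp [F, Matrix.add_apply, Matrix.smul_apply, RingHom.mapMatrix_apply, Matrix.one_apply_ne h]
  by_contra hcon
  push Not at hcon
  have h0 : F.det = 0 := by
    apply Polynomial.eq_zero_of_infinite_isRoot
    have hinf : (Set.range (fun t : ℝ => (t : ℂ))).Infinite :=
      Set.infinite_range_of_injective Complex.ofReal_injective
    refine hinf.mono ?_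
    rintro _ ⟨t, rfl⟩
    change Polynomial.eval (t : ℂ) F.det = 0
    rw [hev]
    exact hcon t
  have h1 := hev Complex.I
  rw [h0, Polynomial.eval_zero, Complex.I_mul_I] at h1
  have h2 : ((1 : ℂ) + -1) • (1 : Matrix (Fin n) (Fin n) ℂ) + ((1 : ℂ) - -1) • S = (2 : ℂ) • S := by
    rw [add_neg_cancel, zero_smul, zero_add]; norm_num
  rw [h2, Matrix.det_smul] at h1
  have h3 : (2 : ℂ) ^ Fintype.card (Fin n) * S.det ≠ 0 := mul_ne_zero (pow_ne_zero _ two_ne_zero) hS
  exact h3 h1.symm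

/-- Schur's lemma for matrices -/
theorem scalar_of_comm [Finite G] {n : ℕ} (ρ : Representation ℂ G (Fin n → ℂ)) (hρ : ρ.IsIrreducible)
    (C : Matrix (Fin n) (Fin n) ℂ) (h : ∀ g, C * M ρ g = M ρ g * C) : ∃ c : ℂ, C = c • 1 := by
  have hT : ∀ g : G, Matrix.toLin' C ∘ₗ ρ g = ρ g ∘ₗ Matrix.toLin' C := by
    intro g
    have h1 : ρ g = Matrix.toLin' (M ρ g) := by rw [M, Matrix.toLin'_toMatrix']
    rw [h1, ← Matrix.toLin'_mul, ← Matrix.toLin'_mul, h g]
  let T : Representation.IntertwiningMap ρ ρ := ⟨Matrix.toLin' C, hT⟩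
  obtain ⟨c, hc⟩ := (Representation.IsIrreducible.algebraMap_intertwiningMap_bijective_of_isAlgClosed
    (ρ := ρ)).2 T
  refine ⟨c, ?_⟩
  have hc' : Matrix.toLin' C = c • LinearMap.id := by
    have := congrArg Representation.IntertwiningMap.toLinearMap hc
    exact this.symm
  apply Matrix.toLin'.injective
  rw [hc', map_smul, Matrix.toLin'_one]

theorem exists_real [Finite G] {χ : G → ℂ} (hχ : IsIrrCharacter G χ) (hν : nu χ = 1) :
    ∃ (n : ℕ) (ρ : Representation ℝ G (Fin n → ℝ)),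
      ∀ g : G, ((LinearMap.trace ℝ (Fin n → ℝ) (ρ g) : ℝ) : ℂ) = χ g := by
  classical
  letI := Fintype.ofFinite G
  have hχr := real_of_nu hχ (by rw [hν]; exact one_ne_zero)
  obtain ⟨n, ρ, hρ, rfl⟩ := hχ
  obtain ⟨⟨A, hA, hA0⟩, hsym⟩ := Cfsg.Agent.S4475.main n ρ hρ hχr
  have hAt : Aᵀ = A := by
    rw [hsym A hA, ← nu_eq, hν, one_smul]
  let R : G →* Matrix (Fin n) (Fin n) ℂ :=
    { toFun := M ρ, map_one' := M_one ρ, map_mul' := M_mul ρ }
  obtain ⟨P, hP, hU⟩ := H77.Unitary.exists_unitary_conj R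
  have hPdet : IsUnit P.det := (Matrix.isUnit_iff_isUnit_det P).1 hP
  have hPP : P * P⁻¹ = 1 := Matrix.mul_nonsing_inv P hPdet
  have hPP' : P⁻¹ * P = 1 := Matrix.nonsing_inv_mul P hPdet
  let U : G → Matrix (Fin n) (Fin n) ℂ := fun g => P * M ρ g * P⁻¹
  have hUmul : ∀ g h, U (g * h) = U g * U h := by
    intro g h
    calc P * M ρ (g * h) * P⁻¹ = P * M ρ g * 1 * M ρ h * P⁻¹ := by rw [M_mul, mul_one]; simp only [mul_assoc]
      _ = P * M ρ g * P⁻¹ * (P * M ρ h * P⁻¹) := by rw [← hPP']; simp only [mul_assoc]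
  have hUone : U 1 = 1 := by
    change P * M ρ 1 * P⁻¹ = 1
    rw [M_one, mul_one, hPP]
  let B := (P⁻¹)ᵀ * A * P⁻¹
  have hBt : Bᵀ = B := by
    simp only [B, Matrix.transpose_mul, Matrix.transpose_transpose, hAt, mul_assoc]
  have hAB : A = Pᵀ * B * P := by
    have h1 : Pᵀ * (P⁻¹)ᵀ = 1 := by rw [← Matrix.transpose_mul, hPP', Matrix.transpose_one]
    symm
    calc Pᵀ * B * P = (Pᵀ * (P⁻¹)ᵀ) * A * (P⁻¹ * P) := by simp only [B, mul_assoc]
      _ = A := by rw [h1, hPP', one_mul, mul_one]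
  have hB0 : B ≠ 0 := by
    intro h; apply hA0; rw [hAB, h]; simp
  have hBU : ∀ g, (U g)ᵀ * B * U g = B := by
    intro g
    have h1 : Pᵀ * (P⁻¹)ᵀ = 1 := by rw [← Matrix.transpose_mul, hPP', Matrix.transpose_one]
    calc (U g)ᵀ * B * U g = (P⁻¹)ᵀ * ((M ρ g)ᵀ * (Pᵀ * B * P) * M ρ g) * P⁻¹ := by
          simp only [U, Matrix.transpose_mul, mul_assoc]
      _ = (P⁻¹)ᵀ * A * P⁻¹ := by rw [← hAB, hA g]
  have hcU : ∀ g, cj (U g) * (U g)ᵀ = 1 := by
    intro g
    have h1 : U g * (U g)ᴴ = 1 := (Matrix.mem_unitaryGroup_iff).1 (hU g)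
    have h2 := congrArg cj h1
    rw [cj_mul, cj_one] at h2
    rw [← h2]
    congr 1
    ext i j; simp [cj, Matrix.conjTranspose]
  have hBU' : ∀ g, B * U g = cj (U g) * B := by
    intro g
    calc B * U g = cj (U g) * (U g)ᵀ * (B * U g) := by rw [hcU, one_mul]
      _ = cj (U g) * ((U g)ᵀ * B * U g) := by simp only [mul_assoc]
      _ = cj (U g) * B := by rw [hBU]
  have hBU'' : ∀ g, cj B * cj (U g) = U g * cj B := by
    intro g
    have := congrArg cj (hBU' g)
    rw [cj_mul B (U g), cj_mul (cj (U g)) B, cj_cj] at this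
    exact this
  have hC : ∀ g, (cj B * B) * U g = U g * (cj B * B) := by
    intro g
    rw [mul_assoc, hBU', ← mul_assoc, hBU'', mul_assoc]
  obtain ⟨c, hc⟩ := scalar_of_comm ρ hρ (P⁻¹ * (cj B * B) * P) (fun g => by
    have h1 := hC g
    change cj B * B * (P * M ρ g * P⁻¹) = P * M ρ g * P⁻¹ * (cj B * B) at h1
    calc P⁻¹ * (cj B * B) * P * M ρ g = P⁻¹ * (cj B * B * (P * M ρ g * P⁻¹)) * P := by
          simp only [mul_assoc, hPP', mul_one]
      _ = P⁻¹ * (P * M ρ g * P⁻¹ * (cj B * B)) * P := by rw [h1]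
      _ = (P⁻¹ * P) * M ρ g * (P⁻¹ * (cj B * B) * P) := by simp only [mul_assoc]
      _ = M ρ g * (P⁻¹ * (cj B * B) * P) := by rw [hPP', one_mul])
  have hc' : cj B * B = c • 1 := by
    calc cj B * B = P * (P⁻¹ * (cj B * B) * P) * P⁻¹ := by
          simp only [← mul_assoc, hPP, one_mul]
          rw [mul_assoc, hPP, mul_one]
      _ = c • 1 := by rw [hc, Matrix.mul_smul, mul_one, Matrix.smul_mul, hPP]
  -- c is a positive real
  have hcpos : ∃ r : ℝ, 0 < r ∧ c = r := by
    obtain ⟨i0, j0, hij⟩ : ∃ i j, B i j ≠ 0 := by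
      by_contra h
      push Not at h
      exact hB0 (by ext i j; exact h i j)
    have h1 : ∀ j : Fin n, c = ((∑ k, ‖B k j‖ ^ 2 : ℝ) : ℂ) := by
      intro j
      have h2 := congrFun (congrFun hc' j) j
      rw [Matrix.mul_apply, Matrix.smul_apply, Matrix.one_apply_eq, smul_eq_mul, mul_one] at h2
      rw [← h2, Complex.ofReal_sum]
      refine Finset.sum_congr rfl fun k _ => ?_
      have h3 : cj B j k = conj (B k j) := by
        have : B j k = B k j := by
          have := congrFun (congrFun hBt k) j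
          rw [Matrix.transpose_apply] at this
          exact this
        simp [cj, this]
      rw [h3, mul_comm, Complex.mul_conj, Complex.normSq_eq_norm_sq]
    refine ⟨∑ k, ‖B k j0‖ ^ 2, ?_, h1 j0⟩
    apply Finset.sum_pos'
    · intro k _; positivity
    · exact ⟨i0, Finset.mem_univ _, by positivity⟩
  obtain ⟨r, hr, rfl⟩ := hcpos
  let s : ℝ := (Real.sqrt r)⁻¹
  have hs : s * s * r = 1 := by
    have h1 : Real.sqrt r * Real.sqrt r = r := Real.mul_self_sqrt hr.le
    have h2 : Real.sqrt r ≠ 0 := (Real.sqrt_pos.2 hr).ne'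
    simp only [s]
    field_simp
    rw [sq, h1]
  let S := (s : ℂ) • B
  have hSS : cj S * S = 1 := by
    simp only [S]
    rw [cj_smul, Complex.conj_ofReal, Matrix.smul_mul, Matrix.mul_smul, smul_smul, hc', smul_smul]
    have : (s : ℂ) * s * r = 1 := by exact_mod_cast hs
    rw [this, one_smul]
  have hSdet : S.det ≠ 0 := by
    intro h
    have h1 := congrArg Matrix.det hSS
    rw [Matrix.det_mul, h, mul_zero, Matrix.det_one] at h1
    exact zero_ne_one h1
  have hSU : ∀ g, S * U g = cj (U g) * S := by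
    intro g
    simp only [S]
    rw [Matrix.smul_mul, hBU', Matrix.mul_smul]
  obtain ⟨t, ht⟩ := exists_t S hSdet
  let z : ℂ := 1 + Complex.I * t
  have hz : conj z = 1 - Complex.I * t := by
    simp only [z, map_add, map_mul, map_one, Complex.conj_I, Complex.conj_ofReal]; ring
  let Y : Matrix (Fin n) (Fin n) ℂ := z • 1 + conj z • S
  have hY : Y.det ≠ 0 := by
    simp only [Y]; rw [hz]; exact ht
  have hYu : IsUnit Y.det := isUnit_iff_ne_zero.2 hY
  have hYY : Y * Y⁻¹ = 1 := Matrix.mul_nonsing_inv Y hYu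
  have hYY' : Y⁻¹ * Y = 1 := Matrix.nonsing_inv_mul Y hYu
  have hcY : cj Y * S = Y := by
    simp only [Y]
    rw [cj_add, cj_smul, cj_smul, cj_one, Complex.conj_conj, Matrix.add_mul, Matrix.smul_mul,
      Matrix.smul_mul, hSS, one_mul, add_comm]
  let X : G → Matrix (Fin n) (Fin n) ℂ := fun g => Y * U g * Y⁻¹
  have hXmul : ∀ g h, X (g * h) = X g * X h := by
    intro g h
    calc Y * U (g * h) * Y⁻¹ = Y * U g * 1 * U h * Y⁻¹ := by rw [hUmul, mul_one]; simp only [mul_assoc]
      _ = Y * U g * Y⁻¹ * (Y * U h * Y⁻¹) := by rw [← hYY']; simp only [mul_assoc]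
  have hXone : X 1 = 1 := by
    change Y * U 1 * Y⁻¹ = 1
    rw [hUone, mul_one, hYY]
  have hXreal : ∀ g, cj (X g) = X g := by
    intro g
    have h1 : X g * Y = Y * U g := by
      change Y * U g * Y⁻¹ * Y = Y * U g
      rw [mul_assoc, hYY', mul_one]
    have h2 : Y * U g = cj (X g) * Y := by
      calc Y * U g = cj Y * S * U g := by rw [hcY]
        _ = cj Y * cj (U g) * S := by rw [mul_assoc, hSU, mul_assoc]
        _ = cj (Y * U g) * S := by rw [cj_mul Y (U g)]
        _ = cj (X g * Y) * S := by rw [h1]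
        _ = cj (X g) * (cj Y * S) := by rw [cj_mul, mul_assoc]
        _ = cj (X g) * Y := by rw [hcY]
    calc cj (X g) = cj (X g) * Y * Y⁻¹ := by rw [mul_assoc, hYY, mul_one]
      _ = X g * Y * Y⁻¹ := by rw [← h2, ← h1]
      _ = X g := by rw [mul_assoc, hYY, mul_one]
  have hXre : ∀ g i j, (((X g i j).re : ℝ) : ℂ) = X g i j := by
    intro g i j
    have h1 := congrFun (congrFun (hXreal g) i) j
    have h2 : conj (X g i j) = X g i j := h1
    exact Complex.conj_eq_iff_re.1 h2
  let Xr : G → Matrix (Fin n) (Fin n) ℝ := fun g => (X g).map Complex.re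
  have hXr : ∀ g, (Xr g).map (Complex.ofRealHom) = X g := by
    intro g; ext i j; exact hXre g i j
  have hinj : Function.Injective (fun A : Matrix (Fin n) (Fin n) ℝ => A.map Complex.ofRealHom) := by
    intro A B h
    ext i j
    have := congrFun (congrFun h i) j
    exact Complex.ofReal_injective this
  let RR : G →* Matrix (Fin n) (Fin n) ℝ :=
    { toFun := Xr
      map_one' := hinj (by
        change (Xr 1).map Complex.ofRealHom = (1 : Matrix (Fin n) (Fin n) ℝ).map Complex.ofRealHom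
        rw [hXr, hXone]
        ext i j
        by_cases h : i = j
        · subst h; simp
        · simp [Matrix.one_apply_ne h])
      map_mul' := fun g h => hinj (by
        change (Xr (g * h)).map Complex.ofRealHom = (Xr g * Xr h).map Complex.ofRealHom
        rw [Matrix.map_mul, hXr, hXr, hXr, hXmul]) }
  refine ⟨n, (Matrix.toLinAlgEquiv' (R := ℝ) (n := Fin n)).toAlgHom.toRingHom.toMonoidHom.comp RR, fun g => ?_⟩
  have h1 : ((Matrix.toLinAlgEquiv' (R := ℝ) (n := Fin n)).toAlgHom.toRingHom.toMonoidHom.comp RR) g =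
      Matrix.toLin' (Xr g) := rfl
  have h2 : LinearMap.trace ℝ (Fin n → ℝ) (Matrix.toLin' (Xr g)) = (Xr g).trace := Matrix.trace_toLin'_eq _
  change (((LinearMap.trace ℝ (Fin n → ℝ)) (Matrix.toLin' (Xr g)) : ℝ) : ℂ) = _
  rw [h2, char_eq_trace]
  have h3 : (((Xr g).trace : ℝ) : ℂ) = (X g).trace := by
    rw [Matrix.trace, Matrix.trace, Complex.ofReal_sum]
    exact Finset.sum_congr rfl fun i _ => hXre g i i
  rw [h3]
  change (Y * (P * M ρ g * P⁻¹) * Y⁻¹).trace = _
  rw [Matrix.trace_mul_comm, ← mul_assoc, hYY', one_mul, Matrix.trace_mul_comm, ← mul_assoc, hPP', one_mul]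

theorem nu_of_real_rep [Finite G] {χ : G → ℂ} (hχ : IsIrrCharacter G χ) (n : ℕ)
    (ρ : Representation ℝ G (Fin n → ℝ))
    (h : ∀ g : G, ((LinearMap.trace ℝ (Fin n → ℝ) (ρ g) : ℝ) : ℂ) = χ g) : nu χ = 1 := by
  classical
  letI := Fintype.ofFinite G
  let R : G → Matrix (Fin n) (Fin n) ℝ := fun g => LinearMap.toMatrix' (ρ g)
  have hRmul : ∀ g h, R (g * h) = R g * R h := by
    intro g h
    simp only [R, map_mul]
    exact LinearMap.toMatrix'_comp _ _
  have hRone : R 1 = 1 := by simp [R]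
  have hRtr : ∀ g, (R g).trace = LinearMap.trace ℝ (Fin n → ℝ) (ρ g) := by
    intro g
    rw [← Matrix.trace_toLin'_eq, Matrix.toLin'_toMatrix']
  let RC : G →* Matrix (Fin n) (Fin n) ℂ :=
    { toFun := fun g => (R g).map Complex.ofRealHom
      map_one' := by
        rw [hRone]
        ext i j
        by_cases h : i = j
        · subst h; simp
        · simp [Matrix.one_apply_ne h]
      map_mul' := fun g h => by rw [hRmul, Matrix.map_mul] }
  let σ : Representation ℂ G (Fin n → ℂ) :=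
    (Matrix.toLinAlgEquiv' (R := ℂ) (n := Fin n)).toAlgHom.toRingHom.toMonoidHom.comp RC
  have hσ : ∀ g, σ g = Matrix.toLin' (RC g) := fun g => rfl
  have hM : ∀ g, M σ g = RC g := by
    intro g
    rw [M, hσ, LinearMap.toMatrix'_toLin']
  have hchar : σ.character = χ := by
    funext g
    rw [char_eq_trace, hM, ← h g, ← hRtr g]
    change ((R g).map Complex.ofRealHom).trace = _
    rw [Matrix.trace, Matrix.trace, Complex.ofReal_sum]
    rfl
  have hirr : σ.IsIrreducible := by
    apply H83.Gallagher.isIrreducible_of_norm_one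
    rw [hchar]
    exact H4.CharOrth.classInner_self_irr hχ
  have hreal : ∀ g, (σ.character g).im = 0 := by
    intro g; rw [hchar, ← h g]; simp
  obtain ⟨-, hsym⟩ := Cfsg.Agent.S4475.main n σ hirr hreal
  let A : Matrix (Fin n) (Fin n) ℝ := ∑ g : G, (R g)ᵀ * R g
  have hAinv : ∀ h : G, (R h)ᵀ * A * R h = A := by
    intro h
    simp only [A, Matrix.mul_sum, Matrix.sum_mul]
    rw [← Equiv.sum_comp (Equiv.mulRight h) (fun g => (R g)ᵀ * R g)]
    refine Finset.sum_congr rfl fun g _ => ?_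
    simp only [Equiv.coe_mulRight, hRmul, Matrix.transpose_mul, Matrix.mul_assoc]
  have hAt : Aᵀ = A := by
    simp only [A, Matrix.transpose_sum, Matrix.transpose_mul, Matrix.transpose_transpose]
  have hn : 0 < n := by
    rcases Nat.eq_zero_or_pos n with h0 | h0
    · exfalso
      have h1 := h 1
      rw [map_one] at h1
      subst h0
      have h2 : (LinearMap.trace ℝ (Fin 0 → ℝ)) 1 = 0 := by
        rw [LinearMap.trace_one]; simp
      rw [h2] at h1
      exact H18.CharBasic.irr_one_ne_zero hχ (by rw [← h1]; simp)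
    · exact h0
  have hA0 : A ≠ 0 := by
    intro hA
    have h1 : A ⟨0, hn⟩ ⟨0, hn⟩ = 0 := by rw [hA]; rfl
    have h2 : A ⟨0, hn⟩ ⟨0, hn⟩ = ∑ g : G, ∑ k, (R g k ⟨0, hn⟩) ^ 2 := by
      simp only [A, Matrix.sum_apply, Matrix.mul_apply, Matrix.transpose_apply, sq]
    have h3 : (0 : ℝ) < ∑ g : G, ∑ k, (R g k ⟨0, hn⟩) ^ 2 := by
      apply Finset.sum_pos'
      · intro g _; exact Finset.sum_nonneg fun k _ => sq_nonneg _
      · refine ⟨1, Finset.mem_univ _, ?_⟩
        apply Finset.sum_pos'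
        · intro k _; exact sq_nonneg _
        · refine ⟨⟨0, hn⟩, Finset.mem_univ _, ?_⟩
          rw [hRone, Matrix.one_apply_eq]; norm_num
    rw [← h2, h1] at h3
    exact lt_irrefl _ h3
  have h1 := hsym (A.map Complex.ofRealHom) (fun g => by
    rw [hM]
    change ((R g).map Complex.ofRealHom)ᵀ * A.map Complex.ofRealHom * (R g).map Complex.ofRealHom = _
    rw [← Matrix.transpose_map, ← Matrix.map_mul, ← Matrix.map_mul, hAinv])
  rw [← nu_eq, hchar, ← Matrix.transpose_map, hAt] at h1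
  obtain ⟨i, j, hij⟩ : ∃ i j, A i j ≠ 0 := by
    by_contra hcon
    push Not at hcon
    exact hA0 (by ext i j; exact hcon i j)
  have h2 := congrFun (congrFun h1 i) j
  rw [Matrix.smul_apply, smul_eq_mul, Matrix.map_apply] at h2
  have h3 : (Complex.ofRealHom (A i j)) ≠ 0 := by
    intro h4
    exact hij (Complex.ofReal_injective h4)
  exact mul_right_cancel₀ h3 (by rw [← h2, one_mul])

end H77.RealRep
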