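import Mathlib
import Cfsg.Agent.Lib.H77.Blich12
import Cfsg.Agent.Lib.H77.RealRep

/-!
# Blichfeldt's 60 degree theorem for simple groups (helper77)
-/

set_option autoImplicit false
set_option linter.style.haveILetI false
set_option linter.unusedSectionVars false

namespace H77.Blich60

open scoped Matrix.Norms.L2Operator

section abs

variable {n : ℕ} [NeZero n] {G : Type*} [Group G] [Finite G]
  (U : G →* Matrix (Fin n) (Fin n) ℂ) (hU : ∀ g, U g ∈ Matrix.unitaryGroup (Fin n) ℂ)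

/-- the defect of invariance -/
noncomputable def dl (P : Matrix (Fin n) (Fin n) ℂ) (t : G) : ℝ := ‖(1 - P) * U t * P‖

theorem norm_idem_le {E : Matrix (Fin n) (Fin n) ℂ} (h1 : E * E = E) (h2 : star E = E) :
    ‖E‖ ≤ 1 := by
  have h3 : ‖E‖ * ‖E‖ = ‖E‖ := by
    rw [← CStarRing.norm_star_mul_self, h2, h1]
  by_contra h
  push Not at h
  nlinarith [norm_nonneg E]

theorem idem_eq_zero {E : Matrix (Fin n) (Fin n) ℂ} (h1 : E * E = E) (h2 : star E = E)
    (h : ‖E‖ < 1) : E = 0 := by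
  have h3 : ‖E‖ * ‖E‖ = ‖E‖ := by
    rw [← CStarRing.norm_star_mul_self, h2, h1]
  rw [← norm_eq_zero]
  have h4 : ‖E‖ * (1 - ‖E‖) = 0 := by linarith
  rcases mul_eq_zero.1 h4 with h5 | h5
  · exact h5
  · linarith

variable {P : Matrix (Fin n) (Fin n) ℂ} (hP1 : P * P = P) (hP2 : star P = P)

include hP1 in
theorem compl_idem : (1 - P) * (1 - P) = 1 - P := by
  rw [sub_mul, mul_sub, mul_sub, hP1]; simp

include hP1 in
theorem compl_mul : (1 - P) * P = 0 := by rw [sub_mul, hP1, one_mul, sub_self]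

include hP1 in
theorem mul_compl : P * (1 - P) = 0 := by rw [mul_sub, hP1, mul_one, sub_self]

include hP2 in
theorem compl_star : star (1 - P) = 1 - P := by rw [star_sub, star_one, hP2]

include hU in
theorem U_inv (t : G) : star (U t) = U t⁻¹ := by
  have h1 : star (U t) * U t = 1 := Unitary.star_mul_self_of_mem (hU t)
  have h2 : U t * U t⁻¹ = 1 := by rw [← map_mul, mul_inv_cancel, map_one]
  calc star (U t) = star (U t) * (U t * U t⁻¹) := by rw [h2, mul_one]
    _ = U t⁻¹ := by rw [← mul_assoc, h1, one_mul]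

include hU hP1 hP2 in
/-- invariance under a group element gives commutation -/
theorem commute_of_invariant {t : G} (h : U t * P = P * U t * P) : Commute (U t) P := by
  have h1 : ∀ k : ℕ, U (t ^ k) * P = P * U (t ^ k) * P := by
    intro k
    induction k with
    | zero => simp [hP1]
    | succ k ih =>
      rw [pow_succ, map_mul, mul_assoc, h]
      calc U (t ^ k) * (P * U t * P) = (U (t ^ k) * P) * (U t * P) := by simp only [mul_assoc]
        _ = (P * U (t ^ k) * P) * (U t * P) := by rw [ih]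
        _ = P * U (t ^ k) * (P * U t * P) := by simp only [mul_assoc]
        _ = P * U (t ^ k) * (U t * P) := by rw [← h]
        _ = P * (U (t ^ k) * U t) * P := by simp only [mul_assoc]
  have h2 : U t⁻¹ * P = P * U t⁻¹ * P := by
    have h3 : t⁻¹ = t ^ (orderOf t - 1) := by
      apply inv_eq_of_mul_eq_one_left
      rw [← pow_succ]
      have : orderOf t - 1 + 1 = orderOf t := Nat.sub_add_cancel (orderOf_pos t)
      rw [this, pow_orderOf_eq_one]
    rw [h3]
    exact h1 _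
  have h4 := congrArg star h2
  rw [star_mul, star_mul, star_mul, hP2, U_inv U hU, inv_inv] at h4
  -- `h4 : P * U t = P * (U t * P)`
  show U t * P = P * U t
  rw [h4, ← mul_assoc]
  exact h

variable {g : G} {ε : ℂ} (hε : ‖ε‖ = 1) (hgP : U g * P = ε • P)
  (hr : ‖U g - algebraMap ℂ _ ε‖ < 1)
  (hpoly : ∀ X : Matrix (Fin n) (Fin n) ℂ, Commute X (U g) → Commute X P)

include hU hP1 hP2 hgP in
theorem dl_conj_le (t : G) :
    dl U P (t⁻¹ * g * t) ≤ ‖U g - algebraMap ℂ _ ε‖ * dl U P t := by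
  have h1 : (1 - P) * U (t⁻¹ * g * t) * P =
      ((1 - P) * U t⁻¹) * ((U g - algebraMap ℂ _ ε) * ((1 - P) * U t * P)) := by
    have h2 : (U g - algebraMap ℂ _ ε) * (1 - P) = U g - algebraMap ℂ _ ε := by
      rw [mul_sub, mul_one, sub_mul, hgP]
      have h3 : algebraMap ℂ (Matrix (Fin n) (Fin n) ℂ) ε * P = ε • P := (Algebra.smul_def ε P).symm
      rw [h3, sub_self, sub_zero]
    have h3 : (1 - P) * U t⁻¹ * (algebraMap ℂ _ ε * (U t * P)) = 0 := by
      calc (1 - P) * U t⁻¹ * (algebraMap ℂ _ ε * (U t * P))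
          = (1 - P) * (U t⁻¹ * algebraMap ℂ _ ε) * (U t * P) := by simp only [mul_assoc]
        _ = (1 - P) * (algebraMap ℂ _ ε * U t⁻¹) * (U t * P) := by
            rw [Algebra.commutes ε (U t⁻¹)]
        _ = ((1 - P) * algebraMap ℂ _ ε) * (U t⁻¹ * U t * P) := by simp only [mul_assoc]
        _ = (algebraMap ℂ _ ε * (1 - P)) * (U t⁻¹ * U t * P) := by
            rw [Algebra.commutes ε (1 - P)]
        _ = algebraMap ℂ _ ε * ((1 - P) * P) := by
            rw [← map_mul, inv_mul_cancel, map_one, one_mul, mul_assoc]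
        _ = 0 := by rw [compl_mul hP1, mul_zero]
    calc (1 - P) * U (t⁻¹ * g * t) * P
        = (1 - P) * U t⁻¹ * (U g * (U t * P)) := by
          rw [map_mul, map_mul]; simp only [mul_assoc]
      _ = (1 - P) * U t⁻¹ * (U g * (U t * P)) - (1 - P) * U t⁻¹ * (algebraMap ℂ _ ε * (U t * P)) := by
          rw [h3, sub_zero]
      _ = (1 - P) * U t⁻¹ * ((U g - algebraMap ℂ _ ε) * (U t * P)) := by
          rw [← mul_sub, ← sub_mul]
      _ = (1 - P) * U t⁻¹ * (((U g - algebraMap ℂ _ ε) * (1 - P)) * (U t * P)) := by rw [h2]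
      _ = _ := by simp only [mul_assoc]
  rw [dl, h1]
  have h4 : ‖(1 - P) * U t⁻¹‖ ≤ 1 := by
    rw [CStarRing.norm_mul_mem_unitary _ (hU _)]
    exact norm_idem_le (compl_idem hP1) (compl_star hP2)
  calc ‖(1 - P) * U t⁻¹ * ((U g - algebraMap ℂ _ ε) * ((1 - P) * U t * P))‖
      ≤ ‖(1 - P) * U t⁻¹‖ * ‖(U g - algebraMap ℂ _ ε) * ((1 - P) * U t * P)‖ := norm_mul_le _ _
    _ ≤ 1 * ‖(U g - algebraMap ℂ _ ε) * ((1 - P) * U t * P)‖ := by
        apply mul_le_mul_of_nonneg_right h4 (norm_nonneg _)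
    _ ≤ 1 * (‖U g - algebraMap ℂ _ ε‖ * ‖(1 - P) * U t * P‖) := by
        apply mul_le_mul_of_nonneg_left (norm_mul_le _ _) zero_le_one
    _ = _ := by rw [one_mul]; rfl

include hU hP1 hP2 in
theorem dl_le_one (t : G) : dl U P t ≤ 1 := by
  rw [dl]
  have h1 := norm_idem_le (compl_idem hP1) (compl_star hP2)
  have h2 := norm_idem_le hP1 hP2
  calc ‖(1 - P) * U t * P‖ ≤ ‖(1 - P) * U t‖ * ‖P‖ := norm_mul_le _ _
    _ = ‖1 - P‖ * ‖P‖ := by rw [CStarRing.norm_mul_mem_unitary _ (hU _)]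
    _ ≤ 1 * 1 := mul_le_mul h1 h2 (norm_nonneg _) zero_le_one
    _ = 1 := one_mul 1

theorem inv_of_dl {t : G} (h : dl U P t = 0) : U t * P = P * U t * P := by
  rw [dl, norm_eq_zero, sub_mul, sub_mul, one_mul, sub_eq_zero] at h
  exact h

include hU hP1 hP2 hpoly in
/-- the backward step -/
theorem dl_back {c : G} (h1 : dl U P c < 1) (h2 : dl U P (c⁻¹ * g * c) = 0) : dl U P c = 0 := by
  have h3 := commute_of_invariant U hU hP1 hP2 (inv_of_dl U h2)
  set Q := U c * P * U c⁻¹ with hQ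
  have hcc : U c * U c⁻¹ = 1 := by rw [← map_mul, mul_inv_cancel, map_one]
  have hcc' : U c⁻¹ * U c = 1 := by rw [← map_mul, inv_mul_cancel, map_one]
  have h4 : Commute Q (U g) := by
    have h5 : U g = U c * U (c⁻¹ * g * c) * U c⁻¹ := by
      rw [← map_mul, ← map_mul]; congr 1; group
    show Q * U g = U g * Q
    rw [h5, hQ]
    calc U c * P * U c⁻¹ * (U c * U (c⁻¹ * g * c) * U c⁻¹)
        = U c * P * (U c⁻¹ * U c) * U (c⁻¹ * g * c) * U c⁻¹ := by simp only [mul_assoc]
      _ = U c * (P * U (c⁻¹ * g * c)) * U c⁻¹ := by rw [hcc', mul_one]; simp only [mul_assoc]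
      _ = U c * (U (c⁻¹ * g * c) * P) * U c⁻¹ := by rw [h3.eq]
      _ = U c * U (c⁻¹ * g * c) * (U c⁻¹ * U c) * P * U c⁻¹ := by
          rw [hcc', mul_one]; simp only [mul_assoc]
      _ = _ := by simp only [mul_assoc]
  have h5 : Q * P = P * Q := hpoly Q h4
  have hQ1 : Q * Q = Q := by
    rw [hQ]
    calc U c * P * U c⁻¹ * (U c * P * U c⁻¹) = U c * P * (U c⁻¹ * U c) * P * U c⁻¹ := by
          simp only [mul_assoc]
      _ = U c * (P * P) * U c⁻¹ := by rw [hcc', mul_one]; simp only [mul_assoc]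
      _ = _ := by rw [hP1]
  have hQ2 : star Q = Q := by
    rw [hQ, star_mul, star_mul, hP2, U_inv U hU, U_inv U hU, inv_inv]
    simp only [mul_assoc]
  have hc : (1 - P) * Q = Q * (1 - P) := by rw [sub_mul, mul_sub, h5, one_mul, mul_one]
  have h6 : (1 - P) * Q = 0 := by
    apply idem_eq_zero
    · calc (1 - P) * Q * ((1 - P) * Q) = (1 - P) * (Q * (1 - P)) * Q := by simp only [mul_assoc]
        _ = (1 - P) * ((1 - P) * Q) * Q := by rw [hc]
        _ = ((1 - P) * (1 - P)) * (Q * Q) := by simp only [mul_assoc]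
        _ = _ := by rw [compl_idem hP1, hQ1]
    · rw [star_mul, hQ2, compl_star hP2, hc]
    · have h7 : (1 - P) * Q = ((1 - P) * U c * P) * U c⁻¹ := by rw [hQ]; simp only [mul_assoc]
      rw [h7, CStarRing.norm_mul_mem_unitary _ (hU _)]
      exact h1
  rw [dl, norm_eq_zero]
  calc (1 - P) * U c * P = ((1 - P) * Q) * U c := by
        rw [hQ]
        calc (1 - P) * U c * P = (1 - P) * U c * P * (U c⁻¹ * U c) := by rw [hcc', mul_one]
          _ = _ := by simp only [mul_assoc]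
    _ = 0 := by rw [h6, zero_mul]

include hU hP1 hP2 hgP hr hpoly in
theorem commute_conj (s : G) : Commute (U (s⁻¹ * g * s)) P := by
  apply commute_of_invariant U hU hP1 hP2
  apply inv_of_dl
  by_contra hne
  -- minimal counterexample
  have hfin : Set.Finite {c : G | (∃ s : G, c = s⁻¹ * g * s) ∧ dl U P c ≠ 0} := Set.toFinite _
  obtain ⟨c, ⟨⟨s', rfl⟩, hc⟩, hmin⟩ := hfin.exists_minimalFor (dl U P) _ ⟨_, ⟨s, rfl⟩, hne⟩
  set c := s'⁻¹ * g * s' with hcdef
  have hpos : 0 < dl U P c := lt_of_le_of_ne (norm_nonneg _) (Ne.symm hc)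
  have h1 : dl U P c < 1 := by
    have h2 := dl_conj_le U hU hP1 hP2 hgP s'
    have h3 := dl_le_one U hU hP1 hP2 s'
    calc dl U P c ≤ ‖U g - algebraMap ℂ _ ε‖ * dl U P s' := h2
      _ ≤ ‖U g - algebraMap ℂ _ ε‖ * 1 := mul_le_mul_of_nonneg_left h3 (norm_nonneg _)
      _ < 1 := by rw [mul_one]; exact hr
  apply hc
  apply dl_back U hU hP1 hP2 hpoly h1
  by_contra hne2
  have h4 := dl_conj_le U hU hP1 hP2 hgP c
  have h5 : dl U P (c⁻¹ * g * c) < dl U P c := by
    calc dl U P (c⁻¹ * g * c) ≤ ‖U g - algebraMap ℂ _ ε‖ * dl U P c := h4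
      _ < 1 * dl U P c := mul_lt_mul_of_pos_right hr hpos
      _ = _ := one_mul _
  have h6 := hmin ⟨⟨c, rfl⟩, hne2⟩ h5.le
  exact absurd h5 (not_lt_of_ge h6)

include hU hP1 hP2 hgP hr hpoly in
/-- in a simple group `P` is centralized by everything -/
theorem commute_all [IsSimpleGroup G] (hg : g ≠ 1) (t : G) : Commute (U t) P := by
  let W : Subgroup G :=
    { carrier := {c | Commute (U c) P}
      one_mem' := by
        show Commute (U 1) P
        rw [map_one]; exact Commute.one_left _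
      mul_mem' := fun {a b} ha hb => by
        show Commute (U (a * b)) P
        rw [map_mul]; exact Commute.mul_left ha hb
      inv_mem' := fun {a} ha => by
        have ha' : U a * P = P * U a := ha
        show U a⁻¹ * P = P * U a⁻¹
        have h1 : U a⁻¹ * U a = 1 := by rw [← map_mul, inv_mul_cancel, map_one]
        have h2 : U a * U a⁻¹ = 1 := by rw [← map_mul, mul_inv_cancel, map_one]
        calc U a⁻¹ * P = U a⁻¹ * P * (U a * U a⁻¹) := by rw [h2, mul_one]
          _ = U a⁻¹ * (P * U a) * U a⁻¹ := by simp only [mul_assoc]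
          _ = U a⁻¹ * (U a * P) * U a⁻¹ := by rw [ha']
          _ = (U a⁻¹ * U a) * P * U a⁻¹ := by simp only [mul_assoc]
          _ = P * U a⁻¹ := by rw [h1, one_mul] }
  have h1 : Subgroup.normalClosure {g} ≤ W := by
    rw [Subgroup.normalClosure, Subgroup.closure_le]
    intro y hy
    obtain ⟨a, ha, hay⟩ := Group.mem_conjugatesOfSet_iff.mp hy
    rw [Set.mem_singleton_iff] at ha
    subst ha
    obtain ⟨c, hc⟩ := isConj_iff.mp hay
    have h2 := commute_conj U hU hP1 hP2 hgP hr hpoly c⁻¹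
    rw [inv_inv, hc] at h2
    exact h2
  have h2 : Subgroup.normalClosure {g} = ⊤ := by
    rcases (Subgroup.normalClosure_normal (s := {g})).eq_bot_or_eq_top with h | h
    · exfalso
      apply hg
      have : g ∈ Subgroup.normalClosure {g} := Subgroup.subset_normalClosure rfl
      rw [h] at this
      exact Subgroup.mem_bot.1 this
    · exact h
  exact h1 (h2 ▸ Subgroup.mem_top t)

end abs

section proj

variable {n : ℕ} {S : Matrix (Fin n) (Fin n) ℂ}

/-- the spectral projection of a matrix of finite order -/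
noncomputable def pr (N : ℕ) (X : Matrix (Fin n) (Fin n) ℂ) : Matrix (Fin n) (Fin n) ℂ :=
  (N : ℂ)⁻¹ • ∑ j ∈ Finset.range N, X ^ j

theorem mul_pr {N : ℕ} {X : Matrix (Fin n) (Fin n) ℂ} (hX : X ^ N = 1) : X * pr N X = pr N X := by
  rw [pr, mul_smul_comm]
  congr 1
  have h1 := Finset.sum_range_succ (fun j => X ^ j) N
  have h2 := Finset.sum_range_succ' (fun j => X ^ j) N
  rw [hX] at h1
  rw [pow_zero] at h2
  have h3 : ∑ j ∈ Finset.range N, X ^ (j + 1) = ∑ j ∈ Finset.range N, X ^ j :=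
    add_right_cancel (h2.symm.trans h1)
  rw [Finset.mul_sum, ← h3]
  exact Finset.sum_congr rfl fun j _ => (pow_succ' X j).symm

theorem pow_mul_of {X P : Matrix (Fin n) (Fin n) ℂ} (h : X * P = P) (j : ℕ) : X ^ j * P = P := by
  induction j with
  | zero => rw [pow_zero, one_mul]
  | succ j ih => rw [pow_succ, mul_assoc, h, ih]

theorem pr_mul_of {N : ℕ} (hN : N ≠ 0) {X P : Matrix (Fin n) (Fin n) ℂ} (h : X * P = P) :
    pr N X * P = P := by
  rw [pr, smul_mul_assoc, Finset.sum_mul, Finset.sum_congr rfl (fun j _ => pow_mul_of h j),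
    Finset.sum_const, Finset.card_range, ← Nat.cast_smul_eq_nsmul ℂ, smul_smul, inv_mul_cancel₀
      (by exact_mod_cast hN), one_smul]

theorem pr_idem {N : ℕ} (hN : N ≠ 0) {X : Matrix (Fin n) (Fin n) ℂ} (hX : X ^ N = 1) :
    pr N X * pr N X = pr N X := pr_mul_of hN (mul_pr hX)

theorem pr_star {N : ℕ} (hN : N ≠ 0) {X : Matrix (Fin n) (Fin n) ℂ} (hX : X ^ N = 1)
    (hu : star X * X = 1) : star (pr N X) = pr N X := by
  have h1 : star X * pr N X = pr N X := by
    conv_lhs => rw [← mul_pr hX]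
    rw [← mul_assoc, hu, one_mul]
  have h2 : star (pr N X) = pr N (star X) := by
    rw [pr, pr, star_smul, star_sum]
    congr 1
    · simp
    · exact Finset.sum_congr rfl fun j _ => star_pow X j
  have h3 : star (pr N X) * pr N X = pr N X := by
    rw [h2]
    exact pr_mul_of hN h1
  have h4 := congrArg star h3
  rw [star_mul, star_star, h3] at h4
  exact h4.symm

theorem pr_commute {N : ℕ} {X Y : Matrix (Fin n) (Fin n) ℂ} (h : Commute Y X) :
    Commute Y (pr N X) := by
  rw [pr]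
  apply Commute.smul_right
  exact Commute.sum_right _ _ _ fun j _ => h.pow_right j

end proj

section main

open Cfsg H4.FrobSchur Matrix

/-- Blichfeldt's theorem for simple groups -/
theorem simple {G : Type*} [Group G] [Finite G] [IsSimpleGroup G] {n : ℕ}
    (ρ : Representation ℂ G (Fin n → ℂ)) (hρ : ρ.IsIrreducible)
    (hna : ∃ a b : G, a * b ≠ b * a) (hinj : ∀ t : G, ρ t = 1 → t = 1) (g : G) (hg : g ≠ 1)
    (ε : ℂ) (v : Fin n → ℂ) (hv : v ≠ 0) (hgv : ρ g v = ε • v)
    (hspec : ∀ (μ : ℂ) (w : Fin n → ℂ), w ≠ 0 → ρ g w = μ • w → ‖μ - ε‖ < 1) : False := by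
  classical
  have hn : 0 < n := by
    rcases Nat.eq_zero_or_pos n with h | h
    · subst h
      exact absurd (Subsingleton.elim v 0) hv
    · exact h
  haveI : NeZero n := ⟨hn.ne'⟩
  let R : G →* Matrix (Fin n) (Fin n) ℂ :=
    { toFun := M ρ
      map_one' := M_one ρ
      map_mul' := M_mul ρ }
  have hR : ∀ t, R t = M ρ t := fun _ => rfl
  obtain ⟨A, hA, hAU⟩ := H77.Unitary.exists_unitary_conj R
  have hdet : IsUnit A.det := (Matrix.isUnit_iff_isUnit_det _).mp hA
  have hA1 : A⁻¹ * A = 1 := Matrix.nonsing_inv_mul _ hdet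
  have hA2 : A * A⁻¹ = 1 := Matrix.mul_nonsing_inv _ hdet
  let U : G →* Matrix (Fin n) (Fin n) ℂ :=
    { toFun := fun g => A * R g * A⁻¹
      map_one' := by rw [map_one, mul_one, hA2]
      map_mul' := fun g h => by
        show A * R (g * h) * A⁻¹ = (A * R g * A⁻¹) * (A * R h * A⁻¹)
        rw [map_mul]
        calc A * (R g * R h) * A⁻¹ = A * R g * 1 * R h * A⁻¹ := by simp only [mul_assoc, one_mul]
          _ = A * R g * (A⁻¹ * A) * R h * A⁻¹ := by rw [hA1]
          _ = (A * R g * A⁻¹) * (A * R h * A⁻¹) := by simp only [mul_assoc] }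
  have hUdef : ∀ g, U g = A * R g * A⁻¹ := fun g => rfl
  have hU : ∀ g, U g ∈ Matrix.unitaryGroup (Fin n) ℂ := hAU
  -- eigenvalues of `U g`
  have hAv : ∀ (μ : ℂ) (w : Fin n → ℂ), ρ g w = μ • w → U g *ᵥ (A *ᵥ w) = μ • (A *ᵥ w) := by
    intro μ w hw
    rw [hUdef, Matrix.mulVec_mulVec]
    have h1 : A * R g * A⁻¹ * A = A * R g := by rw [mul_assoc, hA1, mul_one]
    rw [h1, ← Matrix.mulVec_mulVec, hR, M_mulVec, hw, Matrix.mulVec_smul]
  have hAw : ∀ (μ : ℂ) (w : Fin n → ℂ), U g *ᵥ w = μ • w → ρ g (A⁻¹ *ᵥ w) = μ • (A⁻¹ *ᵥ w) := by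
    intro μ w hw
    rw [← M_mulVec, ← hR, Matrix.mulVec_mulVec]
    have h1 : R g * A⁻¹ = A⁻¹ * (U g) := by
      rw [hUdef, ← mul_assoc, ← mul_assoc, hA1, one_mul]
    rw [h1, ← Matrix.mulVec_mulVec, hw, Matrix.mulVec_smul]
  have hA0 : ∀ w : Fin n → ℂ, A *ᵥ w = 0 → w = 0 := by
    intro w hw
    have := congrArg (A⁻¹ *ᵥ ·) hw
    simpa [Matrix.mulVec_mulVec, hA1] using this
  have hA0' : ∀ w : Fin n → ℂ, A⁻¹ *ᵥ w = 0 → w = 0 := by
    intro w hw
    have := congrArg (A *ᵥ ·) hw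
    simpa [Matrix.mulVec_mulVec, hA2] using this
  have hspecU : ∀ μ ∈ spectrum ℂ (U g), ‖μ - ε‖ < 1 := by
    intro μ hμ
    rw [← Matrix.spectrum_toLin', ← Module.End.hasEigenvalue_iff_mem_spectrum] at hμ
    obtain ⟨w, hw⟩ := hμ.exists_hasEigenvector
    have h1 : U g *ᵥ w = μ • w := by
      have := hw.apply_eq_smul
      rwa [Matrix.toLin'_apply] at this
    exact hspec μ _ (fun h => hw.2 (hA0' w h)) (hAw μ w h1)
  have hr : ‖U g - algebraMap ℂ _ ε‖ < 1 :=
    H77.Blich12.norm_sub_lt_of_spectrum (hU g) ε hspecU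
  -- the projection
  set N := Nat.card G with hNdef
  have hN : N ≠ 0 := Nat.card_pos.ne'
  have hgN : (U g) ^ N = 1 := by rw [← map_pow, pow_card_eq_one', map_one]
  have hεN : ε ^ N = 1 := by
    have h1 : ∀ k : ℕ, ρ (g ^ k) v = ε ^ k • v := by
      intro k
      induction k with
      | zero => simp
      | succ k ih => rw [pow_succ, map_mul, Module.End.mul_apply, hgv, map_smul, ih, smul_smul,
          pow_succ']
    have h2 := h1 N
    rw [pow_card_eq_one', map_one, Module.End.one_apply] at h2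
    have h3 : (1 : ℂ) • v = ε ^ N • v := by rw [one_smul]; exact h2
    exact (smul_left_injective ℂ hv h3).symm
  have hεn : ‖ε‖ = 1 := Complex.norm_eq_one_of_pow_eq_one hεN hN
  have hε0 : ε ≠ 0 := by
    intro h
    rw [h, norm_zero] at hεn
    exact zero_ne_one hεn
  set X := ε⁻¹ • U g with hX
  have hXN : X ^ N = 1 := by
    rw [hX, smul_pow, hgN, inv_pow, hεN, inv_one, one_smul]
  have hXu : star X * X = 1 := by
    rw [hX, star_smul, smul_mul_smul_comm]
    have h1 : star (U g) * U g = 1 := Unitary.star_mul_self_of_mem (hU g)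
    have h2 : star ε⁻¹ * ε⁻¹ = 1 := by
      have h3 : star ε⁻¹ * ε⁻¹ = ((‖ε⁻¹‖ ^ 2 : ℝ) : ℂ) := by
        rw [← Complex.normSq_eq_norm_sq, Complex.normSq_eq_conj_mul_self]
        rfl
      rw [h3, norm_inv, hεn]
      simp
    rw [h1, h2, one_smul]
  set P := pr N X with hP
  have hP1 : P * P = P := pr_idem hN hXN
  have hP2 : star P = P := pr_star hN hXN hXu
  have hgP : U g * P = ε • P := by
    have h1 := mul_pr hXN
    rw [← hP, hX, smul_mul_assoc] at h1
    have h2 : ε • (ε⁻¹ • (U g * P)) = ε • P := by rw [h1]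
    rwa [smul_smul, mul_inv_cancel₀ hε0, one_smul] at h2
  have hpoly : ∀ Y : Matrix (Fin n) (Fin n) ℂ, Commute Y (U g) → Commute Y P := by
    intro Y hY
    apply pr_commute
    exact hY.smul_right _
  have hall := commute_all U hU hP1 hP2 hgP hr hpoly hg
  -- Schur
  obtain ⟨c, hc⟩ := H77.RealRep.scalar_of_comm ρ hρ (A⁻¹ * P * A) (by
    intro t
    have h1 : P * (A * R t * A⁻¹) = (A * R t * A⁻¹) * P := (hall t).eq.symm
    rw [← hR]
    calc A⁻¹ * P * A * R t = A⁻¹ * (P * (A * R t * A⁻¹)) * A := by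
          calc A⁻¹ * P * A * R t = A⁻¹ * P * A * R t * (A⁻¹ * A) := by rw [hA1, mul_one]
            _ = _ := by simp only [mul_assoc]
      _ = A⁻¹ * ((A * R t * A⁻¹) * P) * A := by rw [h1]
      _ = (A⁻¹ * A) * R t * (A⁻¹ * P * A) := by simp only [mul_assoc]
      _ = _ := by rw [hA1, one_mul])
  have hPc : P = c • 1 := by
    calc P = (A * A⁻¹) * P * (A * A⁻¹) := by rw [hA2, one_mul, mul_one]
      _ = A * (A⁻¹ * P * A) * A⁻¹ := by simp only [mul_assoc]
      _ = A * (c • 1) * A⁻¹ := by rw [hc]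
      _ = c • 1 := by rw [mul_smul_comm, mul_one, smul_mul_assoc, hA2]
  -- `P ≠ 0`
  have hPv : P *ᵥ (A *ᵥ v) = A *ᵥ v := by
    have h1 : X *ᵥ (A *ᵥ v) = A *ᵥ v := by
      rw [hX, Matrix.smul_mulVec, hAv ε v hgv, smul_smul, inv_mul_cancel₀ hε0, one_smul]
    have h2 : ∀ j : ℕ, (X ^ j) *ᵥ (A *ᵥ v) = A *ᵥ v := by
      intro j
      induction j with
      | zero => simp
      | succ j ih => rw [pow_succ, ← Matrix.mulVec_mulVec, h1, ih]
    rw [hP, pr, Matrix.smul_mulVec, Matrix.sum_mulVec, Finset.sum_congr rfl (fun j _ => h2 j),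
      Finset.sum_const, Finset.card_range, ← Nat.cast_smul_eq_nsmul ℂ, smul_smul,
      inv_mul_cancel₀ (by exact_mod_cast hN), one_smul]
  have hAv0 : A *ᵥ v ≠ 0 := fun h => hv (hA0 v h)
  have hc1 : c = 1 := by
    rw [hPc, Matrix.smul_mulVec, Matrix.one_mulVec] at hPv
    have h3 : c • (A *ᵥ v) = (1 : ℂ) • (A *ᵥ v) := by rw [one_smul]; exact hPv
    exact smul_left_injective ℂ hAv0 h3
  rw [hc1, one_smul] at hPc
  rw [hPc, mul_one] at hgP
  -- `g` is central
  have hRg : R g = ε • 1 := by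
    calc R g = (A⁻¹ * A) * R g * (A⁻¹ * A) := by rw [hA1, one_mul, mul_one]
      _ = A⁻¹ * (U g) * A := by rw [hUdef]; simp only [mul_assoc]
      _ = ε • 1 := by rw [hgP, mul_smul_comm, mul_one, smul_mul_assoc, hA1]
  have hcen : ∀ t : G, t * g = g * t := by
    intro t
    have h1 : t * g * t⁻¹ * g⁻¹ = 1 := by
      apply hinj
      have h2 : R (t * g * t⁻¹ * g⁻¹) = 1 := by
        rw [map_mul, map_mul, map_mul, hRg, mul_smul_comm, mul_one, smul_mul_assoc, ← map_mul,
          mul_inv_cancel, map_one, ← hRg, ← map_mul, mul_inv_cancel, map_one]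
      have h3 : M ρ (t * g * t⁻¹ * g⁻¹) = 1 := h2
      rw [M] at h3
      apply LinearMap.toMatrix'.injective
      rw [h3]
      exact (LinearMap.toMatrix'_id).symm
    exact mul_inv_eq_iff_eq_mul.1 (mul_inv_eq_one.1 h1)
  obtain ⟨a, b, hab⟩ := hna
  have hZ : Subgroup.center G = ⊤ := by
    rcases (inferInstance : (Subgroup.center G).Normal).eq_bot_or_eq_top with h | h
    · exfalso
      apply hg
      have : g ∈ Subgroup.center G := Subgroup.mem_center_iff.2 hcen
      rw [h] at this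
      exact Subgroup.mem_bot.1 this
    · exact h
  apply hab
  have : a ∈ Subgroup.center G := hZ ▸ Subgroup.mem_top a
  exact (Subgroup.mem_center_iff.1 this b).symm

end main

end H77.Blich60
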