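import Cfsg.Agent.Lib.H77.Blich60
import Cfsg.Agent.Lib.H77.Cong
import Cfsg.Agent.Lib.H77.PQuot
import Cfsg.Agent.Lib.H20.Orth
import Cfsg.Agent.Lib.H78.Cong

/-!
# Brauer's refinement of Burnside's theorem (S4484) (helper77)
-/

set_option autoImplicit false
set_option linter.style.haveILetI false
set_option linter.unusedSectionVars false
open Cfsg

namespace H77.BurnSix

open H18 H18.CharBasic H18.CharOrtho H18.CharInd H18.CharQuot H20.Loc
open scoped ComplexConjugate

universe u

section sec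

/-- Sectors of 60 degrees. -/
noncomputable def sector (z : ℂ) : ℤ := ⌈(z.arg + Real.pi) * (3 / Real.pi)⌉

theorem sector_mem (z : ℂ) : 1 ≤ sector z ∧ sector z ≤ 6 := by
  have hpi := Real.pi_pos
  have h1 := Complex.neg_pi_lt_arg z
  have h2 := Complex.arg_le_pi z
  constructor
  · have : 0 < sector z := by
      apply Int.ceil_pos.mpr
      apply mul_pos (by linarith) (by positivity)
    omega
  · apply Int.ceil_le.mpr
    have h3 : (z.arg + Real.pi) * (3 / Real.pi) ≤ (2 * Real.pi) * (3 / Real.pi) :=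
      mul_le_mul_of_nonneg_right (by linarith) (by positivity)
    have h4 : (2 * Real.pi) * (3 / Real.pi) = 6 := by field_simp; norm_num
    rw [h4] at h3
    exact_mod_cast h3

theorem abs_arg_sub_lt {z w : ℂ} (h : sector z = sector w) : |w.arg - z.arg| < Real.pi / 3 := by
  have hpi := Real.pi_pos
  unfold sector at h
  set x := (z.arg + Real.pi) * (3 / Real.pi) with hx
  set y := (w.arg + Real.pi) * (3 / Real.pi) with hy
  have h1 : |y - x| < 1 := by
    have hx1 := Int.ceil_lt_add_one x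
    have hx2 := Int.le_ceil x
    have hy1 := Int.ceil_lt_add_one y
    have hy2 := Int.le_ceil y
    rw [h] at hx1 hx2
    rw [abs_lt]
    constructor <;> linarith
  have h2 : w.arg - z.arg = (y - x) * (Real.pi / 3) := by
    rw [hx, hy]; field_simp; ring
  rw [h2, abs_mul, abs_of_pos (by positivity : 0 < Real.pi / 3)]
  calc |y - x| * (Real.pi / 3) < 1 * (Real.pi / 3) := mul_lt_mul_of_pos_right h1 (by positivity)
    _ = _ := one_mul _

theorem norm_lt {z w : ℂ} (hz : ‖z‖ = 1) (hw : ‖w‖ = 1) (h : sector z = sector w) :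
    ‖z⁻¹ * w - 1‖ < 1 := by
  have hz1 : z = Complex.exp (z.arg * Complex.I) := by
    conv_lhs => rw [← Complex.norm_mul_exp_arg_mul_I z, hz]
    simp
  have hw1 : w = Complex.exp (w.arg * Complex.I) := by
    conv_lhs => rw [← Complex.norm_mul_exp_arg_mul_I w, hw]
    simp
  have h1 : z⁻¹ * w = Complex.exp (((w.arg - z.arg : ℝ) : ℂ) * Complex.I) := by
    conv_lhs => rw [hz1, hw1, ← Complex.exp_neg, ← Complex.exp_add]
    congr 1
    push_cast
    ring
  have h2 : (z⁻¹ * w).re = Real.cos (w.arg - z.arg) := by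
    rw [h1, Complex.exp_ofReal_mul_I_re]
  have h3 : 1 / 2 < (z⁻¹ * w).re := by
    rw [h2, ← Real.cos_pi_div_three, ← Real.cos_abs (w.arg - z.arg)]
    apply Real.cos_lt_cos_of_nonneg_of_le_pi (abs_nonneg _) _ (abs_arg_sub_lt h)
    linarith [Real.pi_pos]
  have h4 : ‖z⁻¹ * w‖ = 1 := by rw [norm_mul, norm_inv, hz, hw]; norm_num
  have h5 : ‖z⁻¹ * w - 1‖ ^ 2 < 1 := by
    rw [Complex.sq_norm, Complex.normSq_apply]
    have h6 := Complex.sq_norm (z⁻¹ * w)
    rw [h4, Complex.normSq_apply] at h6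
    simp only [Complex.sub_re, Complex.one_re, Complex.sub_im, Complex.one_im, sub_zero]
    nlinarith
  nlinarith [norm_nonneg (z⁻¹ * w - 1)]

end sec

section blk

variable {G : Type u} [Group G] [Finite G] {p : ℕ} {M : Ideal AlgInt}

/-- the principal character -/
noncomputable def one' (G : Type u) [Group G] [Finite G] : IrrCharacter G :=
  ⟨fun _ => 1, isIrrCharacter_one⟩

theorem exists_chi (hM : IsPModular p M) {q : ℕ} (hq : q.Prime) {y : G} (hy : p ∣ orderOf y) :
    ∃ χ : IrrCharacter G, χ ∈ principalBlock M G ∧ (χ : G → ℂ) ≠ (fun _ => 1) ∧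
      ¬ q ∣ charDegree (χ : G → ℂ) := by
  classical
  letI := Fintype.ofFinite (IrrCharacter G)
  haveI := H20.Loc.pm_isPrime hM
  by_contra hcon
  push Not at hcon
  have hB : IsPBlock M (principalBlock M G) := ⟨one' G, rfl⟩
  have h1 := H20.Orth.weak_orth hM (H20.Blk.isUnion_of_isPBlock hB) (x := (1 : G)) (y := y)
    (by rw [orderOf_one]; exact fun h => (pm_prime hM).one_lt.ne' (Nat.dvd_one.1 h)) hy
  have h2 : H77.Cong.CongP q (∑ χ : IrrCharacter G, (if χ ∈ principalBlock M G then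
      (χ : G → ℂ) 1 * conj ((χ : G → ℂ) y) else 0))
      (∑ χ : IrrCharacter G, (if χ = one' G then 1 else 0)) := by
    apply H77.Cong.sum
    intro χ _
    by_cases h3 : χ = one' G
    · rw [if_pos h3, h3, if_pos (by
        show SameBlock M _ _
        exact fun g => H20.Loc.locI_refl _)]
      have : ((one' G : IrrCharacter G) : G → ℂ) = fun _ => 1 := rfl
      rw [this]
      simp only [map_one, mul_one]
      exact H77.Cong.refl 1
    · rw [if_neg h3]
      by_cases h4 : χ ∈ principalBlock M G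
      · rw [if_pos h4]
        obtain ⟨d, hd⟩ := hcon χ h4 (fun h => h3 (Subtype.ext h))
        rw [← H77.PQuot.cast_irr χ, hd]
        refine ⟨(d : ℂ) * conj ((χ : G → ℂ) y), ?_, by push_cast; ring⟩
        apply (H77.Cong.isIntegral_natCast d).mul
        exact (H18.CharBasic.char_isIntegral (isCharacter_of_isIrr χ.2) y).map
          (starRingEnd ℂ).toIntAlgHom
      · rw [if_neg h4]
        exact H77.Cong.refl 0
  rw [h1, Finset.sum_ite_eq' Finset.univ (one' G), if_pos (Finset.mem_univ _)] at h2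
  have h3 : H77.Cong.CongP q (((0 : ℤ) : ℂ)) (((1 : ℤ) : ℂ)) := by simpa using h2
  have h4 := H77.Cong.dvd_of_congP_int hq.ne_zero h3
  have h5 : (q : ℤ) ∣ 1 := by
    have := (dvd_neg.2 h4)
    simpa using this
  have h6 : q ∣ 1 := by exact_mod_cast h5
  exact hq.one_lt.ne' (Nat.dvd_one.1 h6)

/-- in the principal block, values at elements with large centralizer are congruent to the degree -/
theorem ratio (hM : IsPModular p M) {χ : IrrCharacter G} (hχ : χ ∈ principalBlock M G) {z : G}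
    (hz : ¬ p ∣ (Subgroup.centralizer ({z} : Set G)).index) :
    MemLocalIdeal M ((χ : G → ℂ) z / (χ : G → ℂ) 1 - 1) := by
  haveI := H20.Loc.pm_isPrime hM
  have h1 : SameBlock M (fun _ : G => (1 : ℂ)) (χ : G → ℂ) := hχ
  have h2 := h1 z
  have h3 : centralChar (fun _ : G => (1 : ℂ)) z - centralChar (χ : G → ℂ) z =
      ((Subgroup.centralizer ({z} : Set G)).index : ℂ) *
        (1 - (χ : G → ℂ) z / (χ : G → ℂ) 1) := by
    simp only [centralChar]
    ring
  rw [h3] at h2
  have h4 := locI_mul_left (locR_natCast_inv hM hz) h2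
  have h5 : ((Subgroup.centralizer ({z} : Set G)).index : ℂ) ≠ 0 := by
    exact_mod_cast Subgroup.index_ne_zero_of_finite
  rw [← mul_assoc, inv_mul_cancel₀ h5, one_mul] at h4
  have h6 := locI_neg h4
  rwa [neg_sub] at h6

theorem mult_dvd (hM : IsPModular p M) {χ : IrrCharacter G} (hχ : χ ∈ principalBlock M G) {y : G}
    (hy : orderOf y = p)
    (hz : ∀ z ∈ Subgroup.zpowers y, ¬ p ∣ (Subgroup.centralizer ({z} : Set G)).index)
    {c m : ℕ} (hdeg : (χ : G → ℂ) 1 = ((p ^ c * m : ℕ) : ℂ)) (hm : m ≠ 0)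
    [Fintype (Subgroup.zpowers y)]
    (lam : Subgroup.zpowers y →* ℂˣ) {a : ℕ}
    (ha : classInner (fun z : Subgroup.zpowers y => (χ : G → ℂ) z) (fun z => (lam z : ℂ)) = a) :
    p ^ c ∣ a := by
  haveI := H20.Loc.pm_isPrime hM
  have hp := pm_prime hM
  have hp0 : (p : ℂ) ≠ 0 := by exact_mod_cast hp.ne_zero
  have hm0 : (m : ℂ) ≠ 0 := by exact_mod_cast hm
  have hcard : Nat.card (Subgroup.zpowers y) = p := by rw [Nat.card_zpowers, hy]
  have h1 : (p : ℂ) * a = ∑ z : Subgroup.zpowers y, (χ : G → ℂ) z * conj (lam z : ℂ) := by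
    rw [← ha, classInner, hcard, ← mul_assoc, mul_inv_cancel₀ hp0, one_mul]
  have h2 : MemLocalIdeal M (∑ z : Subgroup.zpowers y,
      ((m : ℂ) * ((χ : G → ℂ) z / (χ : G → ℂ) 1) * conj (lam z : ℂ)) -
      ∑ z : Subgroup.zpowers y, (m : ℂ)) := by
    apply locI_sum_congr
    intro z _
    have h3 := ratio hM hχ (hz z z.2)
    have hlp : (lam z : ℂ) ^ p ^ 1 = 1 := by
      rw [pow_one, ← Units.val_pow_eq_pow_val, ← map_pow]
      have : z ^ p = 1 := by rw [← hcard, pow_card_eq_one']
      rw [this, map_one, Units.val_one]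
    have h4 : MemLocalIdeal M (conj (lam z : ℂ) - 1) := by
      haveI := hM.2.1
      exact locI_root_of_unity_sub_one hM (k := 1) (by rw [← map_pow, hlp, map_one])
    have h5 : MemLocalRing M (conj (lam z : ℂ)) := by
      apply isIntegral_mem
      exact IsIntegral.of_pow (n := p ^ 1) (by rw [pow_one]; exact hp.pos)
        (by rw [← map_pow, hlp, map_one]; exact isIntegral_one)
    have h6 : MemLocalIdeal M ((χ : G → ℂ) z / (χ : G → ℂ) 1 * conj (lam z : ℂ) - 1 * 1) :=
      locI_mul_congr locR_one h5 h3 h4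
    have h7 := locI_mul_left (locR_natCast (M := M) m) h6
    have h8 : (m : ℂ) * ((χ : G → ℂ) z / (χ : G → ℂ) 1) * conj (lam z : ℂ) - (m : ℂ) =
        (m : ℂ) * ((χ : G → ℂ) z / (χ : G → ℂ) 1 * conj (lam z : ℂ) - 1 * 1) := by ring
    rw [h8]
    exact h7
  have h3 : ∑ z : Subgroup.zpowers y,
      ((m : ℂ) * ((χ : G → ℂ) z / (χ : G → ℂ) 1) * conj (lam z : ℂ)) =
      ((p * a : ℕ) : ℤ) / (p : ℂ) ^ c := by
    push_cast
    rw [h1, Finset.sum_div]
    apply Finset.sum_congr rfl
    intro z _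
    rw [hdeg]
    push_cast
    field_simp
  have h4 : ∑ z : Subgroup.zpowers y, (m : ℂ) = ((p * m : ℕ) : ℂ) := by
    rw [Finset.sum_const, Finset.card_univ, ← Nat.card_eq_fintype_card, hcard, nsmul_eq_mul]
    push_cast
    ring
  rw [h3, h4] at h2
  have h5 : MemLocalIdeal M ((p * m : ℕ) : ℂ) := (locI_natCast_iff hM).2 (dvd_mul_right p m)
  have h6 := (locI_congr h2).2 h5
  have h7 := dvd_of_div_mem_ideal hM h6
  rw [pow_succ', Nat.cast_mul] at h7
  have h8 : (p : ℤ) ^ c ∣ (a : ℤ) :=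
    (mul_dvd_mul_iff_left (by exact_mod_cast hp.ne_zero : (p : ℤ) ≠ 0)).1 h7
  exact_mod_cast h8

end blk

section eig

open Module

variable {G : Type u} [Group G] [Finite G]

/-- joint eigenbasis for a cyclic (abelian) subgroup -/
theorem exists_eig {n : ℕ} (ρ : Representation ℂ G (Fin n → ℂ)) (C : Subgroup G)
    (hC : ∀ a ∈ C, ∀ b ∈ C, a * b = b * a) [Fintype C] :
    ∃ (κ : Set (Fin n → ℂ)) (_ : Fintype κ) (b : Basis κ ℂ (Fin n → ℂ)) (lam : κ → (C →* ℂˣ)),
      Fintype.card κ = n ∧ (∀ (z : C) (k : κ), ρ z (b k) = (lam k z : ℂ) • b k) ∧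
      (∀ z : C, ρ.character z = ∑ k, (lam k z : ℂ)) := by
  classical
  have hn' : ∀ h : G, (ρ h) ^ (Nat.card G) = 1 := by
    intro h
    rw [← map_pow, pow_card_eq_one', map_one]
  obtain ⟨κ, b, ev, hb⟩ := H77.JointEigen.exists_basis (fun h : C => ρ (h : G))
    (fun i j => by
      show ρ i * ρ j = ρ j * ρ i
      rw [← map_mul, ← map_mul, hC _ i.2 _ j.2])
    (fun i => H77.JointEigen.isSemisimple_of_pow_eq_one _ Nat.card_pos (hn' _))
  have hfin : Finite κ := Module.Finite.finite_basis b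
  have := Fintype.ofFinite κ
  have hcard : Fintype.card κ = n := by
    have := Module.finrank_eq_card_basis b
    simpa using this.symm
  have hb' : ∀ (z : C) (k : κ), ρ (z : G) (b k) = ev z k • b k := hb
  have hmul : ∀ g h : C, ∀ k, ev (g * h) k = ev g k * ev h k := by
    intro g h k
    have h1 := hb' (g * h) k
    have h2 : ρ ((g * h : C) : G) (b k) = ev g k • ev h k • b k := by
      rw [Subgroup.coe_mul, map_mul, Module.End.mul_apply, hb' h k, map_smul, hb' g k, smul_comm]
    rw [h2, smul_smul] at h1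
    exact (smul_left_injective ℂ (b.ne_zero k) h1).symm
  have hone : ∀ k, ev 1 k = 1 := by
    intro k
    have h1 := hb' 1 k
    rw [Subgroup.coe_one, map_one, Module.End.one_apply] at h1
    have h2 : (1 : ℂ) • b k = ev 1 k • b k := by rw [one_smul]; exact h1
    exact (smul_left_injective ℂ (b.ne_zero k) h2).symm
  let l0 : κ → (C →* ℂ) := fun k =>
    { toFun := fun z => ev z k
      map_one' := hone k
      map_mul' := fun x y => hmul x y k }
  let lam : κ → (C →* ℂˣ) := fun k => (l0 k).toHomUnits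
  have hlam : ∀ k z, (lam k z : ℂ) = ev z k := fun k z => rfl
  refine ⟨κ, this, b, lam, hcard, fun z k => by rw [hlam]; exact hb' z k, fun z => ?_⟩
  rw [Representation.character, LinearMap.trace_eq_matrix_trace ℂ b, Matrix.trace]
  apply Finset.sum_congr rfl
  intro k _
  rw [Matrix.diag_apply, LinearMap.toMatrix_apply, hb' z k, map_smul, Finsupp.smul_apply,
    Basis.repr_self, Finsupp.single_eq_same, smul_eq_mul, mul_one, hlam]

theorem norm_hom {C : Type u} [Group C] [Finite C] (l : C →* ℂˣ) (z : C) : ‖(l z : ℂ)‖ = 1 := by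
  apply Complex.norm_eq_one_of_pow_eq_one (n := Nat.card C) _ Nat.card_pos.ne'
  rw [← Units.val_pow_eq_pow_val, ← map_pow, pow_card_eq_one', map_one, Units.val_one]

/-- pigeonhole -/
theorem exists_close {C : Type u} [Group C] [Finite C] (D : Finset (C →* ℂˣ)) {l0 : C →* ℂˣ}
    (hl0 : l0 ∈ D) (hc : 6 ^ (D.card - 1) < Nat.card C) :
    ∃ z : C, z ≠ 1 ∧ ∀ l ∈ D, ‖(l z : ℂ) - (l0 z : ℂ)‖ < 1 := by
  classical
  let φ : C → ({l // l ∈ D.erase l0} → Finset.Icc (1 : ℤ) 6) :=
    fun t l => ⟨sector ((l.1 t : ℂ) * (l0 t : ℂ)⁻¹), Finset.mem_Icc.mpr (sector_mem _)⟩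
  have hninj : ¬ Function.Injective φ := by
    intro hinj
    have h3 := Nat.card_le_card_of_injective φ hinj
    rw [Nat.card_fun (α := {l // l ∈ D.erase l0})] at h3
    have h4 : Nat.card (Finset.Icc (1 : ℤ) 6) = 6 := by
      rw [Nat.card_eq_fintype_card, Fintype.card_coe]; simp
    have h5 : Nat.card {l // l ∈ D.erase l0} = D.card - 1 := by
      rw [Nat.card_eq_fintype_card, Fintype.card_coe, Finset.card_erase_of_mem hl0]
    rw [h4, h5] at h3
    omega
  rw [Function.Injective] at hninj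
  push Not at hninj
  obtain ⟨s, t, hst, hne⟩ := hninj
  refine ⟨s⁻¹ * t, fun h => hne (inv_mul_eq_one.1 h), ?_⟩
  intro l hl
  by_cases hll : l = l0
  · rw [hll, sub_self, norm_zero]; exact one_pos
  have h1 := congrFun hst ⟨l, Finset.mem_erase.2 ⟨hll, hl⟩⟩
  have h2 : sector ((l s : ℂ) * (l0 s : ℂ)⁻¹) = sector ((l t : ℂ) * (l0 t : ℂ)⁻¹) :=
    congrArg Subtype.val h1
  have h3 := norm_lt (by rw [norm_mul, norm_inv, norm_hom, norm_hom]; norm_num)
    (by rw [norm_mul, norm_inv, norm_hom, norm_hom]; norm_num) h2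
  have h0 : (l0 (s⁻¹ * t) : ℂ) ≠ 0 := Units.ne_zero _
  have h4 : ((l s : ℂ) * (l0 s : ℂ)⁻¹)⁻¹ * ((l t : ℂ) * (l0 t : ℂ)⁻¹) - 1 =
      ((l (s⁻¹ * t) : ℂ) - (l0 (s⁻¹ * t) : ℂ)) * (l0 (s⁻¹ * t) : ℂ)⁻¹ := by
    rw [sub_mul, mul_inv_cancel₀ h0]
    congr 1
    rw [map_mul, map_mul, map_inv, map_inv]
    have h5 : (l s : ℂ) ≠ 0 := Units.ne_zero _
    have h6 : (l0 s : ℂ) ≠ 0 := Units.ne_zero _
    have h7 : (l0 t : ℂ) ≠ 0 := Units.ne_zero _
    push_cast
    field_simp
  rw [h4, norm_mul, norm_inv, norm_hom, inv_one, mul_one] at h3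
  exact h3

end eig

section main

open Module

variable {G : Type u} [Group G] [Finite G] {p : ℕ} {M : Ideal AlgInt}

theorem count (hM : IsPModular p M) {n : ℕ} {ρ : Representation ℂ G (Fin n → ℂ)}
    {χ : IrrCharacter G} (hρχ : (χ : G → ℂ) = ρ.character)
    (hχ : χ ∈ principalBlock M G) {y : G} (hy : orderOf y = p)
    (hz : ∀ z ∈ Subgroup.zpowers y, ¬ p ∣ (Subgroup.centralizer ({z} : Set G)).index)
    {c m : ℕ} (hdeg : (χ : G → ℂ) 1 = ((p ^ c * m : ℕ) : ℂ)) (hm : m ≠ 0)
    [Fintype (Subgroup.zpowers y)] {κ : Type u} [Fintype κ]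
    (lam : κ → (Subgroup.zpowers y →* ℂˣ)) [DecidableEq (Subgroup.zpowers y →* ℂˣ)]
    (hκ : Fintype.card κ = p ^ c * m)
    (hsum : ∀ z : Subgroup.zpowers y, ρ.character z = ∑ k, (lam k z : ℂ)) :
    (Finset.univ.image lam).card ≤ m := by
  have hp := pm_prime hM
  have h1 : ∀ l ∈ Finset.univ.image lam, p ^ c ≤ (Finset.univ.filter (fun k => lam k = l)).card := by
    intro l hl
    have h2 : classInner (fun z : Subgroup.zpowers y => (χ : G → ℂ) z) (fun z => (l z : ℂ)) =
        (Finset.univ.filter (fun k => lam k = l)).card := by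
      have h3 : (fun z : Subgroup.zpowers y => (χ : G → ℂ) z) =
          ∑ k, (fun z : Subgroup.zpowers y => (lam k z : ℂ)) := by
        funext z
        rw [hρχ, hsum z, Finset.sum_apply]
      rw [h3, inner_sum_left, Finset.card_filter]
      push_cast
      apply Finset.sum_congr rfl
      intro k _
      by_cases h4 : lam k = l
      · rw [if_pos h4, h4, inner_irr_self (isIrrCharacter_of_hom l)]
      · rw [if_neg h4]
        exact inner_irr_ne (isIrrCharacter_of_hom _) (isIrrCharacter_of_hom l)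
          (fun h => h4 (coe_hom_injective h))
    have h3 := mult_dvd hM hχ hy hz hdeg hm l h2
    apply Nat.le_of_dvd _ h3
    obtain ⟨k, _, hk⟩ := Finset.mem_image.1 hl
    exact Finset.card_pos.2 ⟨k, Finset.mem_filter.2 ⟨Finset.mem_univ k, hk⟩⟩
  have h2 : ∑ l ∈ Finset.univ.image lam, (Finset.univ.filter (fun k => lam k = l)).card =
      p ^ c * m := by
    rw [← hκ, ← Finset.card_univ]
    exact (Finset.card_eq_sum_card_image lam Finset.univ).symm
  have h3 : (Finset.univ.image lam).card * p ^ c ≤ p ^ c * m := by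
    rw [← h2, ← smul_eq_mul, ← Finset.sum_const]
    exact Finset.sum_le_sum h1
  rw [mul_comm] at h3
  exact Nat.le_of_mul_le_mul_left h3 (pow_pos hp.pos c)

theorem main [IsSimpleGroup G] {q a b g₀ : ℕ} (hp : p.Prime) (hq : q.Prime)
    (ha : 0 < a) (hg : Nat.card G = p ^ a * q ^ b * g₀) (hcop : ¬ p ∣ g₀)
    (hne : Nat.card G ≠ p) : p < 6 ^ (g₀ - 1) := by
  classical
  haveI : Fact p.Prime := ⟨hp⟩
  have hpG : p ∣ Nat.card G := by
    rw [hg, mul_assoc]
    exact Dvd.dvd.mul_right (dvd_pow_self p ha.ne') _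
  have hg0 : g₀ ≠ 0 := by
    rintro rfl
    exact hcop (dvd_zero p)
  -- nonabelian
  have hna : ∃ a b : G, a * b ≠ b * a := by
    by_contra hcon
    push Not at hcon
    letI : CommGroup G := { (inferInstance : Group G) with mul_comm := hcon }
    have h1 := IsSimpleGroup.prime_card (α := G)
    exact hne ((Nat.prime_dvd_prime_iff_eq hp h1).1 hpG).symm
  obtain ⟨M, hM⟩ := H78.Cong.exists_isPModular hp
  -- a central element of a Sylow subgroup
  obtain ⟨P⟩ : Nonempty (Sylow p G) := inferInstance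
  have hPnt : Nontrivial (P : Subgroup G) := by
    rw [Subgroup.nontrivial_iff_ne_bot]
    intro h
    have h1 := P.card_eq_multiplicity
    rw [h, Subgroup.card_bot] at h1
    have h2 : 0 < (Nat.card G).factorization p := hp.factorization_pos_of_dvd Nat.card_pos.ne' hpG
    have h3 : 1 < p ^ (Nat.card G).factorization p := Nat.one_lt_pow h2.ne' hp.one_lt
    omega
  have hcen : Nontrivial (Subgroup.center (P : Subgroup G)) := P.isPGroup'.center_nontrivial
  have hpc : p ∣ Nat.card (Subgroup.center (P : Subgroup G)) := by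
    obtain ⟨k, hk⟩ := IsPGroup.iff_card.1 (P.isPGroup'.to_subgroup (Subgroup.center (P : Subgroup G)))
    rw [hk]
    apply dvd_pow_self
    rintro rfl
    rw [pow_zero] at hk
    exact (Finite.one_lt_card_iff_nontrivial.2 hcen).ne' hk
  obtain ⟨y', hy'⟩ := exists_prime_orderOf_dvd_card' p hpc
  set y : G := ((y' : (P : Subgroup G)) : G) with hydef
  have hyo : orderOf y = p := by
    rw [hydef, Subgroup.orderOf_coe, Subgroup.orderOf_coe, hy']
  have hz : ∀ z ∈ Subgroup.zpowers y, ¬ p ∣ (Subgroup.centralizer ({z} : Set G)).index := by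
    intro z hz hdvd
    have h1 : (P : Subgroup G) ≤ Subgroup.centralizer ({z} : Set G) := by
      intro x hx
      rw [Subgroup.mem_centralizer_singleton_iff]
      have h2 : Commute x y := by
        have h3 := Subgroup.mem_center_iff.1 y'.2 ⟨x, hx⟩
        exact congrArg Subtype.val h3
      obtain ⟨j, rfl⟩ := Subgroup.mem_zpowers_iff.1 hz
      exact (h2.zpow_right j)
    exact P.not_dvd_index (hdvd.trans (Subgroup.index_dvd_of_le h1))
  obtain ⟨χ, hχB, hχ1, hqχ⟩ := exists_chi hM hq (y := y) (by rw [hyo])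
  obtain ⟨n, ρ, hρ, hρχ⟩ := χ.2
  have hρχ' : (χ : G → ℂ) = ρ.character := hρχ.symm
  have hn1 : (χ : G → ℂ) 1 = n := by
    rw [hρχ', Representation.char_one, Module.finrank_fin_fun]
  -- degree
  have hdn : n ∣ Nat.card G := by
    letI := Fintype.ofFinite G
    exact H77.Degree.degree_dvd_card χ.2 hn1
  have hn0 : n ≠ 0 := by
    rintro rfl
    exact irr_one_ne_zero χ.2 (by rw [hn1]; simp)
  obtain ⟨c, m, hpm, hcm⟩ := Nat.exists_eq_pow_mul_and_not_dvd hn0 p hp.ne_one
  have hm0 : m ≠ 0 := by rintro rfl; exact hpm (dvd_zero p)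
  have hqn : ¬ q ∣ n := by
    rw [← H77.PQuot.charDegree_eq_of hn1]; exact hqχ
  have hmg : m ∣ g₀ := by
    have h1 : m ∣ p ^ a * q ^ b * g₀ := by
      rw [← hg]; exact (Dvd.intro_left _ hcm.symm).trans hdn
    have h2 : Nat.Coprime m (p ^ a) := Nat.Coprime.pow_right _ ((hp.coprime_iff_not_dvd).2 hpm).symm
    have h3 : Nat.Coprime m (q ^ b) := Nat.Coprime.pow_right _ ((hq.coprime_iff_not_dvd).2
      (fun h => hqn (h.trans (Dvd.intro_left _ hcm.symm)))).symm
    exact (Nat.Coprime.mul_right h2 h3).dvd_of_dvd_mul_left h1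
  have hmle : m ≤ g₀ := Nat.le_of_dvd (Nat.pos_of_ne_zero hg0) hmg
  -- faithful
  have hfaith : ∀ t : G, ρ t = 1 → t = 1 := by
    have h1 : ∀ t : G, t ∈ kerSub (χ : G → ℂ) (isCharacter_of_isIrr χ.2) ↔ ρ t = 1 := by
      intro t
      rw [mem_kerSub, hρχ']
      exact rep_eq_one_iff ρ t
    rcases (inferInstance : (kerSub (χ : G → ℂ) (isCharacter_of_isIrr χ.2)).Normal).eq_bot_or_eq_top
      with h | h
    · intro t ht
      have := (h1 t).2 ht
      rw [h] at this
      exact Subgroup.mem_bot.1 this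
    · exfalso
      apply hχ1
      have h2 : ∀ t : G, (χ : G → ℂ) t = (χ : G → ℂ) 1 := by
        intro t
        have : t ∈ kerSub (χ : G → ℂ) (isCharacter_of_isIrr χ.2) := h ▸ Subgroup.mem_top t
        exact this
      by_contra hne'
      letI := Fintype.ofFinite G
      have h3 := inner_irr_ne χ.2 (isIrrCharacter_one (G := G)) hne'
      have h4 : (χ : G → ℂ) = ((χ : G → ℂ) 1) • (fun _ : G => (1 : ℂ)) := by
        funext t
        rw [Pi.smul_apply, smul_eq_mul, mul_one, h2 t]
      rw [h4, CharOrtho.inner_smul_left] at h3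
      have h5 : classInner (fun _ : G => (1 : ℂ)) (fun _ : G => (1 : ℂ)) = 1 :=
        inner_irr_self isIrrCharacter_one
      rw [h5, mul_one] at h3
      exact irr_one_ne_zero χ.2 h3
  -- eigenvalues
  by_contra hlt
  push Not at hlt
  letI : Fintype (Subgroup.zpowers y) := Fintype.ofFinite _
  obtain ⟨κ, hκf, bb, lam, hcard, heig, hsum⟩ := exists_eig ρ (Subgroup.zpowers y) (by
    intro s hs t ht
    obtain ⟨i, rfl⟩ := Subgroup.mem_zpowers_iff.1 hs
    obtain ⟨j, rfl⟩ := Subgroup.mem_zpowers_iff.1 ht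
    exact (Commute.refl y).zpow_zpow i j)
  have hcount : (Finset.univ.image lam).card ≤ m := by
    let e : κ ≃ ULift.{u} κ := Equiv.ulift.symm
    have h1 := count hM hρχ' hχB hyo hz (c := c) (m := m) (by rw [hn1, hcm]) hm0
      (κ := ULift.{u} κ) (fun k => lam k.down) (by
        rw [Fintype.card_ulift, hcard, hcm]) (by
        intro z
        rw [hsum z]
        exact (Equiv.sum_comp Equiv.ulift (fun k => (lam k z : ℂ))).symm)
    have h2 : Finset.univ.image (fun k : ULift.{u} κ => lam k.down) = Finset.univ.image lam := by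
      ext l
      simp only [Finset.mem_image, Finset.mem_univ, true_and]
      constructor
      · rintro ⟨k, hk⟩; exact ⟨k.down, hk⟩
      · rintro ⟨k, hk⟩; exact ⟨⟨k⟩, hk⟩
    rw [h2] at h1
    exact h1
  have hκne : Nonempty κ := by
    rw [← Fintype.card_pos_iff, hcard]
    exact Nat.pos_of_ne_zero hn0
  obtain ⟨k0⟩ := hκne
  have hl0 : lam k0 ∈ Finset.univ.image lam := Finset.mem_image_of_mem _ (Finset.mem_univ _)
  have hbox : 6 ^ ((Finset.univ.image lam).card - 1) < Nat.card (Subgroup.zpowers y) := by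
    rw [Nat.card_zpowers, hyo]
    have h1 : 6 ^ ((Finset.univ.image lam).card - 1) ≤ 6 ^ (g₀ - 1) :=
      Nat.pow_le_pow_right (by norm_num) (by omega)
    refine lt_of_le_of_ne (h1.trans hlt) ?_
    intro h2
    have h3 : 6 ^ ((Finset.univ.image lam).card - 1) ≠ 1 := by
      rw [h2]; exact hp.ne_one
    have h4 : (Finset.univ.image lam).card - 1 ≠ 0 := by
      intro h; rw [h, pow_zero] at h3; exact h3 rfl
    have h5 : 6 ∣ p := by rw [← h2]; exact dvd_pow_self 6 h4
    rcases (Nat.dvd_prime hp).1 h5 with h6 | h6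
    · norm_num at h6
    · rw [← h6] at hp
      exact absurd hp (by norm_num)
  obtain ⟨z, hz1, hclose⟩ := exists_close (Finset.univ.image lam) hl0 hbox
  refine H77.Blich60.simple ρ hρ hna hfaith (z : G) (fun h => hz1 (Subtype.ext h))
    (lam k0 z : ℂ) (bb k0) (bb.ne_zero k0) (heig z k0) ?_
  intro μ w hw hμ
  have h1 : μ ∈ spectrum ℂ (ρ (z : G)) := by
    rw [← Module.End.hasEigenvalue_iff_mem_spectrum]
    exact Module.End.hasEigenvalue_of_hasEigenvector (x := w)
      ⟨Module.End.mem_eigenspace_iff.2 hμ, hw⟩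
  obtain ⟨k, hk⟩ := H77.JointEigen.mem_range_of_mem_spectrum bb (ρ (z : G))
    (fun k => (lam k z : ℂ)) (fun k => heig z k) h1
  rw [← hk]
  exact hclose _ (Finset.mem_image_of_mem _ (Finset.mem_univ k))

end main

end H77.BurnSix
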