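import Cfsg.Agent.Lib.H77.FSCount
import Cfsg.Agent.Lib.H77.Degree
import Cfsg.Agent.Lib.H4.Defect

/-!
# Frobenius–Schur and defect zero (H77.FSDefect)
-/

set_option autoImplicit false
set_option linter.style.haveILetI false
open Cfsg

namespace H77.FSDefect

open H83.FSMult H4.CharCount H77.FSCount

universe u

variable {G : Type u} [Group G] [Finite G]

theorem vanish' (χ : IrrCharacter G) (p : ℕ) (hp : p.Prime)
    (h : p ^ (Nat.card G).factorization p ∣ charDegree (χ : G → ℂ)) {x : G} (hx : p ∣ orderOf x) :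
    (χ : G → ℂ) x = 0 := by
  haveI := Fact.mk hp
  letI := Fintype.ofFinite G
  obtain ⟨m, hm⟩ := H77.Degree.degree_dvd_card χ.2 (coe_degree χ.2).symm
  have hd := degree_pos χ.2
  have hG0 : Nat.card G ≠ 0 := Nat.card_pos.ne'
  have hm0 : m ≠ 0 := by rintro rfl; rw [mul_zero] at hm; exact hG0 hm
  refine H4.Defect.vanish χ.2 p (m := m) ?_ ?_ hx
  · rw [← coe_degree χ.2, hm]; push_cast; ring
  · rw [Nat.coprime_comm, hp.coprime_iff_not_dvd]
    intro hpm
    have h1 : (Nat.card G).factorization p ≤ (charDegree (χ : G → ℂ)).factorization p :=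
      (hp.pow_dvd_iff_le_factorization hd.ne').1 h
    have h2 : (Nat.card G).factorization p = (charDegree (χ : G → ℂ)).factorization p + m.factorization p := by
      rw [hm, Nat.factorization_mul hd.ne' hm0]; rfl
    have h3 : 0 < m.factorization p := hp.factorization_pos_of_dvd hm0 hpm
    omega

theorem sum_eq_zero [Fintype G] (χ : IrrCharacter G) (h : (χ : G → ℂ) ≠ fun _ => 1) :
    ∑ g : G, (χ : G → ℂ) g = 0 := by
  have h1 := H4.CharOrth.classInner_irr_ne χ.2 (triv G).2 h
  rw [classInner] at h1
  have h2 : (Nat.card G : ℂ)⁻¹ ≠ 0 := inv_ne_zero (by exact_mod_cast Nat.card_pos.ne')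
  have h3 := (mul_eq_zero.1 h1).resolve_left h2
  rw [← h3]
  refine Finset.sum_congr rfl fun g _ => ?_
  have : ((triv G : IrrCharacter G) : G → ℂ) g = 1 := rfl
  rw [this]; simp

theorem orderOf_two_mul {s z : G} (hs : orderOf s = 2) {p : ℕ} (hp : p.Prime) (hp2 : p ≠ 2)
    (hz : orderOf z = p) (hc : Commute s z) : orderOf (s * z) = 2 * p := by
  rw [hc.orderOf_mul_eq_mul_orderOf_of_coprime, hs, hz]
  rw [hs, hz]
  exact (Nat.coprime_primes Nat.prime_two hp).2 (Ne.symm hp2)

theorem sum_sq_eq [Fintype G] (χ : IrrCharacter G) (heven : Even (Nat.card G))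
    (h2 : 2 ^ (Nat.card G).factorization 2 ∣ charDegree (χ : G → ℂ))
    (hp : ∀ p : ℕ, p.Prime → p ≠ 2 → (∃ g : G, orderOf g = 2 * p) →
      p ^ (Nat.card G).factorization p ∣ charDegree (χ : G → ℂ)) :
    ∑ s : G, (χ : G → ℂ) (s * s) = (Nat.card {x : G // orderOf x = 2} : ℂ) * charDegree (χ : G → ℂ) := by
  classical
  have hne : (χ : G → ℂ) ≠ fun _ => 1 := by
    intro h
    have h3 : charDegree (χ : G → ℂ) = 1 := by
      have h3 := coe_degree χ.2
      rw [h] at h3 ⊢
      have h4 : ((charDegree fun _ : G => (1 : ℂ)) : ℂ) = 1 := h3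
      exact_mod_cast h4
    have h4 : 2 ∣ 2 ^ (Nat.card G).factorization 2 := by
      apply dvd_pow_self
      exact (Nat.prime_two.factorization_pos_of_dvd Nat.card_pos.ne' heven.two_dvd).ne'
    have h5 := h4.trans h2
    rw [h3] at h5
    omega
  have h0 := sum_eq_zero χ hne
  -- split
  have hsplit : ∀ s : G, (χ : G → ℂ) (s * s) =
      (if Odd (orderOf s) then (χ : G → ℂ) (s * s) else 0) + (if orderOf s = 2 then (χ : G → ℂ) 1 else 0) := by
    intro s
    by_cases ho : Odd (orderOf s)
    · rw [if_pos ho, if_neg, add_zero]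
      intro h; rw [h] at ho; exact absurd ho (by decide)
    · rw [if_neg ho, zero_add]
      by_cases hs : orderOf s = 2
      · rw [if_pos hs, ← sq, ← hs, pow_orderOf_eq_one]
      · rw [if_neg hs]
        have he := Nat.not_odd_iff_even.1 ho
        obtain ⟨k, hk⟩ := he.two_dvd
        have hpos := orderOf_pos s
        have hsq : orderOf (s * s) = k := by
          rw [← sq, orderOf_pow, hk]
          have : Nat.gcd (2 * k) 2 = 2 := Nat.gcd_eq_right (dvd_mul_right 2 k)
          rw [this]
          omega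
        by_cases hk2 : 2 ∣ k
        · exact vanish' χ 2 Nat.prime_two h2 (by rw [hsq]; exact hk2)
        · obtain ⟨p, hpp, hpk⟩ := Nat.exists_prime_and_dvd (n := k) (by omega)
          have hp2 : p ≠ 2 := by rintro rfl; exact hk2 hpk
          obtain ⟨l, hl⟩ := hpk
          refine vanish' χ p hpp (hp p hpp hp2 ⟨s ^ l, ?_⟩) (by rw [hsq, hl]; exact dvd_mul_right p l)
          have hl0 : 0 < l := by
            rcases Nat.eq_zero_or_pos l with h | h
            · rw [h, mul_zero] at hl; omega
            · exact h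
          rw [orderOf_pow, hk, hl]
          have h6 : Nat.gcd (2 * (p * l)) l = l := Nat.gcd_eq_right ⟨2 * p, by ring⟩
          rw [h6]
          have h7 : 2 * (p * l) = (2 * p) * l := by ring
          rw [h7, Nat.mul_div_cancel _ hl0]
  rw [Finset.sum_congr rfl fun s _ => hsplit s, Finset.sum_add_distrib]
  have hA : ∑ s : G, (if Odd (orderOf s) then (χ : G → ℂ) (s * s) else 0) = 0 := by
    rw [← Finset.sum_filter]
    refine Eq.trans ?_ h0
    have hB : ∑ g : G, (χ : G → ℂ) g = ∑ g ∈ Finset.univ.filter fun s : G => Odd (orderOf s), (χ : G → ℂ) g := by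
      rw [Finset.sum_filter]
      refine Finset.sum_congr rfl fun g _ => ?_
      by_cases ho : Odd (orderOf g)
      · rw [if_pos ho]
      · rw [if_neg ho]
        exact vanish' χ 2 Nat.prime_two h2 (Nat.not_odd_iff_even.1 ho).two_dvd
    rw [hB]
    have hcop : ∀ s : G, Odd (orderOf s) → orderOf (s * s) = orderOf s := by
      intro s hs
      rw [← sq]
      exact Nat.Coprime.orderOf_pow (Nat.coprime_two_right.2 hs)
    refine Finset.sum_nbij (fun s => s * s) ?_ ?_ ?_ (fun s _ => rfl)
    · intro s hs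
      rw [Finset.mem_filter] at hs ⊢
      refine ⟨Finset.mem_univ _, ?_⟩
      rw [hcop s hs.2]; exact hs.2
    · intro s hs s' hs' h
      have hs := (Finset.mem_filter.1 (Finset.mem_coe.1 hs)).2
      have hs' := (Finset.mem_filter.1 (Finset.mem_coe.1 hs')).2
      have h' : s * s = s' * s' := h
      have h1 : orderOf s = orderOf s' := by rw [← hcop s hs, h', hcop s' hs']
      obtain ⟨k, hk⟩ := hs
      have h3 : ∀ x : G, orderOf x = 2 * k + 1 → x = (x * x) ^ (k + 1) := by
        intro x hx
        rw [← sq, ← pow_mul]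
        have : 2 * (k + 1) = (2 * k + 1) + 1 := by ring
        rw [this, pow_add, ← hx, pow_orderOf_eq_one, pow_one, one_mul]
      rw [h3 s hk, h3 s' (h1 ▸ hk), h']
    · intro s hs
      have hs := (Finset.mem_filter.1 (Finset.mem_coe.1 hs)).2
      obtain ⟨k, hk⟩ := hs
      refine ⟨s ^ (k + 1), ?_, ?_⟩
      · rw [Finset.mem_coe, Finset.mem_filter]
        refine ⟨Finset.mem_univ _, ?_⟩
        have h3 : orderOf (s ^ (k + 1)) = orderOf s := by
          apply Nat.Coprime.orderOf_pow
          rw [hk]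
          have h4 : 2 * (k + 1) - (2 * k + 1) = 1 := by omega
          rw [Nat.coprime_iff_gcd_eq_one]
          have h5 : Nat.gcd (2 * k + 1) (k + 1) ∣ 2 * (k + 1) - (2 * k + 1) := by
            apply Nat.dvd_sub
            · exact Dvd.dvd.mul_left (Nat.gcd_dvd_right _ _) 2
            · exact Nat.gcd_dvd_left _ _
          rw [h4] at h5
          exact Nat.dvd_one.1 h5
        rw [h3, hk]; exact ⟨k, rfl⟩
      · change s ^ (k + 1) * s ^ (k + 1) = s
        rw [← pow_add]
        have : k + 1 + (k + 1) = (2 * k + 1) + 1 := by ring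
        rw [this, pow_add, ← hk, pow_orderOf_eq_one, pow_one, one_mul]
  rw [hA, zero_add, ← Finset.sum_filter, Finset.sum_const, nsmul_eq_mul, coe_degree χ.2]
  congr 1
  rw [Nat.card_eq_fintype_card, Fintype.card_subtype]

theorem main [Fintype G] (χ : IrrCharacter G) (heven : Even (Nat.card G))
    (h2 : 2 ^ (Nat.card G).factorization 2 ∣ charDegree (χ : G → ℂ))
    (hp : ∀ p : ℕ, p.Prime → p ≠ 2 → (∃ g : G, orderOf g = 2 * p) →
      p ^ (Nat.card G).factorization p ∣ charDegree (χ : G → ℂ)) :
    (∀ s t : G, orderOf s = 2 → orderOf t = 2 → IsConj s t) ∧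
    (∀ s : G, orderOf s = 2 → Nat.card (Subgroup.centralizer ({s} : Set G)) = charDegree (χ : G → ℂ) ∧
      (Nat.card (Subgroup.centralizer ({s} : Set G))).Coprime (Subgroup.centralizer ({s} : Set G)).index) ∧
    (Nat.card G : ℂ)⁻¹ * ∑ g : G, (χ : G → ℂ) (g * g) = 1 := by
  classical
  have hsum := sum_sq_eq χ heven h2 hp
  have hG0 : (Nat.card G : ℂ) ≠ 0 := by exact_mod_cast Nat.card_pos.ne'
  have hd := degree_pos χ.2
  have ht0 : 0 < Nat.card {x : G // orderOf x = 2} := by
    haveI := Fact.mk Nat.prime_two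
    obtain ⟨x, hx⟩ := exists_prime_orderOf_dvd_card' (G := G) 2 heven.two_dvd
    haveI : Nonempty {x : G // orderOf x = 2} := ⟨⟨x, hx⟩⟩
    exact Nat.card_pos
  have hν := nuZ_cases (χ : G → ℂ)
  have hνc : (nuZ (χ : G → ℂ) : ℂ) * Nat.card G =
      (Nat.card {x : G // orderOf x = 2} : ℂ) * charDegree (χ : G → ℂ) := by
    rw [coe_nuZ χ.2, nu_eq, hsum]
    field_simp
  have hνz : nuZ (χ : G → ℂ) * Nat.card G =
      (Nat.card {x : G // orderOf x = 2} : ℤ) * charDegree (χ : G → ℂ) := by exact_mod_cast hνc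
  have hpos : (0 : ℤ) < (Nat.card {x : G // orderOf x = 2} : ℤ) * charDegree (χ : G → ℂ) := by
    positivity
  have hν1 : nuZ (χ : G → ℂ) = 1 := by
    rcases hν with h | h | h
    · rw [h, zero_mul] at hνz; omega
    · exact h
    · rw [h] at hνz
      have : (0 : ℤ) < Nat.card G := by exact_mod_cast Nat.card_pos
      linarith
  have ht : Nat.card G = Nat.card {x : G // orderOf x = 2} * charDegree (χ : G → ℂ) := by
    rw [hν1, one_mul] at hνz
    exact_mod_cast hνz
  -- centralizers
  have hGfac : ∀ p : ℕ, p.Prime → ∀ s : G, orderOf s = 2 →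
      p ∣ Nat.card (Subgroup.centralizer ({s} : Set G)) →
      (Nat.card G).factorization p ≤ (charDegree (χ : G → ℂ)).factorization p := by
    intro p hpp s hs hps
    rw [← hpp.pow_dvd_iff_le_factorization hd.ne']
    by_cases hp2 : p = 2
    · rw [hp2]; exact h2
    · apply hp p hpp hp2
      haveI := Fact.mk hpp
      obtain ⟨z, hz⟩ := exists_prime_orderOf_dvd_card' (G := Subgroup.centralizer ({s} : Set G)) p hps
      refine ⟨s * z, orderOf_two_mul hs hpp hp2 (by rw [← hz]; exact Subgroup.orderOf_coe z) ?_⟩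
      exact (Subgroup.mem_centralizer_singleton_iff.1 z.2).symm
  have hCdvd : ∀ s : G, orderOf s = 2 →
      Nat.card (Subgroup.centralizer ({s} : Set G)) ∣ charDegree (χ : G → ℂ) := by
    intro s hs
    rw [← Nat.factorization_prime_le_iff_dvd Nat.card_pos.ne' hd.ne']
    intro p hpp
    by_cases hps : p ∣ Nat.card (Subgroup.centralizer ({s} : Set G))
    · refine le_trans ?_ (hGfac p hpp s hs hps)
      exact (Nat.factorization_le_iff_dvd Nat.card_pos.ne' Nat.card_pos.ne').2
        (Subgroup.card_subgroup_dvd_card _) p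
    · rw [Nat.factorization_eq_zero_of_not_dvd hps]; exact Nat.zero_le _
  have hcl : ∀ s : G, orderOf s = 2 →
      Nat.card (Subgroup.centralizer ({s} : Set G)) * Nat.card {x : G // IsConj s x} = Nat.card G :=
    fun s _ => card_centralizer_mul_card_class s
  have hsub : ∀ s : G, orderOf s = 2 → Nat.card {x : G // IsConj s x} ≤ Nat.card {x : G // orderOf x = 2} := by
    intro s hs
    refine Nat.card_le_card_of_injective (fun x => ⟨x.1, ?_⟩) ?_
    · have h3 := x.2
      obtain ⟨c, hc⟩ := isConj_iff.1 h3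
      rw [← hc, ← hs]
      exact orderOf_injective (MulAut.conj c).toMonoidHom (MulAut.conj c).injective s
    · intro x y h
      exact Subtype.ext (congrArg (fun z : {x : G // orderOf x = 2} => z.1) h)
  have hCeq : ∀ s : G, orderOf s = 2 →
      Nat.card (Subgroup.centralizer ({s} : Set G)) = charDegree (χ : G → ℂ) := by
    intro s hs
    have h3 := Nat.le_of_dvd hd (hCdvd s hs)
    have h4 := hcl s hs
    have h5 := hsub s hs
    have h6 : 0 < Nat.card {x : G // IsConj s x} := by
      haveI : Nonempty {x : G // IsConj s x} := ⟨⟨s, IsConj.refl s⟩⟩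
      exact Nat.card_pos
    rcases h3.lt_or_eq with h7 | h7
    · exfalso
      have h8 : Nat.card (Subgroup.centralizer ({s} : Set G)) * Nat.card {x : G // IsConj s x} <
          charDegree (χ : G → ℂ) * Nat.card {x : G // orderOf x = 2} :=
        Nat.mul_lt_mul_of_lt_of_le h7 h5 ht0
      rw [h4, ht, mul_comm] at h8
      exact lt_irrefl _ h8
    · exact h7
  refine ⟨?_, ?_, ?_⟩
  · intro s t' hs ht'
    have h3 : Nat.card {x : G // IsConj s x} = Nat.card {x : G // orderOf x = 2} := by
      have h4 := hcl s hs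
      rw [hCeq s hs, ht, mul_comm] at h4
      exact Nat.eq_of_mul_eq_mul_right hd h4
    by_contra hcon
    have h5 : Nat.card {x : G // IsConj s x} < Nat.card {x : G // orderOf x = 2} := by
      let f : {x : G // IsConj s x} → {x : G // orderOf x = 2} := fun x => ⟨x.1, by
        obtain ⟨c, hc⟩ := isConj_iff.1 x.2
        rw [← hc, ← hs]
        exact orderOf_injective (MulAut.conj c).toMonoidHom (MulAut.conj c).injective s⟩
      have hf : Function.Injective f := by
        intro x y h
        exact Subtype.ext (congrArg (fun z : {x : G // orderOf x = 2} => z.1) h)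
      rw [Nat.card_eq_fintype_card, Nat.card_eq_fintype_card]
      apply Fintype.card_lt_of_injective_of_notMem f hf (b := ⟨t', ht'⟩)
      rintro ⟨y, hy⟩
      apply hcon
      have : y.1 = t' := congrArg (fun z : {x : G // orderOf x = 2} => z.1) hy
      rw [← this]; exact y.2
    omega
  · intro s hs
    refine ⟨hCeq s hs, ?_⟩
    apply Nat.Coprime.symm
    by_contra hcon
    obtain ⟨p, hpp, hp1, hp2⟩ := Nat.Prime.not_coprime_iff_dvd.1 hcon
    have h3 := hGfac p hpp s hs hp2
    have h4 : Nat.card G = Nat.card (Subgroup.centralizer ({s} : Set G)) *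
        (Subgroup.centralizer ({s} : Set G)).index := (Subgroup.card_mul_index _).symm
    have hi0 : (Subgroup.centralizer ({s} : Set G)).index ≠ 0 := Subgroup.index_ne_zero_of_finite
    have h5 : (Nat.card G).factorization p = (charDegree (χ : G → ℂ)).factorization p +
        ((Subgroup.centralizer ({s} : Set G)).index).factorization p := by
      rw [h4, hCeq s hs, Nat.factorization_mul hd.ne' hi0]; rfl
    have h6 := hpp.factorization_pos_of_dvd hi0 hp1
    omega
  · have h3 := coe_nuZ χ.2
    rw [hν1, nu_eq] at h3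
    rw [← h3]; norm_num

end H77.FSDefect
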