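import Cfsg.Agent.Lib.H77.FSCount
import Cfsg.Agent.Lib.H77.Degree
import Cfsg.Agent.Lib.H77.GlPerm
import Cfsg.Agent.Lib.H83.FSInd
import Cfsg.Agent.Lib.H1.Frat

/-!
# 2-groups in which the number of involutions is 1 mod 4 (H77.FSTwo)
-/

set_option autoImplicit false
set_option linter.style.haveILetI false
set_option linter.unusedSectionVars false
open Cfsg

namespace H77.FSTwo

open H83.FSMult H83.FSInd H4.CharCount H77.FSCount H77.GlPerm H18.CharBasic H18.CharQuot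
open scoped ComplexConjugate

universe u

variable {G : Type u} [Group G] [Finite G]

theorem exists_sign (M : Subgroup G) [M.Normal] (hM : M.index = 2) :
    ∃ f : G →* ℂˣ, f ^ 2 = 1 ∧ f.ker = M := by
  have hcard : Nat.card (G ⧸ M) = 2 := hM
  haveI := Fact.mk Nat.prime_two
  haveI : IsCyclic (G ⧸ M) := isCyclic_of_prime_card hcard
  have hne : M ≠ ⊤ := by
    rintro rfl
    rw [Subgroup.index_top] at hM
    omega
  obtain ⟨x, hx⟩ : ∃ x : G, x ∉ M := by
    by_contra h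
    push Not at h
    exact hne ((Subgroup.eq_top_iff' M).2 h)
  have hx1 : (x : G ⧸ M) ∉ commutator (G ⧸ M) := by
    have h1 : commutator (G ⧸ M) = ⊥ := by
      rw [commutator_eq_bot_iff_center_eq_top, Subgroup.eq_top_iff']
      intro y
      rw [Subgroup.mem_center_iff]
      intro z
      haveI := IsCyclic.commGroup (α := G ⧸ M)
      obtain ⟨g, hg⟩ := IsCyclic.exists_generator (α := G ⧸ M)
      obtain ⟨a, ha⟩ := hg y
      obtain ⟨b, hb⟩ := hg z
      rw [← ha, ← hb]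
      exact (Commute.refl g).zpow_zpow b a
    rw [h1, Subgroup.mem_bot, QuotientGroup.eq_one_iff]
    exact hx
  obtain ⟨f', hf'⟩ := exists_hom_ne_one hx1
  refine ⟨f'.comp (QuotientGroup.mk' M), ?_, ?_⟩
  · ext g
    have h1 : ((g : G ⧸ M)) ^ 2 = 1 := by rw [← hcard]; exact pow_card_eq_one'
    have h2 : f' ((g : G ⧸ M)) ^ 2 = 1 := by rw [← map_pow, h1, map_one]
    rw [MonoidHom.pow_apply]
    exact congrArg Units.val h2
  · have hle : M ≤ (f'.comp (QuotientGroup.mk' M)).ker := by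
      intro g hg
      rw [MonoidHom.mem_ker, MonoidHom.comp_apply, QuotientGroup.mk'_apply,
        (QuotientGroup.eq_one_iff g).2 hg, map_one]
    have hne' : (f'.comp (QuotientGroup.mk' M)).ker ≠ ⊤ := by
      intro h
      apply hf'
      have : x ∈ (f'.comp (QuotientGroup.mk' M)).ker := by rw [h]; trivial
      exact this
    have h3 := Subgroup.relIndex_mul_index hle
    rw [hM] at h3
    have h4 : (f'.comp (QuotientGroup.mk' M)).ker.index ≠ 1 := fun h => hne' (Subgroup.index_eq_one.1 h)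
    have h5 : (f'.comp (QuotientGroup.mk' M)).ker.index = 2 := by
      have := (Nat.dvd_prime Nat.prime_two).1 ⟨_, by rw [mul_comm]; exact h3.symm⟩
      exact this.resolve_left h4
    rw [h5] at h3
    have h6 : M.relIndex (f'.comp (QuotientGroup.mk' M)).ker = 1 := by omega
    exact le_antisymm (Subgroup.relIndex_eq_one.1 h6) hle

/-- the linear characters of order dividing two -/
def A2 (G : Type u) [Group G] : Subgroup (G →* ℂˣ) := (powMonoidHom 2 : (G →* ℂˣ) →* (G →* ℂˣ)).ker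

theorem mem_A2 {f : G →* ℂˣ} : f ∈ A2 G ↔ f ^ 2 = 1 := by
  rw [A2, MonoidHom.mem_ker]; rfl

theorem isPGroup_hom (hG : IsPGroup 2 G) : IsPGroup 2 (G →* ℂˣ) := by
  haveI : Finite (G →* ℂˣ) := by
    apply Nat.finite_of_card_ne_zero
    rw [card_hom_eq_index]
    exact Subgroup.index_ne_zero_of_finite
  obtain ⟨k, hk⟩ := (IsPGroup.iff_card (p := 2)).1 hG
  intro f
  refine ⟨k, ?_⟩
  ext g
  rw [MonoidHom.pow_apply, ← map_pow, ← hk, pow_card_eq_one', map_one]
  rfl

instance finite_hom : Finite (G →* ℂˣ) := by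
  apply Nat.finite_of_card_ne_zero
  rw [card_hom_eq_index]
  exact Subgroup.index_ne_zero_of_finite

theorem four_dvd (hG : IsPGroup 2 G) (hcyc : ¬ IsCyclic G) : 4 ∣ Nat.card (A2 G) := by
  classical
  haveI := Fact.mk Nat.prime_two
  -- two different maximal subgroups
  have h1 : ∀ x : G, ∃ M : Subgroup G, IsCoatom M ∧ x ∈ M := by
    intro x
    have h2 : Subgroup.zpowers x ≠ ⊤ := fun h => hcyc ⟨⟨x, fun y => by
      have : y ∈ (⊤ : Subgroup G) := trivial
      rwa [← h] at this⟩⟩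
    obtain ⟨M, hM, hle⟩ := (eq_top_or_exists_le_coatom (Subgroup.zpowers x)).resolve_left h2
    exact ⟨M, hM, hle (Subgroup.mem_zpowers x)⟩
  obtain ⟨M1, hM1, -⟩ := h1 1
  obtain ⟨x, hx⟩ : ∃ x : G, x ∉ M1 := by
    by_contra h
    push Not at h
    exact hM1.1 ((Subgroup.eq_top_iff' M1).2 h)
  obtain ⟨M2, hM2, hx2⟩ := h1 x
  have hi1 := H1.Frat.index_eq_of_isCoatom hG hM1
  have hi2 := H1.Frat.index_eq_of_isCoatom hG hM2
  haveI : M1.Normal := Subgroup.normal_of_index_eq_two hi1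
  haveI : M2.Normal := Subgroup.normal_of_index_eq_two hi2
  obtain ⟨f1, hf1, hk1⟩ := exists_sign M1 hi1
  obtain ⟨f2, hf2, hk2⟩ := exists_sign M2 hi2
  have hA : IsPGroup 2 (A2 G) := (isPGroup_hom hG).to_subgroup _
  obtain ⟨k, hk⟩ := (IsPGroup.iff_card (p := 2)).1 hA
  rw [hk]
  have hne1 : f1 ≠ 1 := by
    rintro rfl
    rw [MonoidHom.ker_one] at hk1
    exact hM1.1 hk1.symm
  have hne2 : f2 ≠ 1 := by
    rintro rfl
    rw [MonoidHom.ker_one] at hk2
    exact hM2.1 hk2.symm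
  have hne12 : f1 ≠ f2 := by
    rintro rfl
    apply hx
    rw [← hk1, hk2]; exact hx2
  have hcard : 3 ≤ Nat.card (A2 G) := by
    letI := Fintype.ofFinite (A2 G)
    rw [Nat.card_eq_fintype_card]
    have h3 : ({1, ⟨f1, mem_A2.2 hf1⟩, ⟨f2, mem_A2.2 hf2⟩} : Finset (A2 G)).card = 3 := by
      apply Finset.card_eq_three.2
      refine ⟨1, ⟨f1, mem_A2.2 hf1⟩, ⟨f2, mem_A2.2 hf2⟩, ?_, ?_, ?_, rfl⟩
      · intro h; exact hne1 (congrArg Subtype.val h).symm
      · intro h; exact hne2 (congrArg Subtype.val h).symm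
      · intro h; exact hne12 (congrArg Subtype.val h)
    rw [← h3]
    exact Finset.card_le_univ _
  rw [hk] at hcard
  have hk2 : 2 ≤ k := by
    by_contra h
    have : k = 0 ∨ k = 1 := by omega
    rcases this with h | h <;> rw [h] at hcard <;> norm_num at hcard
  exact pow_dvd_pow 2 hk2

/-- the action of the linear characters on the irreducible characters -/
noncomputable instance linAct : MulAction (G →* ℂˣ) (IrrCharacter G) where
  smul l χ := mulI l χ
  one_smul χ := mulI_one χ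
  mul_smul l m χ := mulI_mul l m χ

theorem smul_apply (l : G →* ℂˣ) (χ : IrrCharacter G) (g : G) : (l • χ).1 g = (l g : ℂ) * χ.1 g := rfl

theorem smul_degree (l : G →* ℂˣ) (χ : IrrCharacter G) : charDegree (l • χ).1 = charDegree χ.1 := by
  have h1 : ((charDegree (l • χ).1 : ℕ) : ℂ) = charDegree χ.1 := by
    rw [coe_degree (l • χ).2, coe_degree χ.2, smul_apply, map_one, Units.val_one, one_mul]
  exact_mod_cast h1

theorem two_real_val {l : G →* ℂˣ} (hl : l ^ 2 = 1) (g : G) : ((l g : ℂˣ) : ℂ) = 1 ∨ ((l g : ℂˣ) : ℂ) = -1 := by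
  have h1 : (l g) ^ 2 = 1 := by rw [← MonoidHom.pow_apply, hl, MonoidHom.one_apply]
  have h2 : ((l g : ℂˣ) : ℂ) * ((l g : ℂˣ) : ℂ) = 1 := by
    rw [← sq]
    exact congrArg Units.val h1
  exact mul_self_eq_one_iff.1 h2

/-- the number of linear characters fixing `χ` is at most `χ(1)²` -/
theorem card_stab_le (χ : IrrCharacter G) :
    Nat.card (MulAction.stabilizer (G →* ℂˣ) χ) ≤ charDegree χ.1 ^ 2 := by
  classical
  letI := Fintype.ofFinite G
  letI := Fintype.ofFinite (G →* ℂˣ)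
  letI := Fintype.ofFinite (MulAction.stabilizer (G →* ℂˣ) χ)
  -- sum over the stabilizer
  have hG0 : (0 : ℝ) < (Nat.card G : ℝ) := by exact_mod_cast Nat.card_pos
  -- `∑_{l ∈ S} l` takes value `|S|` where `χ ≠ 0`
  have hone : ∀ l : MulAction.stabilizer (G →* ℂˣ) χ, ∀ g : G, χ.1 g ≠ 0 → ((l.1 g : ℂˣ) : ℂ) = 1 := by
    intro l g hg
    have h1 := MulAction.mem_stabilizer_iff.1 l.2
    have h2 : ((l.1 g : ℂˣ) : ℂ) * χ.1 g = χ.1 g := by
      rw [← smul_apply, h1]
    exact mul_right_cancel₀ hg (by rw [h2, one_mul])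
  -- |S|^2-norm
  have hnorm : ∑ g : G, ‖∑ l : MulAction.stabilizer (G →* ℂˣ) χ, ((l.1 g : ℂˣ) : ℂ)‖ ^ 2 =
      (Nat.card (MulAction.stabilizer (G →* ℂˣ) χ) : ℝ) * Nat.card G := by
    have h1 : ∀ l m : MulAction.stabilizer (G →* ℂˣ) χ,
        ∑ g : G, ((l.1 g : ℂˣ) : ℂ) * conj ((m.1 g : ℂˣ) : ℂ) = if l = m then (Nat.card G : ℂ) else 0 := by
      intro l m
      have h2 := H18.CharOrtho.inner_irr (isIrrCharacter_of_hom l.1) (isIrrCharacter_of_hom m.1)
      rw [classInner] at h2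
      have hG0 : (Nat.card G : ℂ) ≠ 0 := by exact_mod_cast Nat.card_pos.ne'
      rw [inv_mul_eq_iff_eq_mul₀ hG0] at h2
      rw [h2]
      by_cases hlm : l = m
      · rw [if_pos hlm, if_pos (by rw [hlm]), mul_one]
      · rw [if_neg hlm, if_neg, mul_zero]
        intro h
        exact hlm (Subtype.ext (coe_hom_injective h))
    have h2 : ((∑ g : G, ‖∑ l : MulAction.stabilizer (G →* ℂˣ) χ, ((l.1 g : ℂˣ) : ℂ)‖ ^ 2 : ℝ) : ℂ) =
        (Nat.card (MulAction.stabilizer (G →* ℂˣ) χ) : ℂ) * Nat.card G := by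
      rw [Complex.ofReal_sum]
      have h3 : ∀ g : G, ((‖∑ l : MulAction.stabilizer (G →* ℂˣ) χ, ((l.1 g : ℂˣ) : ℂ)‖ ^ 2 : ℝ) : ℂ) =
          ∑ l : MulAction.stabilizer (G →* ℂˣ) χ, ∑ m : MulAction.stabilizer (G →* ℂˣ) χ,
            ((l.1 g : ℂˣ) : ℂ) * conj ((m.1 g : ℂˣ) : ℂ) := by
        intro g
        rw [← Complex.normSq_eq_norm_sq, ← Complex.mul_conj, map_sum, Finset.sum_mul_sum]
      rw [Finset.sum_congr rfl fun g _ => h3 g, Finset.sum_comm]
      have h4 : ∀ l : MulAction.stabilizer (G →* ℂˣ) χ,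
          ∑ g : G, ∑ m : MulAction.stabilizer (G →* ℂˣ) χ, ((l.1 g : ℂˣ) : ℂ) * conj ((m.1 g : ℂˣ) : ℂ) =
          Nat.card G := by
        intro l
        rw [Finset.sum_comm, Finset.sum_congr rfl fun m _ => h1 l m]
        simp
      rw [Finset.sum_congr rfl fun l _ => h4 l, Finset.sum_const, Finset.card_univ, nsmul_eq_mul,
        Nat.card_eq_fintype_card (α := MulAction.stabilizer (G →* ℂˣ) χ)]
    exact_mod_cast h2
  -- support of χ
  have hsupp : (Nat.card G : ℝ) ≤ charDegree χ.1 ^ 2 *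
      ((Finset.univ.filter fun g : G => χ.1 g ≠ 0).card : ℝ) := by
    have h1 := H4.CharOrth.classInner_self χ.1
    rw [H4.CharOrth.classInner_self_irr χ.2] at h1
    have h2 : (Nat.card G : ℝ)⁻¹ * ∑ g : G, ‖χ.1 g‖ ^ 2 = 1 := by exact_mod_cast h1.symm
    rw [inv_mul_eq_iff_eq_mul₀ hG0.ne', mul_one] at h2
    rw [← h2]
    have h3 : ∑ g : G, ‖χ.1 g‖ ^ 2 = ∑ g ∈ Finset.univ.filter fun g : G => χ.1 g ≠ 0, ‖χ.1 g‖ ^ 2 := by
      rw [Finset.sum_filter]
      refine Finset.sum_congr rfl fun g _ => ?_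
      by_cases h : χ.1 g = 0
      · rw [if_neg (not_not.2 h), h]; simp
      · rw [if_pos h]
    rw [h3]
    refine (Finset.sum_le_card_nsmul _ _ ((charDegree χ.1 : ℝ) ^ 2) ?_).trans ?_
    · intro g _
      have h4 : ‖χ.1 g‖ ≤ charDegree χ.1 := by
        have h5 := char_norm_le (isCharacter_of_isIrr χ.2) g
        have h6 : (χ.1 1).re = charDegree χ.1 := by rw [← coe_degree χ.2]; simp
        rw [← h6]; exact h5
      exact pow_le_pow_left₀ (norm_nonneg _) h4 2
    · rw [nsmul_eq_mul, mul_comm]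
  -- lower bound
  have hlow : ((Finset.univ.filter fun g : G => χ.1 g ≠ 0).card : ℝ) *
      (Nat.card (MulAction.stabilizer (G →* ℂˣ) χ) : ℝ) ^ 2 ≤
      (Nat.card (MulAction.stabilizer (G →* ℂˣ) χ) : ℝ) * Nat.card G := by
    rw [← hnorm]
    have h1 : ((Finset.univ.filter fun g : G => χ.1 g ≠ 0).card : ℝ) *
      (Nat.card (MulAction.stabilizer (G →* ℂˣ) χ) : ℝ) ^ 2 =
      ∑ g ∈ Finset.univ.filter fun g : G => χ.1 g ≠ 0,
        ‖∑ l : MulAction.stabilizer (G →* ℂˣ) χ, ((l.1 g : ℂˣ) : ℂ)‖ ^ 2 := by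
      rw [Finset.sum_congr rfl (g := fun _ => (Nat.card (MulAction.stabilizer (G →* ℂˣ) χ) : ℝ) ^ 2)]
      · rw [Finset.sum_const, nsmul_eq_mul]
      · intro g hg
        rw [Finset.sum_congr rfl fun l _ => hone l g (Finset.mem_filter.1 hg).2]
        rw [Finset.sum_const, Finset.card_univ, nsmul_eq_mul, mul_one, Nat.card_eq_fintype_card]
        simp
    rw [h1]
    apply Finset.sum_le_sum_of_subset_of_nonneg (Finset.filter_subset _ _)
    intro g _ _
    positivity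
  have hs0 : (0 : ℝ) < (Nat.card (MulAction.stabilizer (G →* ℂˣ) χ) : ℝ) := by
    exact_mod_cast Nat.card_pos
  have hlow' : ((Finset.univ.filter fun g : G => χ.1 g ≠ 0).card : ℝ) *
      (Nat.card (MulAction.stabilizer (G →* ℂˣ) χ) : ℝ) ≤ Nat.card G := by
    have : (Nat.card (MulAction.stabilizer (G →* ℂˣ) χ) : ℝ) * (((Finset.univ.filter fun g : G => χ.1 g ≠ 0).card : ℝ) *
      (Nat.card (MulAction.stabilizer (G →* ℂˣ) χ) : ℝ)) ≤
      (Nat.card (MulAction.stabilizer (G →* ℂˣ) χ) : ℝ) * Nat.card G := by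
      refine le_trans (le_of_eq ?_) hlow
      ring
    exact le_of_mul_le_mul_left this hs0
  have hpos : (0 : ℝ) < ((Finset.univ.filter fun g : G => χ.1 g ≠ 0).card : ℝ) := by
    have : 0 < (Finset.univ.filter fun g : G => χ.1 g ≠ 0).card := by
      rw [Finset.card_pos]
      exact ⟨1, Finset.mem_filter.2 ⟨Finset.mem_univ _, irr_one_ne_zero χ.2⟩⟩
    exact_mod_cast this
  have hfin : (Nat.card (MulAction.stabilizer (G →* ℂˣ) χ) : ℝ) ≤ charDegree χ.1 ^ 2 := by
    have h1 := hlow'.trans hsupp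
    rw [mul_comm] at h1
    exact le_of_mul_le_mul_right h1 hpos
  exact_mod_cast hfin

/-- real characters of degree two -/
def IsD (χ : IrrCharacter G) : Prop := charDegree χ.1 = 2 ∧ ∀ g, (χ.1 g).im = 0

theorem isD_smul {l : G →* ℂˣ} (hl : l ^ 2 = 1) {χ : IrrCharacter G} (h : IsD χ) : IsD (l • χ) := by
  refine ⟨by rw [smul_degree, h.1], fun g => ?_⟩
  rw [smul_apply]
  rcases two_real_val hl g with h1 | h1 <;> rw [h1] <;> simp [h.2 g]

/-- the action of `A2` on the real characters of degree two -/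
noncomputable instance actD : MulAction (A2 G) {χ : IrrCharacter G // IsD χ} where
  smul l χ := ⟨l.1 • χ.1, isD_smul (mem_A2.1 l.2) χ.2⟩
  one_smul χ := Subtype.ext (one_smul (G →* ℂˣ) χ.1)
  mul_smul l m χ := Subtype.ext (mul_smul l.1 m.1 χ.1)

theorem card_deg_pow (hG : IsPGroup 2 G) (χ : IrrCharacter G) : ∃ k : ℕ, charDegree χ.1 = 2 ^ k := by
  letI := Fintype.ofFinite G
  haveI := Fact.mk Nat.prime_two
  obtain ⟨n, hn⟩ := (IsPGroup.iff_card (p := 2)).1 hG
  have h1 := H77.Degree.degree_dvd_card χ.2 (coe_degree χ.2).symm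
  rw [hn, Nat.dvd_prime_pow Nat.prime_two] at h1
  obtain ⟨k, -, hk⟩ := h1
  exact ⟨k, hk⟩

theorem odd_card_D (hG : IsPGroup 2 G) (hcyc : ¬ IsCyclic G)
    (ht : Nat.card {x : G // orderOf x = 2} % 4 = 1) : Odd (Nat.card {χ : IrrCharacter G // IsD χ}) := by
  classical
  letI := Fintype.ofFinite G
  haveI : Finite (IrrCharacter G) := H18.CharOrtho.instFiniteIrr
  letI := Fintype.ofFinite (IrrCharacter G)
  have h1 := sum_nuZ (G := G)
  have h2 := congrArg (Int.cast : ℤ → ZMod 4) h1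
  push_cast at h2
  have h3 : ∀ χ : IrrCharacter G, ((nuZ (χ : G → ℂ) : ℤ) : ZMod 4) * ((charDegree (χ : G → ℂ) : ℕ) : ZMod 4) =
      (if (charDegree χ.1 = 1 ∧ nu χ.1 = 1) then 1 else 0) + (if IsD χ then 2 else 0) := by
    intro χ
    obtain ⟨k, hk⟩ := card_deg_pow hG χ
    by_cases h0 : k = 0
    · rw [h0, pow_zero] at hk
      have hD : ¬ IsD χ := by rintro ⟨h, -⟩; rw [hk] at h; omega
      rw [if_neg hD, add_zero, hk, Nat.cast_one, mul_one]
      obtain ⟨f, hf⟩ : ∃ f : G →* ℂˣ, (χ : G → ℂ) = fun g => (f g : ℂ) :=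
        exists_hom_of_degree_one (isCharacter_of_isIrr χ.2) (by rw [← coe_degree χ.2, hk, Nat.cast_one])
      by_cases hf2 : f ^ 2 = 1
      · have h4 : nu χ.1 = 1 := by rw [hf]; exact (nu_lin_iff f).2 hf2
        rw [if_pos ⟨rfl, h4⟩]
        have h5 := coe_nuZ χ.2
        rw [h4] at h5
        have h6 : nuZ χ.1 = 1 := by exact_mod_cast h5
        rw [h6]; simp
      · have h4 : nu χ.1 ≠ 1 := by rw [hf]; exact fun h => hf2 ((nu_lin_iff f).1 h)
        rw [if_neg (fun h => h4 h.2)]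
        have h5 : nu χ.1 = 0 := by
          rw [nu_eq_zero_iff χ.2]
          by_contra hc
          push Not at hc
          apply hf2
          ext g
          have h6 := hc g
          rw [hf] at h6
          have h7 : ((f g : ℂˣ) : ℂ).im = 0 := h6
          have h8 := hom_norm_one f g
          have h9 : (((f g : ℂˣ) : ℂ)) ^ 2 = 1 := by
            have h10 : ((f g : ℂˣ) : ℂ) * conj ((f g : ℂˣ) : ℂ) = 1 := by
              rw [Complex.mul_conj, Complex.normSq_eq_norm_sq, h8]; simp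
            rw [Complex.conj_eq_iff_im.2 h7] at h10
            rw [sq]; exact h10
          rw [MonoidHom.pow_apply, Units.val_pow_eq_pow_val, h9]; rfl
        have h6 := coe_nuZ χ.2
        rw [h5] at h6
        have h7 : nuZ χ.1 = 0 := by exact_mod_cast h6
        rw [h7]; simp
    · have hd1 : charDegree χ.1 ≠ 1 := by
        rw [hk]
        exact (Nat.one_lt_pow h0 (by norm_num)).ne'
      rw [if_neg (fun h => hd1 h.1), zero_add]
      by_cases hk1 : k = 1
      · rw [hk1, pow_one] at hk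
        rw [hk]
        by_cases hr : ∀ g, (χ.1 g).im = 0
        · rw [if_pos ⟨hk, hr⟩]
          have h5 := (nuZ_ne_zero_iff χ.2).2 hr
          rcases nuZ_cases χ.1 with h | h | h
          · exact absurd h h5
          · rw [h]; rfl
          · rw [h]; rfl
        · rw [if_neg (fun h => hr h.2)]
          have h5 : nuZ χ.1 = 0 := by
            by_contra h
            exact hr ((nuZ_ne_zero_iff χ.2).1 h)
          rw [h5]; simp
      · have hD : ¬ IsD χ := by
          rintro ⟨h, -⟩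
          rw [hk] at h
          have : 2 ^ k = 2 ^ 1 := by rw [h, pow_one]
          exact hk1 (Nat.pow_right_injective le_rfl this)
        rw [if_neg hD, hk]
        have h4 : ((2 ^ k : ℕ) : ZMod 4) = 0 := by
          rw [ZMod.natCast_eq_zero_iff]
          exact pow_dvd_pow 2 (show 2 ≤ k by omega)
        rw [h4, mul_zero]
  rw [Finset.sum_congr rfl fun χ _ => h3 χ, Finset.sum_add_distrib, ← Finset.sum_filter,
    ← Finset.sum_filter, Finset.sum_const, Finset.sum_const] at h2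
  have hlin : (Finset.univ.filter fun χ : IrrCharacter G => charDegree χ.1 = 1 ∧ nu χ.1 = 1).card =
      Nat.card (A2 G) := by
    rw [← Fintype.card_subtype, ← Nat.card_eq_fintype_card]
    refine Nat.card_congr (Equiv.symm (Equiv.ofBijective (fun f : A2 G =>
      (⟨⟨fun g => (f.1 g : ℂ), isIrrCharacter_of_hom f.1⟩, ?_, ?_⟩ :
        {χ : IrrCharacter G // charDegree χ.1 = 1 ∧ nu χ.1 = 1})) ⟨?_, ?_⟩))
    · have h4 := coe_degree (isIrrCharacter_of_hom f.1)
      rw [map_one, Units.val_one] at h4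
      exact_mod_cast h4
    · exact (nu_lin_iff f.1).2 (mem_A2.1 f.2)
    · intro f f' h
      apply Subtype.ext
      exact coe_hom_injective (congrArg (fun χ : {χ : IrrCharacter G // charDegree χ.1 = 1 ∧ nu χ.1 = 1} => χ.1.1) h)
    · rintro ⟨χ, hχ1, hχ2⟩
      obtain ⟨f, hf⟩ : ∃ f : G →* ℂˣ, (χ : G → ℂ) = fun g => (f g : ℂ) :=
        exists_hom_of_degree_one (isCharacter_of_isIrr χ.2) (by rw [← coe_degree χ.2, hχ1, Nat.cast_one])
      refine ⟨⟨f, mem_A2.2 ?_⟩, Subtype.ext (Subtype.ext hf.symm)⟩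
      rw [hf] at hχ2
      exact (nu_lin_iff f).1 hχ2
  rw [hlin] at h2
  have hD : (Finset.univ.filter fun χ : IrrCharacter G => IsD χ).card = Nat.card {χ : IrrCharacter G // IsD χ} := by
    rw [Nat.card_eq_fintype_card, Fintype.card_subtype]
  rw [hD] at h2
  obtain ⟨a, ha⟩ := four_dvd hG hcyc
  rw [ha] at h2
  have h4 : ((4 * a : ℕ) : ZMod 4) = 0 := by
    rw [ZMod.natCast_eq_zero_iff]; exact dvd_mul_right 4 a
  rw [nsmul_eq_mul, nsmul_eq_mul, h4, zero_mul, zero_add] at h2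
  have h5 : ((Nat.card {x : G // orderOf x = 2} : ℕ) : ZMod 4) = 1 := by
    have h6 : ((Nat.card {x : G // orderOf x = 2} : ℕ) : ZMod 4) = ((1 : ℕ) : ZMod 4) := by
      rw [ZMod.natCast_eq_natCast_iff]
      exact ht
    rw [h6]; simp
  rw [h5] at h2
  rw [← Nat.not_even_iff_odd]
  rintro ⟨b, hb⟩
  rw [hb] at h2
  have h6 : ((b + b : ℕ) : ZMod 4) * 2 = 0 := by
    have : ((b + b : ℕ) : ZMod 4) * 2 = ((4 * b : ℕ) : ZMod 4) := by push_cast; ring
    rw [this, ZMod.natCast_eq_zero_iff]; exact dvd_mul_right 4 b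
  rw [h6] at h2
  exact absurd h2 (by decide)

theorem main (hG : IsPGroup 2 G) (ht : Nat.card {x : G // orderOf x = 2} % 4 = 1) :
    IsCyclic G ∨ (commutator G).index = 4 := by
  classical
  haveI := Fact.mk Nat.prime_two
  by_cases hcyc : IsCyclic G
  · left; exact hcyc
  right
  haveI : Finite (IrrCharacter G) := H18.CharOrtho.instFiniteIrr
  have hodd := odd_card_D hG hcyc ht
  have hpA : IsPGroup 2 (A2 G) := (isPGroup_hom hG).to_subgroup _
  -- fixed points of A2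
  have h1 := hpA.card_modEq_card_fixedPoints {χ : IrrCharacter G // IsD χ}
  have hodd2 : Odd (Nat.card (MulAction.fixedPoints (A2 G) {χ : IrrCharacter G // IsD χ})) := by
    rw [Nat.odd_iff] at hodd ⊢
    rw [← hodd]
    exact h1.symm
  let D0 := {χ : IrrCharacter G // IsD χ ∧ ∀ l : G →* ℂˣ, l ^ 2 = 1 → l • χ = χ}
  have hD0 : Nat.card (MulAction.fixedPoints (A2 G) {χ : IrrCharacter G // IsD χ}) = Nat.card D0 := by
    refine Nat.card_congr ⟨fun x => ⟨x.1.1, x.1.2, fun l hl => ?_⟩, fun x => ⟨⟨x.1, x.2.1⟩, fun l => ?_⟩,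
      fun x => rfl, fun x => rfl⟩
    · exact congrArg Subtype.val (x.2 ⟨l, mem_A2.2 hl⟩)
    · exact Subtype.ext (x.2.2 l.1 (mem_A2.1 l.2))
  rw [hD0] at hodd2
  have hstab : ∀ χ : IrrCharacter G, IsD χ → (∀ l : G →* ℂˣ, l ^ 2 = 1 → l • χ = χ) →
      MulAction.stabilizer (G →* ℂˣ) χ = A2 G ∧ Nat.card (A2 G) = 4 := by
    intro χ hχ hfix
    have hle : A2 G ≤ MulAction.stabilizer (G →* ℂˣ) χ := fun l hl =>
      MulAction.mem_stabilizer_iff.2 (hfix l (mem_A2.1 hl))
    have h2 := card_stab_le χ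
    rw [hχ.1] at h2
    have h3 : Nat.card (A2 G) ≤ Nat.card (MulAction.stabilizer (G →* ℂˣ) χ) :=
      Nat.card_le_card_of_injective _ (Subgroup.inclusion_injective hle)
    obtain ⟨a, ha⟩ := four_dvd hG hcyc
    have hpos : 0 < Nat.card (A2 G) := Nat.card_pos
    have ha1 : a = 1 := by
      have : a ≠ 0 := by rintro rfl; omega
      omega
    rw [ha1, mul_one] at ha
    refine ⟨(Subgroup.eq_of_le_of_card_ge hle ?_).symm, ha⟩
    rw [ha]; exact h2
  -- there is a member of D0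
  obtain ⟨χ0, hχ0, hfix0⟩ : ∃ χ : IrrCharacter G, IsD χ ∧ ∀ l : G →* ℂˣ, l ^ 2 = 1 → l • χ = χ := by
    by_contra hc
    have : Nat.card D0 = 0 := by
      rw [Nat.card_eq_zero]
      left
      exact ⟨fun x => hc ⟨x.1, x.2⟩⟩
    rw [this] at hodd2
    exact absurd hodd2 (by decide)
  have hA4 := (hstab χ0 hχ0 hfix0).2
  -- elements of order dividing 4 act on D0
  have hact : ∀ l : G →* ℂˣ, l ^ 4 = 1 → ∀ χ : D0,
      IsD (l • χ.1) ∧ ∀ m : G →* ℂˣ, m ^ 2 = 1 → m • (l • χ.1) = l • χ.1 := by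
    intro l hl χ
    have hfixl : ∀ m : G →* ℂˣ, m ^ 2 = 1 → m • (l • χ.1) = l • χ.1 := by
      intro m hm
      rw [smul_smul, mul_comm m l, ← smul_smul, χ.2.2 m hm]
    refine ⟨⟨by rw [smul_degree]; exact χ.2.1.1, fun g => ?_⟩, hfixl⟩
    have h5 := hfixl (l ^ 2) (by rw [← pow_mul]; exact hl)
    have h6 : ((l ^ 2) • (l • χ.1)).1 g = (l • χ.1).1 g := by rw [h5]
    rw [smul_apply, smul_apply, MonoidHom.pow_apply, Units.val_pow_eq_pow_val] at h6
    rw [smul_apply, ← Complex.conj_eq_iff_im, map_mul, Complex.conj_eq_iff_im.2 (χ.2.1.2 g)]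
    have h7 : ((l g : ℂˣ) : ℂ) * conj ((l g : ℂˣ) : ℂ) = 1 := by
      rw [Complex.mul_conj, Complex.normSq_eq_norm_sq, hom_norm_one]; simp
    have h8 : ((l g : ℂˣ) : ℂ) * (((l g : ℂˣ) : ℂ) * χ.1.1 g) = χ.1.1 g := by
      have h9 : ((l g : ℂˣ) : ℂ) ≠ 0 := (l g).ne_zero
      apply mul_left_cancel₀ h9
      rw [show ((l g : ℂˣ) : ℂ) * (((l g : ℂˣ) : ℂ) * (((l g : ℂˣ) : ℂ) * χ.1.1 g)) =
        ((l g : ℂˣ) : ℂ) ^ 2 * (((l g : ℂˣ) : ℂ) * χ.1.1 g) by ring]
      exact h6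
    calc conj ((l g : ℂˣ) : ℂ) * χ.1.1 g
        = conj ((l g : ℂˣ) : ℂ) * (((l g : ℂˣ) : ℂ) * (((l g : ℂˣ) : ℂ) * χ.1.1 g)) := by rw [h8]
      _ = (((l g : ℂˣ) : ℂ) * conj ((l g : ℂˣ) : ℂ)) * (((l g : ℂˣ) : ℂ) * χ.1.1 g) := by ring
      _ = ((l g : ℂˣ) : ℂ) * χ.1.1 g := by rw [h7, one_mul]
  let A4 : Subgroup (G →* ℂˣ) := (powMonoidHom 4 : (G →* ℂˣ) →* (G →* ℂˣ)).ker
  have hA4m : ∀ l : G →* ℂˣ, l ∈ A4 ↔ l ^ 4 = 1 := fun l => by
    rw [MonoidHom.mem_ker]; rfl
  letI actA4 : MulAction A4 D0 :=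
    { smul := fun l χ => ⟨l.1 • χ.1, hact l.1 ((hA4m _).1 l.2) χ⟩
      one_smul := fun χ => Subtype.ext (one_smul (G →* ℂˣ) χ.1)
      mul_smul := fun l m χ => Subtype.ext (mul_smul l.1 m.1 χ.1) }
  have hall : ∀ l : G →* ℂˣ, l ^ 4 = 1 → l ^ 2 = 1 := by
    intro l hl
    by_contra hl2
    have h5 := ((isPGroup_hom hG).to_subgroup A4).card_modEq_card_fixedPoints D0
    have h6 : Nat.card (MulAction.fixedPoints A4 D0) = 0 := by
      rw [Nat.card_eq_zero]
      left
      refine ⟨fun x => hl2 ?_⟩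
      have h7 : l • x.1.1 = x.1.1 := congrArg Subtype.val (x.2 ⟨l, (hA4m l).2 hl⟩)
      have h8 := (hstab x.1.1 x.1.2.1 x.1.2.2).1
      rw [← mem_A2, ← h8]
      exact MulAction.mem_stabilizer_iff.2 h7
    rw [h6] at h5
    rw [Nat.odd_iff] at hodd2
    have h7 : Nat.card D0 % 2 = 0 := h5
    omega
  have hexp : ∀ k : ℕ, ∀ l : G →* ℂˣ, l ^ 2 ^ k = 1 → l ^ 2 = 1 := by
    intro k
    induction k with
    | zero =>
      intro l hl
      rw [pow_zero, pow_one] at hl
      rw [hl]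
      exact one_pow (M := G →* ℂˣ) 2
    | succ k ih =>
      intro l hl
      have h5 : (l ^ 2) ^ 2 ^ k = 1 := by rw [← pow_mul, ← pow_succ']; exact hl
      have h6 := ih (l ^ 2) h5
      apply hall
      rw [← pow_mul] at h6
      exact h6
  have htop : A2 G = ⊤ := by
    rw [Subgroup.eq_top_iff']
    intro l
    obtain ⟨k, hk⟩ := isPGroup_hom hG l
    exact mem_A2.2 (hexp k l hk)
  rw [← card_hom_eq_index, ← hA4, htop]
  exact (Nat.card_congr Subgroup.topEquiv.toEquiv).symm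

end H77.FSTwo
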