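import Cfsg.Agent.S0886
import Cfsg.Agent.Lib.H83.Gallagher
import Cfsg.Agent.Lib.H77.SignChar
import Cfsg.Agent.Lib.H77.SubChar
import Cfsg.Agent.Lib.H77.PQuot
import Cfsg.Agent.Lib.H77.Cov1
import Cfsg.Agent.Lib.H31.FunBasic

/-!
# Frobenius action on a fully ramified section (helper77)
-/

set_option autoImplicit false
set_option linter.unusedSectionVars false
set_option linter.unusedVariables false
set_option linter.style.haveILetI false
open Cfsg H18 H18.CharBasic H18.CharOrtho H18.CharInd H18.CharQuot H31.Clifford H77.PQuot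
open scoped ComplexConjugate

namespace H77.FrobRam

universe u

section coset
variable {Γ : Type u} [Group Γ] [Fintype Γ] (G N : Subgroup Γ) [hG : G.Normal] [hN : N.Normal]
  [Fintype G] [Fintype N]

theorem coset_sum (hNG : N ≤ G) (h : Γ) (hfp : ∀ g ∈ G, h * g * h⁻¹ * g⁻¹ ∈ N → g ∈ N)
    (F : Γ → ℂ) (hF : ∀ x y : Γ, F (x * y * x⁻¹) = F y) :
    (Nat.card N : ℂ) * ∑ g : G, F (g * h) = (Nat.card G : ℂ) * ∑ n : N, F (n * h) := by
  classical
  set N' := N.subgroupOf G with hN'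
  letI := Fintype.ofFinite (G ⧸ N')
  letI := Fintype.ofFinite N'
  -- the commutator map
  have hcmem : ∀ g : G, (g : Γ) * (h * (g : Γ)⁻¹ * h⁻¹) ∈ G := fun g =>
    G.mul_mem g.2 (hG.conj_mem _ (G.inv_mem g.2) h)
  let c : G → G := fun g => ⟨(g : Γ) * (h * (g : Γ)⁻¹ * h⁻¹), hcmem g⟩
  have hc1 : ∀ (g : G) (n : G), (n : Γ) ∈ N → (c g)⁻¹ * c (g * n) ∈ N' := by
    intro g n hn
    rw [Subgroup.mem_subgroupOf]
    have e : (((c g)⁻¹ * c (g * n) : G) : Γ) =
        (h * g * h⁻¹) * (n * (h * (n : Γ)⁻¹ * h⁻¹)) * (h * g * h⁻¹)⁻¹ := by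
      simp only [c]
      push_cast
      group
    rw [e]
    exact hN.conj_mem _ (N.mul_mem hn (hN.conj_mem _ (N.inv_mem hn) h)) _
  have hc2 : ∀ g g' : G, (c g)⁻¹ * c g' ∈ N' → (g⁻¹ * g' : G) ∈ N' := by
    intro g g' hm
    rw [Subgroup.mem_subgroupOf] at hm ⊢
    apply hfp _ (g⁻¹ * g' : G).2
    have e : h * ((g⁻¹ * g' : G) : Γ) * h⁻¹ * ((g⁻¹ * g' : G) : Γ)⁻¹ =
        (h * (g : Γ) * h⁻¹)⁻¹ * ((((c g)⁻¹ * c g' : G) : Γ))⁻¹ * (h * (g : Γ) * h⁻¹) := by
      simp only [c]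
      push_cast
      group
    rw [e]
    have := hN.conj_mem _ (N.inv_mem hm) (h * (g : Γ) * h⁻¹)⁻¹
    rwa [inv_inv] at this
  -- the induced map on the quotient
  let cb : G ⧸ N' → G ⧸ N' := fun q => (c q.out : G ⧸ N')
  have hcb : ∀ g : G, cb (g : G ⧸ N') = (c g : G ⧸ N') := by
    intro g
    obtain ⟨n, hn⟩ := QuotientGroup.mk_out_eq_mul N' g
    show ((c ((g : G ⧸ N').out) : G) : G ⧸ N') = _
    rw [hn]
    symm
    rw [QuotientGroup.eq]
    exact hc1 g n n.2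
  have hinj : Function.Injective cb := by
    intro q q' hq
    obtain ⟨g, rfl⟩ := QuotientGroup.mk_surjective q
    obtain ⟨g', rfl⟩ := QuotientGroup.mk_surjective q'
    rw [hcb, hcb, QuotientGroup.eq] at hq
    rw [QuotientGroup.eq]
    exact hc2 g g' hq
  have hbij : Function.Bijective cb := Finite.injective_iff_bijective.1 hinj
  -- the averaged function
  let A : G → ℂ := fun y => ∑ n : N, F (n * (y * h))
  have hA : ∀ y : G, ∀ m : N', A (y * m) = A y := by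
    intro y m
    simp only [A]
    have hm : (y : Γ) * (m : G) * (y : Γ)⁻¹ ∈ N := hN.conj_mem _ m.2 y
    refine Fintype.sum_equiv (Equiv.mulRight (⟨_, hm⟩ : N)) _ _ fun n => ?_
    congr 1
    show (n : Γ) * (((y * m : G) : Γ) * h) = ((n * ⟨_, hm⟩ : N) : Γ) * (y * h)
    push_cast
    group
  have hAq : ∀ y : G, A y = A ((y : G ⧸ N').out) := by
    intro y
    obtain ⟨n, hn⟩ := QuotientGroup.mk_out_eq_mul N' y
    rw [hn, hA]
  let Ab : G ⧸ N' → ℂ := fun q => A q.out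
  have h1 : ∑ g : G, A (c g) = ∑ y : G, A y := by
    have e1 : ∑ g : G, A (c g) = ∑ g : G, Ab (cb (g : G ⧸ N')) := by
      refine Finset.sum_congr rfl fun g _ => ?_
      rw [hcb, hAq]
    have e2 : ∑ y : G, A y = ∑ y : G, Ab (y : G ⧸ N') :=
      Finset.sum_congr rfl fun y _ => hAq y
    rw [e1, e2, H31.FunBasic.sum_quotient N' (fun q => Ab (cb q)), H31.FunBasic.sum_quotient N' Ab]
    congr 1
    exact hbij.sum_comp Ab
  have h2 : ∑ g : G, A (c g) = (Nat.card G : ℂ) * ∑ n : N, F (n * h) := by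
    have e1 : ∀ g : G, A (c g) = ∑ n : N, F (n * h) := by
      intro g
      simp only [A]
      refine Fintype.sum_equiv (MulAut.conjNormal (g : Γ)⁻¹ : MulAut N).toEquiv _ _ fun n => ?_
      have e2 : (((MulAut.conjNormal (g : Γ)⁻¹ : MulAut N) n : N) : Γ) = (g : Γ)⁻¹ * n * g := by
        rw [MulAut.conjNormal_apply]; simp
      show F ((n : Γ) * ((g : Γ) * (h * (g : Γ)⁻¹ * h⁻¹) * h)) =
        F ((((MulAut.conjNormal (g : Γ)⁻¹ : MulAut N) n : N) : Γ) * h)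
      rw [e2, ← hF g ((g : Γ)⁻¹ * n * g * h)]
      congr 1
      group
    rw [Finset.sum_congr rfl fun g _ => e1 g, Finset.sum_const, Finset.card_univ, nsmul_eq_mul,
      Nat.card_eq_fintype_card]
  have h3 : ∑ y : G, A y = (Nat.card N : ℂ) * ∑ g : G, F (g * h) := by
    simp only [A]
    rw [Finset.sum_comm]
    have e1 : ∀ n : N, ∑ y : G, F (n * (y * h)) = ∑ g : G, F (g * h) := by
      intro n
      refine Fintype.sum_equiv (Equiv.mulLeft (⟨n, hNG n.2⟩ : G)) _ _ fun y => ?_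
      congr 1
      show (n : Γ) * (y * h) = ((⟨n, hNG n.2⟩ * y : G) : Γ) * h
      push_cast
      group
    rw [Finset.sum_congr rfl fun n _ => e1 n, Finset.sum_const, Finset.card_univ, nsmul_eq_mul,
      Nat.card_eq_fintype_card]
  rw [← h3, ← h1, h2]

end coset

section main
variable {Γ : Type u} [Group Γ] [Fintype Γ] (G N : Subgroup Γ) [hG : G.Normal] [hN : N.Normal]
  [Fintype G] [Fintype N]

/-- values of a fully ramified character -/
theorem ram_values (hNG : N ≤ G) (θ : IrrCharacter N)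
    (hinv : ∀ (x : Γ) (n : N), (θ : N → ℂ) ⟨x * n * x⁻¹, hN.conj_mem n n.2 x⟩ = (θ : N → ℂ) n)
    (χ : IrrCharacter G) (e : ℕ)
    (hram : indFun (N.subgroupOf G) (fun n : N.subgroupOf G => (θ : N → ℂ) ⟨(n : G), n.2⟩) =
      fun g => (e : ℂ) * (χ : G → ℂ) g) :
    0 < e ∧ (e : ℂ) ^ 2 * Nat.card N = Nat.card G ∧
      (∀ n : N, (χ : G → ℂ) ⟨n, hNG n.2⟩ = e * (θ : N → ℂ) n) ∧
      (∀ g : G, (g : Γ) ∉ N → (χ : G → ℂ) g = 0) := by
  classical
  set N' := N.subgroupOf G with hN'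
  letI := Fintype.ofFinite N'
  have hN0 : (Nat.card N : ℂ) ≠ 0 := card_ne_zero'
  have hG0 : (Nat.card G : ℂ) ≠ 0 := card_ne_zero'
  have hcN : Nat.card N' = Nat.card N := Nat.card_congr (Subgroup.subgroupOfEquivOfLe hNG).toEquiv
  have h1 : ∀ n : N, (e : ℂ) * (χ : G → ℂ) ⟨n, hNG n.2⟩ =
      (Nat.card N : ℂ)⁻¹ * Nat.card G * (θ : N → ℂ) n := by
    intro n
    rw [← congrFun hram ⟨n, hNG n.2⟩]
    have h2 := ind_restrict_apply N' (fun n : N.subgroupOf G => (θ : N → ℂ) ⟨(n : G), n.2⟩)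
      ⟨⟨n, hNG n.2⟩, n.2⟩
    rw [h2, hcN, mul_assoc]
    congr 1
    have h3 : ∀ x : G, conjFunN N' x (fun n : N.subgroupOf G => (θ : N → ℂ) ⟨(n : G), n.2⟩)
        ⟨⟨n, hNG n.2⟩, n.2⟩ = (θ : N → ℂ) n := fun x => hinv x n
    rw [Finset.sum_congr rfl fun x _ => h3 x, Finset.sum_const, Finset.card_univ, nsmul_eq_mul,
      Nat.card_eq_fintype_card]
  have h2 : ∀ g : G, (g : Γ) ∉ N → (e : ℂ) * (χ : G → ℂ) g = 0 := by
    intro g hg
    rw [← congrFun hram g]
    exact ind_not_mem N' _ hg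
  have he : (e : ℂ) ≠ 0 := by
    intro h0
    have := h1 1
    rw [h0, zero_mul] at this
    have h3 : (θ : N → ℂ) 1 ≠ 0 := irr_one_ne_zero θ.2
    exact (mul_ne_zero (mul_ne_zero (inv_ne_zero hN0) hG0) h3) this.symm
  have hzero : ∀ g : G, (g : Γ) ∉ N → (χ : G → ℂ) g = 0 := fun g hg =>
    (mul_eq_zero.1 (h2 g hg)).resolve_left he
  have hval : ∀ n : N, (χ : G → ℂ) ⟨n, hNG n.2⟩ =
      (e : ℂ)⁻¹ * ((Nat.card N : ℂ)⁻¹ * Nat.card G) * (θ : N → ℂ) n := by
    intro n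
    have := h1 n
    field_simp at this ⊢
    linear_combination this
  -- norm
  have hnorm : (Nat.card G : ℂ) = ((e : ℂ)⁻¹ * ((Nat.card N : ℂ)⁻¹ * Nat.card G)) ^ 2 * Nat.card N := by
    have h3 := inner_irr_self χ.2
    rw [classInner] at h3
    have h4 : ∑ g : G, (χ : G → ℂ) g * conj ((χ : G → ℂ) g) = Nat.card G := by
      field_simp at h3
      exact h3
    have h5 : ∑ g : G, (χ : G → ℂ) g * conj ((χ : G → ℂ) g) =
        ∑ n : N', (χ : G → ℂ) n * conj ((χ : G → ℂ) n) := by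
      exact H77.Cov1.sum_over N' (fun g => (χ : G → ℂ) g * conj ((χ : G → ℂ) g))
        (fun g hg => by rw [hzero g hg, zero_mul])
    have h6 : ∑ n : N', (χ : G → ℂ) n * conj ((χ : G → ℂ) n) =
        ∑ n : N, (χ : G → ℂ) ⟨n, hNG n.2⟩ * conj ((χ : G → ℂ) ⟨n, hNG n.2⟩) :=
      Fintype.sum_equiv (Subgroup.subgroupOfEquivOfLe hNG).toEquiv _ _ (fun n => rfl)
    have h7 := inner_irr_self θ.2
    rw [classInner] at h7
    have h8 : ∑ g : N, (θ : N → ℂ) g * conj ((θ : N → ℂ) g) = Nat.card N := by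
      field_simp at h7
      exact h7
    have hconj : conj ((e : ℂ)⁻¹ * ((Nat.card N : ℂ)⁻¹ * Nat.card G)) =
        (e : ℂ)⁻¹ * ((Nat.card N : ℂ)⁻¹ * Nat.card G) := by
      rw [map_mul, map_mul, map_inv₀, map_inv₀, Complex.conj_natCast,
        Complex.conj_natCast, Complex.conj_natCast]
    generalize (e : ℂ)⁻¹ * ((Nat.card N : ℂ)⁻¹ * Nat.card G) = k at hconj hval
    rw [← h4, h5, h6, ← h8, Finset.mul_sum]
    refine Finset.sum_congr rfl fun n _ => ?_
    rw [hval n, map_mul, hconj]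
    ring
  have hsq : (e : ℂ) ^ 2 * Nat.card N = Nat.card G := by
    field_simp at hnorm
    exact hnorm
  refine ⟨Nat.pos_of_ne_zero (by exact_mod_cast he), hsq, fun n => ?_, hzero⟩
  rw [hval n, ← hsq]
  field_simp

end main

end H77.FrobRam
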