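import Cfsg.Agent.Lib.H77.FrobRam

/-!
# Frobenius action on a fully ramified section, main theorem (helper77)
-/

set_option autoImplicit false
set_option linter.unusedSectionVars false
set_option linter.unusedVariables false
set_option linter.style.haveILetI false
open Cfsg H18 H18.CharBasic H18.CharOrtho H18.CharInd H18.CharQuot H31.Clifford H77.PQuot
open H77.FrobRam
open scoped ComplexConjugate

namespace H77.FrobRam2

universe u

section dec
variable {H : Type u} [Group H] [Fintype H] (N : Subgroup H) [hN : N.Normal] [Fintype N]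

/-- Characters of `H` all of whose constituents lie over an extendible `θ`, abelian quotient. -/
theorem decomp (hab : ∀ a b : H ⧸ N, a * b = b * a) {η : H → ℂ} (hη : IsIrrCharacter H η)
    (hηN : IsIrrCharacter N (fun n : N => η n)) {Ψ : H → ℂ} (hΨ : IsCharacter H Ψ) {e : ℕ}
    (hΨN : ∀ n : N, Ψ n = e * η n) :
    ∃ (ι : Type u) (_ : Fintype ι) (n : ι → ℕ), Fintype.card ι = N.index ∧ ∑ i, n i = e ∧
      classInner Ψ Ψ = ∑ i, (n i : ℂ) ^ 2 := by
  classical
  letI := Fintype.ofFinite (IrrCharacter H)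
  letI := Fintype.ofFinite (IrrCharacter (H ⧸ N))
  letI := Fintype.ofFinite (H ⧸ N)
  let ι := IrrCharacter (H ⧸ N)
  let J : ι → IrrCharacter H := fun l =>
    ⟨fun g => ((irrQuotEquiv N l).1 : H → ℂ) g * η g,
      H83.Gallagher.isIrr_mul hη N hηN (irrQuotEquiv N l).1.2 (irrQuotEquiv N l).2⟩
  have hinv : ∀ l : ι, ∀ g : H, ∀ n ∈ N, ((irrQuotEquiv N l).1 : H → ℂ) (g * n) =
      ((irrQuotEquiv N l).1 : H → ℂ) g := fun l g n hn =>
    char_mul_right (isCharacter_of_isIrr (irrQuotEquiv N l).1.2) ((irrQuotEquiv N l).2 n hn) g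
  have hJ : Function.Injective J := by
    intro l l' h
    have h1 := H83.Gallagher.mul_inj hη N hηN (hinv l) (hinv l')
      (fun g => congrFun (congrArg Subtype.val h) g)
    exact (irrQuotEquiv N).injective (Subtype.ext (Subtype.ext h1))
  have hex : ∀ l : ι, ∃ n : ℕ, classInner Ψ (J l : H → ℂ) = n :=
    fun l => inner_char_natCast hΨ (isCharacter_of_isIrr (J l).2)
  choose n hn using hex
  -- constituents of `Ψ` are in the range of `J`
  have hrange : ∀ ψ : IrrCharacter H, classInner Ψ (ψ : H → ℂ) ≠ 0 → ∃ l, J l = ψ := by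
    intro ψ hψ
    -- the restriction of ψ contains η_N
    have hψN : classInner (fun n : N => (ψ : H → ℂ) n) (fun n : N => η n) ≠ 0 := by
      have hr : IsCharacter N (fun n : N => (ψ : H → ℂ) n) :=
        isCharacter_restrict N (isCharacter_of_isIrr ψ.2)
      obtain ⟨φ, hφ, hne⟩ := exists_irr_inner_ne_zero (isClassFunction_of_isCharacter hr)
        (fun h => irr_one_ne_zero ψ.2 (congrFun h 1))
      have h1 := H77.SubChar.restrict_trans (MonoidHom.id H) N.subtype hΨ ψ.2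
        (isCharacter_of_isIrr hφ) hψ hne
      have h2 : (fun b : N => Ψ ((MonoidHom.id H) (N.subtype b))) = (e : ℂ) • fun n : N => η n :=
        funext fun b => hΨN b
      rw [h2, CharOrtho.inner_smul_left] at h1
      have h3 : (fun n : N => η n) = φ := by
        by_contra hcon
        exact h1 (by rw [inner_irr_ne hηN hφ hcon, mul_zero])
      rw [h3]; exact hne
    obtain ⟨β, hβ, hβN, hψβ⟩ := H83.Gallagher.exists_eq_mul hη N hηN ψ.2 hψN
    refine ⟨(irrQuotEquiv N).symm ⟨⟨β, hβ⟩, hβN⟩, ?_⟩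
    apply Subtype.ext
    show (fun g => ((irrQuotEquiv N ((irrQuotEquiv N).symm ⟨⟨β, hβ⟩, hβN⟩)).1 : H → ℂ) g * η g) = ψ
    rw [Equiv.apply_symm_apply, hψβ]
  have hsum : ∀ f : IrrCharacter H → ℂ, (∀ ψ : IrrCharacter H, classInner Ψ (ψ : H → ℂ) = 0 → f ψ = 0) →
      ∑ ψ : IrrCharacter H, f ψ = ∑ l : ι, f (J l) := by
    intro f hf
    rw [← Finset.sum_subset (Finset.subset_univ (Finset.univ.image J))]
    · rw [Finset.sum_image fun a _ b _ h => hJ h]
    · intro ψ _ hψ
      apply hf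
      by_contra hne
      obtain ⟨l, hl⟩ := hrange ψ hne
      exact hψ (Finset.mem_image.2 ⟨l, Finset.mem_univ _, hl⟩)
  refine ⟨ι, inferInstance, n, ?_, ?_, ?_⟩
  · rw [← Nat.card_eq_fintype_card, H77.SignChar.card_irr_abelian hab]
    rfl
  · have h1 : Ψ 1 = ∑ ψ : IrrCharacter H, classInner Ψ (ψ : H → ℂ) * (ψ : H → ℂ) 1 := by
      have := congrFun (mem_classFun_expand (isClassFunction_of_isCharacter hΨ)) 1
      rw [this, Finset.sum_apply]
      rfl
    rw [hsum (fun ψ => classInner Ψ (ψ : H → ℂ) * (ψ : H → ℂ) 1) (fun ψ h => by rw [h, zero_mul])] at h1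
    have h2 : ∀ l : ι, classInner Ψ (J l : H → ℂ) * (J l : H → ℂ) 1 = (n l : ℂ) * η 1 := by
      intro l
      rw [hn]
      congr 1
      show ((irrQuotEquiv N l).1 : H → ℂ) 1 * η 1 = η 1
      rw [irrQuotEquiv_apply, QuotientGroup.mk_one, degree_one_of_comm hab l.2, one_mul]
    rw [Finset.sum_congr rfl fun l _ => h2 l, ← Finset.sum_mul] at h1
    have h3 : Ψ 1 = e * η 1 := hΨN 1
    rw [h3] at h1
    have h4 := mul_right_cancel₀ (irr_one_ne_zero hη) h1
    exact_mod_cast h4.symm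
  · rw [parseval (isClassFunction_of_isCharacter hΨ),
      hsum (fun ψ => classInner Ψ (ψ : H → ℂ) * conj (classInner Ψ (ψ : H → ℂ)))
        (fun ψ h => by rw [h, zero_mul])]
    refine Finset.sum_congr rfl fun l _ => ?_
    rw [hn, Complex.conj_natCast, sq]

end dec

section main
variable {Γ : Type u} [Group Γ] [Fintype Γ] (G N : Subgroup Γ) [hG : G.Normal] [hN : N.Normal]
  [Fintype G] [Fintype N]

theorem main (hNG : N ≤ G) (hGlt : G ≠ ⊤) (hcyc : IsCyclic (Γ ⧸ G))
    (hfrob : ∀ x : Γ, x ∉ G → ∀ g : Γ, g ∈ G → x * g * x⁻¹ * g⁻¹ ∈ N → g ∈ N) (θ : IrrCharacter N)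
    (hinv : ∀ (x : Γ) (n : N), (θ : N → ℂ) ⟨x * n * x⁻¹, hN.conj_mem n n.2 x⟩ = (θ : N → ℂ) n)
    (χ : IrrCharacter G) (e : ℕ)
    (hram : indFun (N.subgroupOf G) (fun n : N.subgroupOf G => (θ : N → ℂ) ⟨(n : G), n.2⟩) =
      fun g => (e : ℂ) * (χ : G → ℂ) g) : (G.index : ℤ) ∣ (e : ℤ) - 1 ∨ (G.index : ℤ) ∣ (e : ℤ) + 1 := by
  classical
  obtain ⟨he0, hsq, hval, hzero⟩ := ram_values G N hNG θ hinv χ e hram
  have hN0 : (Nat.card N : ℂ) ≠ 0 := card_ne_zero'
  -- invariance of χ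
  have hχinv : ∀ (x : Γ) (g : G), (χ : G → ℂ) ⟨x * g * x⁻¹, hG.conj_mem (g : Γ) g.2 x⟩ =
      (χ : G → ℂ) g := by
    intro x g
    by_cases hg : (g : Γ) ∈ N
    · have h1 := hval ⟨x * g * x⁻¹, hN.conj_mem g hg x⟩
      have h2 := hval ⟨g, hg⟩
      have h3 := hinv x ⟨g, hg⟩
      rw [h3, ← h2] at h1
      exact h1
    · rw [hzero g hg, hzero]
      intro h
      apply hg
      have := hN.conj_mem _ h x⁻¹
      convert this using 1
      simp only
      group
  obtain ⟨χh, hχh, hχhG⟩ := Cfsg.Agent.S0886.result G hcyc (χ : G → ℂ) χ.2 hχinv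
  -- the generator
  obtain ⟨q, hq⟩ := hcyc.exists_generator
  obtain ⟨x, rfl⟩ := QuotientGroup.mk_surjective q
  have hgen : ∀ y : Γ, ∃ k : ℤ, (x ^ k)⁻¹ * y ∈ G := by
    intro y
    obtain ⟨k, hk⟩ := Subgroup.mem_zpowers_iff.1 (hq (y : Γ ⧸ G))
    refine ⟨k, ?_⟩
    rw [← QuotientGroup.eq, QuotientGroup.mk_zpow]
    exact hk
  have hxG : x ∉ G := by
    intro hx
    apply hGlt
    rw [eq_top_iff]
    intro y _
    obtain ⟨k, hk⟩ := hgen y
    have := G.mul_mem (G.zpow_mem hx k) hk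
    rwa [mul_inv_cancel_left] at this
  set H : Subgroup Γ := N ⊔ Subgroup.zpowers x with hH
  letI := Fintype.ofFinite H
  have hNH : N ≤ H := le_sup_left
  have hxH : x ∈ H := (le_sup_right : Subgroup.zpowers x ≤ H) (Subgroup.mem_zpowers x)
  have hHform : ∀ h ∈ H, ∃ n ∈ N, ∃ k : ℤ, n * x ^ k = h := by
    intro h hh
    obtain ⟨n, hn, z, hz, he⟩ := Subgroup.mem_sup_of_normal_left.1 hh
    obtain ⟨k, rfl⟩ := Subgroup.mem_zpowers_iff.1 hz
    exact ⟨n, hn, k, he⟩
  have hinf : ∀ h ∈ H, h ∈ G → h ∈ N := by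
    intro h hh hg
    obtain ⟨n, hn, k, rfl⟩ := hHform h hh
    have hk : x ^ k ∈ G := by
      have := G.mul_mem (G.inv_mem (hNG hn)) hg
      rwa [inv_mul_cancel_left] at this
    have hk2 : x ^ k ∈ N := by
      apply hfrob x hxG _ hk
      have : x * x ^ k * x⁻¹ * (x ^ k)⁻¹ = 1 := by
        rw [← zpow_one_add, ← zpow_neg_one x, ← zpow_add, ← zpow_neg, ← zpow_add]
        have : 1 + k + -1 + -k = 0 := by ring
        rw [this, zpow_zero]
      rw [this]; exact N.one_mem
    exact N.mul_mem hn hk2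
  set NH := N.subgroupOf H with hNHdef
  letI := Fintype.ofFinite NH
  -- index
  have hidx : NH.index = G.index := by
    have h1 : G ⊔ H = ⊤ := by
      rw [eq_top_iff]
      intro y _
      obtain ⟨k, hk⟩ := hgen y
      have h2 : x ^ k ∈ G ⊔ H := (le_sup_right : H ≤ G ⊔ H) (H.zpow_mem hxH k)
      have h3 : (x ^ k)⁻¹ * y ∈ G ⊔ H := (le_sup_left : G ≤ G ⊔ H) hk
      have := (G ⊔ H).mul_mem h2 h3
      rwa [mul_inv_cancel_left] at this
    have h2 : G.index = G.relIndex H := by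
      rw [← Subgroup.relIndex_top_right, ← h1, Subgroup.relIndex_sup_left]
    rw [h2]
    show N.relIndex H = G.relIndex H
    have h3 : G.subgroupOf H = N.subgroupOf H := by
      ext h
      rw [Subgroup.mem_subgroupOf, Subgroup.mem_subgroupOf]
      exact ⟨fun hg => hinf h h.2 hg, fun hn => hNG hn⟩
    rw [Subgroup.relIndex, Subgroup.relIndex, h3]
  have hcardH : Nat.card H = Nat.card N * G.index := by
    rw [← hidx, ← NH.card_mul_index]
    congr 1
    exact Nat.card_congr (Subgroup.subgroupOfEquivOfLe hNH).toEquiv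
  -- cyclic quotient
  have hgenH : ∀ r : H ⧸ NH, r ∈ Subgroup.zpowers ((⟨x, hxH⟩ : H) : H ⧸ NH) := by
    intro r
    obtain ⟨h, rfl⟩ := QuotientGroup.mk_surjective r
    obtain ⟨n, hn, k, hk⟩ := hHform h h.2
    refine Subgroup.mem_zpowers_iff.2 ⟨k, ?_⟩
    rw [← QuotientGroup.mk_zpow, QuotientGroup.eq, Subgroup.mem_subgroupOf]
    push_cast
    rw [← hk]
    have := hN.conj_mem n hn (x ^ k)⁻¹
    rw [inv_inv, mul_assoc] at this
    exact this
  have hcycH : IsCyclic (H ⧸ NH) := ⟨_, hgenH⟩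
  have habH : ∀ a b : H ⧸ NH, a * b = b * a := by
    intro a b
    obtain ⟨i, rfl⟩ := Subgroup.mem_zpowers_iff.1 (hgenH a)
    obtain ⟨j, rfl⟩ := Subgroup.mem_zpowers_iff.1 (hgenH b)
    rw [← zpow_add, ← zpow_add, add_comm]
  -- extension of θ to `H`
  let θH : NH → ℂ := fun n => (θ : N → ℂ) ⟨(n : H), n.2⟩
  have hθH : IsIrrCharacter NH θH :=
    (isIrrCharacter_mulEquiv (Subgroup.subgroupOfEquivOfLe hNH)).1 θ.2
  obtain ⟨η, hη, hηN⟩ := Cfsg.Agent.S0886.result NH hcycH θH hθH (fun h n => hinv h ⟨((n : H) : Γ), n.2⟩)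
  have hηN' : (fun n : NH => η n) = θH := funext hηN
  -- `Ψ`, the restriction of `χh`
  set Ψ : H → ℂ := fun h => χh h with hΨdef
  have hΨ : IsCharacter H Ψ := isCharacter_restrict H (isCharacter_of_isIrr hχh)
  have hχN : ∀ n : N, χh n = e * (θ : N → ℂ) n := by
    intro n
    rw [← hval n]
    exact hχhG ⟨n, hNG n.2⟩
  obtain ⟨ι, _, mlt, hcard, hsum, hnorm⟩ := decomp NH habH hη (by rw [hηN']; exact hθH) hΨ (e := e)
    (fun n => by
      rw [hηN n]
      exact hχN ⟨(n : H), n.2⟩)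
  -- the norm of `Ψ`
  have hθnorm : ∑ n : N, (θ : N → ℂ) n * conj ((θ : N → ℂ) n) = Nat.card N := by
    have h7 := inner_irr_self θ.2
    rw [classInner] at h7
    field_simp at h7
    exact h7
  have hχirr : IsIrrCharacter G (fun g : G => χh g) := by
    have : (fun g : G => χh g) = (χ : G → ℂ) := funext hχhG
    rw [this]; exact χ.2
  let F : Γ → ℂ := fun y => χh y * conj (χh y)
  have hF : ∀ a y : Γ, F (a * y * a⁻¹) = F y := by
    intro a y
    have h1 : χh (a * y * a⁻¹) = χh y := isClassFunction_of_isIrr hχh y a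
    simp only [F, h1]
  have hA1 : ∀ h : Γ, h ∉ G → ∑ n : N, F (n * h) = Nat.card N := by
    intro h hh
    have h1 := coset_sum G N hNG h (hfrob h hh) F hF
    have h2 : ∑ g : G, F (g * h) = Nat.card G := by
      have h3 := H83.Gallagher.coset_sum hχh G hχirr h
      have h4 : ∀ g : G, F (g * h) = F (h * g) := by
        intro g
        rw [← hF h (g * h), ← mul_assoc, mul_inv_cancel_right]
      rw [Finset.sum_congr rfl fun g _ => h4 g]
      exact h3
    rw [h2] at h1
    have hG0 : (Nat.card G : ℂ) ≠ 0 := card_ne_zero'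
    have h3 : (Nat.card G : ℂ) * ∑ n : N, F (n * h) = Nat.card G * Nat.card N := by
      rw [← h1]; ring
    exact mul_left_cancel₀ hG0 h3
  have hA2 : ∀ h : Γ, h ∈ N → ∑ n : N, F (n * h) = (e : ℂ) ^ 2 * Nat.card N := by
    intro h hh
    have h1 : ∑ n : N, F (n * h) = ∑ n : N, F n :=
      Fintype.sum_equiv (Equiv.mulRight (⟨h, hh⟩ : N)) _ _ (fun n => rfl)
    rw [h1, ← hθnorm, Finset.mul_sum]
    refine Finset.sum_congr rfl fun n _ => ?_
    show χh n * conj (χh n) = _
    rw [hχN, map_mul, Complex.conj_natCast]; ring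
  have htot : (Nat.card N : ℂ) * ∑ h : H, F h = Nat.card N * ((e : ℂ) ^ 2 * Nat.card N) +
      (Nat.card H - Nat.card N) * Nat.card N := by
    have h1 : ∀ n : N, ∑ h : H, F (n * h) = ∑ h : H, F h := fun n =>
      Fintype.sum_equiv (Equiv.mulLeft (⟨n, hNH n.2⟩ : H)) _ _ (fun h => rfl)
    have h2 : (Nat.card N : ℂ) * ∑ h : H, F h = ∑ h : H, ∑ n : N, F (n * h) := by
      rw [Finset.sum_comm, Finset.sum_congr rfl fun n _ => h1 n, Finset.sum_const, Finset.card_univ,
        nsmul_eq_mul, Nat.card_eq_fintype_card]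
    rw [h2]
    have h3 : ∀ h : H, ∑ n : N, F (n * h) = (if (h : Γ) ∈ N then (e : ℂ) ^ 2 * Nat.card N -
        Nat.card N else 0) + Nat.card N := by
      intro h
      split_ifs with hh
      · rw [hA2 h hh]; ring
      · rw [hA1 h (fun hg => hh (hinf h h.2 hg))]; ring
    rw [Finset.sum_congr rfl fun h _ => h3 h, Finset.sum_add_distrib, Finset.sum_ite,
      Finset.sum_const, Finset.sum_const_zero, Finset.sum_const, Finset.card_univ, nsmul_eq_mul,
      nsmul_eq_mul]
    have h4 : (Finset.univ.filter fun h : H => (h : Γ) ∈ N).card = Nat.card N := by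
      rw [← Nat.card_congr (Subgroup.subgroupOfEquivOfLe hNH).toEquiv, Nat.card_eq_fintype_card,
        Fintype.card_subtype]
      rfl
    rw [h4, Nat.card_eq_fintype_card (α := H)]
    ring
  -- integer identity
  have hidx2 : 2 ≤ G.index := by
    have h1 : G.index ≠ 1 := fun h => hGlt (Subgroup.index_eq_one.1 h)
    have h2 : G.index ≠ 0 := Subgroup.index_ne_zero_of_finite
    omega
  have hfinal : (Fintype.card ι : ℤ) * ∑ i, (mlt i : ℤ) ^ 2 =
      (∑ i, (mlt i : ℤ)) ^ 2 + Fintype.card ι - 1 := by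
    have h1 : ∑ i, (mlt i : ℤ) = e := by rw [← Nat.cast_sum, hsum]
    rw [hcard, hidx, h1]
    have h2 : (Nat.card H : ℂ) * ∑ i, (mlt i : ℂ) ^ 2 = ∑ h : H, F h := by
      rw [← hnorm, classInner]
      have : (Nat.card H : ℂ) ≠ 0 := card_ne_zero'
      rw [mul_inv_cancel_left₀ this]
    rw [← h2, hcardH] at htot
    have h3 : (G.index : ℂ) * ∑ i, (mlt i : ℂ) ^ 2 = (e : ℂ) ^ 2 + G.index - 1 := by
      have h4 : ((Nat.card N : ℂ) * Nat.card N) * ((G.index : ℂ) * ∑ i, (mlt i : ℂ) ^ 2) =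
          ((Nat.card N : ℂ) * Nat.card N) * ((e : ℂ) ^ 2 + G.index - 1) := by
        push_cast at htot
        linear_combination htot
      exact mul_left_cancel₀ (mul_ne_zero hN0 hN0) h4
    exact_mod_cast h3
  obtain ⟨m, ε, i₀, hε, hm⟩ := H77.SignChar.comb (fun i => (mlt i : ℤ)) (by
    rw [hcard, hidx]; exact hidx2) hfinal
  have he : (e : ℤ) = m * G.index + ε := by
    have h1 : ∑ i, (mlt i : ℤ) = e := by rw [← Nat.cast_sum, hsum]
    rw [← h1, Finset.sum_congr rfl fun i _ => hm i, Finset.sum_add_distrib, Finset.sum_const,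
      Finset.card_univ, Finset.sum_ite_eq' Finset.univ i₀, if_pos (Finset.mem_univ _), hcard, hidx,
      nsmul_eq_mul]
    ring
  rcases hε with rfl | rfl
  · left
    exact ⟨m, by rw [he]; ring⟩
  · right
    exact ⟨m, by rw [he]; ring⟩

end main

end H77.FrobRam2
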