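import Cfsg.Agent.Lib.H77.Canon
import Cfsg.Agent.Lib.H77.CopChain
import Cfsg.Agent.Lib.H77.CopSub

/-!
# The Glauberman correspondence for a cyclic group of operators (helper77)
-/

set_option autoImplicit false
set_option linter.unusedSectionVars false
set_option linter.unusedVariables false
set_option linter.style.haveILetI false
open Cfsg H18 H18.CharBasic H18.CharOrtho H18.CharInd H18.CharQuot H31.Clifford H77.PQuot H77.Canon
open scoped ComplexConjugate

namespace H77.GlaubC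

universe u
variable {Γ : Type u} [Group Γ] [Fintype Γ] (G S C : Subgroup Γ) [hG : G.Normal] [Fintype G]
  [Fintype C]

theorem index_dvd (htop : G ⊔ S = ⊤) : G.index ∣ Nat.card S := by
  have h1 : G.index = G.relIndex S := by
    rw [← Subgroup.relIndex_top_right, ← htop, Subgroup.relIndex_sup_left]
  rw [h1]
  exact Subgroup.relIndex_dvd_card G S

theorem cop_index (hcop : (Nat.card G).Coprime (Nat.card S)) (htop : G ⊔ S = ⊤) :
    (Nat.card G).Coprime G.index := hcop.coprime_dvd_right (index_dvd G S htop)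

theorem crt (hcop : (Nat.card G).Coprime (Nat.card S)) (htop : G ⊔ S = ⊤) {k : ℕ}
    (hk : k.Coprime (Nat.card S)) : ∃ k₂ : ℕ, k₂ ≡ k [MOD Nat.card S] ∧ k₂ ≡ 1 [MOD Nat.card G] ∧
      k₂.Coprime (Nat.card Γ) := by
  obtain ⟨k₂, h1, h2⟩ := Nat.chineseRemainder hcop 1 k
  refine ⟨k₂, h2, h1, ?_⟩
  have h3 : k₂.Coprime (Nat.card S) := by
    rw [Nat.Coprime, h2.gcd_eq]; exact hk
  have h4 : k₂.Coprime (Nat.card G) := by
    rw [Nat.Coprime, h1.gcd_eq]; simp
  rw [← G.card_mul_index]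
  exact Nat.Coprime.mul_right h4 (h3.coprime_dvd_right (index_dvd G S htop))

/-- multiplication homomorphism `C × S → Γ` -/
def mulHom (hCS : ∀ c ∈ C, ∀ s ∈ S, c * s = s * c) : C × S →* Γ :=
  MonoidHom.noncommCoprod C.subtype S.subtype (fun c s => hCS c c.2 s s.2)

theorem mulHom_apply (hCS : ∀ c ∈ C, ∀ s ∈ S, c * s = s * c) (x : C × S) :
    mulHom S C hCS x = x.1 * x.2 := rfl

variable {G S C}

theorem fourier' (hScomm : ∀ a ∈ S, ∀ b ∈ S, a * b = b * a)
    (hCS : ∀ c ∈ C, ∀ s ∈ S, c * s = s * c) {χ : Γ → ℂ} (hχ : IsCharacter Γ χ)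
    [Fintype (IrrCharacter S)]
    {β : C → ℂ} (hβ : IsIrrCharacter C β) :
    ∃ n : IrrCharacter S → ℕ, ∀ s : S, classInner (fun c : C => χ (c * s)) β =
      ∑ l : IrrCharacter S, (n l : ℂ) * (l : S → ℂ) s := by
  letI := Fintype.ofFinite S
  have h1 : IsCharacter (C × S) (fun x => χ (mulHom S C hCS x)) :=
    isCharacter_comp (mulHom S C hCS) hχ
  exact fourier (fun a b => Subtype.ext (hScomm a a.2 b b.2)) h1 hβ

theorem comm_linear (hScomm : ∀ a ∈ S, ∀ b ∈ S, a * b = b * a) (l : IrrCharacter S) :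
    ∃ f : S →* ℂˣ, (l : S → ℂ) = fun a => (f a : ℂ) :=
  exists_hom_of_isIrr_of_comm (fun a b => Subtype.ext (hScomm a a.2 b b.2)) l.2

theorem coef_int (hcop : (Nat.card G).Coprime (Nat.card S)) (htop : G ⊔ S = ⊤)
    (hScomm : ∀ a ∈ S, ∀ b ∈ S, a * b = b * a) (hCG : C ≤ G)
    (hCS : ∀ c ∈ C, ∀ s ∈ S, c * s = s * c) {χ : Γ → ℂ} (hχ : IsIrrCharacter Γ χ)
    (hχG : IsIrrCharacter G (fun g : G => χ g)) (hd : (detOrder χ).Coprime (Nat.card S))
    (s : S) {β : C → ℂ} (hβ : IsIrrCharacter C β) :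
    ∃ n : ℤ, classInner (fun c : C => χ (c * s)) β = n := by
  classical
  letI := Fintype.ofFinite (IrrCharacter S)
  obtain ⟨n, hn⟩ := fourier' hScomm hCS (isCharacter_of_isIrr hχ) hβ
  have hint : IsIntegral ℤ (classInner (fun c : C => χ (c * s)) β) := by
    rw [hn]
    refine IsIntegral.sum _ fun l _ => ?_
    exact (H77.Cong.isIntegral_natCast _).mul (char_isIntegral (isCharacter_of_isIrr l.2) s)
  have hfix : ∀ σ : ℂ ≃+* ℂ, σ (classInner (fun c : C => χ (c * s)) β) =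
      classInner (fun c : C => χ (c * s)) β := by
    intro σ
    obtain ⟨k, hk, hσ⟩ := H5.BurnsideZero.exists_pow σ (n := Nat.card Γ) Nat.card_pos.ne'
    obtain ⟨k₂, h1, h2, h3⟩ := crt G S hcop htop (k := k)
      (hk.coprime_dvd_right (Subgroup.card_subgroup_dvd_card S))
    obtain ⟨σ₂, hσ₂⟩ := H78.Galois.exists_ringEquiv (n := Nat.card Γ) Nat.card_pos.ne' h3
    -- σ and σ₂ agree
    have h4 : σ (classInner (fun c : C => χ (c * s)) β) = σ₂ (classInner (fun c : C => χ (c * s)) β) := by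
      rw [hn, map_sum, map_sum]
      refine Finset.sum_congr rfl fun l _ => ?_
      rw [map_mul, map_mul, map_natCast, map_natCast]
      congr 1
      obtain ⟨f, hf⟩ := comm_linear hScomm l
      have h5 : ((l : S → ℂ) s) ^ Nat.card S = 1 := by
        rw [hf]
        simp only
        rw [← Units.val_pow_eq_pow_val, ← map_pow, pow_card_eq_one', map_one, Units.val_one]
      have h6 : ((l : S → ℂ) s) ^ Nat.card Γ = 1 := by
        obtain ⟨t, ht⟩ := Subgroup.card_subgroup_dvd_card S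
        rw [ht, pow_mul, h5, one_pow]
      rw [hσ _ h6, hσ₂ _ h6]
      exact (pow_eq_pow_of_modEq h1 h5).symm
    rw [h4]
    -- σ₂ fixes
    have hβc := isCharacter_of_isIrr hβ
    rw [inner_eq_sum_inv hβc, map_mul, map_inv₀, map_natCast, map_sum]
    congr 1
    refine Finset.sum_congr rfl fun c _ => ?_
    rw [map_mul]
    congr 1
    · have := H78.Galois.char_map_eq_pow dvd_rfl (σ := σ₂.toRingHom) hσ₂ (isCharacter_of_isIrr hχ)
        ((c : Γ) * s)
      have h5 : σ₂ (χ (c * s)) = χ ((c * s) ^ k₂) := this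
      rw [h5]
      exact canon_pow G (cop_index G S hcop htop) hχ hχG
        (hd.coprime_dvd_right (index_dvd G S htop)) h2 h3 _
    · have := H78.Galois.char_map_eq_pow (Subgroup.card_subgroup_dvd_card C) (σ := σ₂.toRingHom)
        hσ₂ hβc c⁻¹
      have h5 : σ₂ (β c⁻¹) = β (c⁻¹ ^ k₂) := this
      rw [h5]
      congr 1
      have h6 : k₂ ≡ 1 [MOD Nat.card C] := h2.of_dvd (Subgroup.card_dvd_of_le hCG)
      have := pow_eq_pow_of_modEq h6 (pow_card_eq_one' (x := c⁻¹))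
      rw [this, pow_one]
  obtain ⟨m, hm⟩ := H5.BurnsideZero.int_of_fixed hint hfix
  exact ⟨m, hm.symm⟩

theorem centralizer_zp {s : Γ} (hs : Subgroup.zpowers s = S) :
    Subgroup.centralizer ({s} : Set Γ) = Subgroup.centralizer (S : Set Γ) := by
  rw [← hs, Subgroup.zpowers_eq_closure, Subgroup.centralizer_closure]

theorem comm_of_zp {s : Γ} (hs : Subgroup.zpowers s = S) : ∀ a ∈ S, ∀ b ∈ S, a * b = b * a := by
  intro a ha b hb
  rw [← hs] at ha hb
  obtain ⟨i, rfl⟩ := Subgroup.mem_zpowers_iff.1 ha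
  obtain ⟨j, rfl⟩ := Subgroup.mem_zpowers_iff.1 hb
  rw [← zpow_add, ← zpow_add, add_comm]

theorem hCS_of (hC : C = G ⊓ Subgroup.centralizer (S : Set Γ)) :
    ∀ c ∈ C, ∀ s ∈ S, c * s = s * c := by
  intro c hc s hs
  rw [hC] at hc
  exact (Subgroup.mem_centralizer_iff.1 (Subgroup.mem_inf.1 hc).2 s hs).symm

theorem gen_indep (hcop : (Nat.card G).Coprime (Nat.card S)) (htop : G ⊔ S = ⊤)
    (hC : C = G ⊓ Subgroup.centralizer (S : Set Γ)) {χ : Γ → ℂ} (hχ : IsIrrCharacter Γ χ)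
    (hχG : IsIrrCharacter G (fun g : G => χ g)) (hd : (detOrder χ).Coprime (Nat.card S))
    {s s' : Γ} (hs : Subgroup.zpowers s = S) (hs' : Subgroup.zpowers s' = S) (c : C) :
    χ (c * s') = χ (c * s) := by
  have hmem : s' ∈ Subgroup.zpowers s := by rw [hs, ← hs']; exact Subgroup.mem_zpowers s'
  obtain ⟨j, hj⟩ := (mem_powers_iff_mem_zpowers.2 hmem)
  have hj : s ^ j = s' := hj
  have hcard : orderOf s = Nat.card S := by rw [← hs, Nat.card_zpowers]
  have hcard' : orderOf s' = Nat.card S := by rw [← hs', Nat.card_zpowers]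
  have hjc : j.Coprime (Nat.card S) := by
    have h1 : orderOf (s ^ j) = orderOf s := by rw [hj, hcard, hcard']
    rw [orderOf_pow] at h1
    have h2 : 0 < orderOf s := orderOf_pos s
    have hg0 : 0 < Nat.gcd (orderOf s) j := Nat.gcd_pos_of_pos_left _ h2
    have h3 : Nat.gcd (orderOf s) j = 1 := by
      by_contra hne
      have h4 : 1 < Nat.gcd (orderOf s) j := by omega
      have h5 := Nat.div_lt_self h2 h4
      omega
    rw [← hcard, Nat.Coprime, Nat.gcd_comm]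
    exact h3
  obtain ⟨k₂, h1, h2, h3⟩ := crt G S hcop htop hjc
  have h4 := canon_pow G (cop_index G S hcop htop) hχ hχG
    (hd.coprime_dvd_right (index_dvd G S htop)) h2 h3 ((c : Γ) * s)
  have hCG : C ≤ G := by rw [hC]; exact inf_le_left
  have h5 : ((c : Γ) * s) ^ k₂ = c * s' := by
    have hcomm : Commute (c : Γ) s := hCS_of hC c c.2 s (hs ▸ Subgroup.mem_zpowers s)
    rw [hcomm.mul_pow]
    have h6 : k₂ ≡ 1 [MOD Nat.card C] := h2.of_dvd (Subgroup.card_dvd_of_le hCG)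
    have h7 : c ^ k₂ = c := by
      have := pow_eq_pow_of_modEq h6 (pow_card_eq_one' (x := c))
      rw [this, pow_one]
    have h8 : (c : Γ) ^ k₂ = c := by exact_mod_cast congrArg Subtype.val h7
    have h9 : s ^ k₂ = s' := by
      rw [← hj]
      exact pow_eq_pow_of_modEq (hcard ▸ h1) (pow_orderOf_eq_one s)
    rw [h8, h9]
  rw [← h5, h4]

theorem classFun_f (hC : C = G ⊓ Subgroup.centralizer (S : Set Γ)) {χ : Γ → ℂ}
    (hχ : IsClassFunction Γ χ) {s : Γ} (hs : s ∈ S) : IsClassFunction C (fun c : C => χ (c * s)) := by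
  intro c x
  show χ (((x * c * x⁻¹ : C) : Γ) * s) = χ (c * s)
  have h1 : ((x * c * x⁻¹ : C) : Γ) * s = x * ((c : Γ) * s) * (x : Γ)⁻¹ := by
    have h2 : (x : Γ) * s = s * x := hCS_of hC x x.2 s hs
    have h3 : (x : Γ)⁻¹ * s = s * (x : Γ)⁻¹ := by
      rw [inv_mul_eq_iff_eq_mul, ← mul_assoc, h2, mul_inv_cancel_right]
    push_cast
    rw [mul_assoc, h3]; group
  rw [h1]
  exact hχ _ _

/-- existence of the correspondent -/
theorem exists_corr (hcop : (Nat.card G).Coprime (Nat.card S)) (htop : G ⊔ S = ⊤)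
    (hC : C = G ⊓ Subgroup.centralizer (S : Set Γ)) {χ : Γ → ℂ} (hχ : IsIrrCharacter Γ χ)
    (hχG : IsIrrCharacter G (fun g : G => χ g)) (hd : (detOrder χ).Coprime (Nat.card S))
    {s : Γ} (hs : Subgroup.zpowers s = S) :
    ∃ (β : IrrCharacter C) (ε : ℤ), (ε = 1 ∨ ε = -1) ∧ ∀ c : C, χ (c * s) = ε * (β : C → ℂ) c := by
  have hsS : s ∈ S := hs ▸ Subgroup.mem_zpowers s
  have hCG : C ≤ G := by rw [hC]; exact inf_le_left
  have hord : orderOf s = Nat.card S := by rw [← hs, Nat.card_zpowers]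
  have hgen : IsGeneralizedCharacter C (fun c : C => χ (c * s)) := by
    rw [isGen_iff]
    exact ⟨classFun_f hC (isClassFunction_of_isIrr hχ) hsS, fun ψ hψ =>
      coef_int hcop htop (comm_of_zp hs) hCG (hCS_of hC) hχ hχG hd ⟨s, hsS⟩ hψ⟩
  have hnorm := (inner_coset G C s (by rw [hord]; exact hcop)
    (by rw [centralizer_zp hs]; exact hC) hχ hχG hχ).1 rfl
  rcases gen_norm_one hgen hnorm with h | h
  · exact ⟨⟨_, h⟩, 1, Or.inl rfl, fun c => by simp⟩
  · exact ⟨⟨_, h⟩, -1, Or.inr rfl, fun c => by simp⟩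

theorem constituent (hC : C = G ⊓ Subgroup.centralizer (S : Set Γ)) {χ : Γ → ℂ}
    (hχ : IsIrrCharacter Γ χ) {s : Γ} (hs : Subgroup.zpowers s = S) {β : C → ℂ}
    (hβ : IsIrrCharacter C β) (hne : classInner (fun c : C => χ (c * s)) β ≠ 0) :
    classInner (fun c : C => χ c) β ≠ 0 := by
  classical
  letI := Fintype.ofFinite (IrrCharacter S)
  have hsS : s ∈ S := hs ▸ Subgroup.mem_zpowers s
  obtain ⟨n, hn⟩ := fourier' (comm_of_zp hs) (hCS_of hC) (isCharacter_of_isIrr hχ) hβ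
  have h1 := hn ⟨s, hsS⟩
  have h2 : classInner (fun c : C => χ c) β = ((∑ l : IrrCharacter S, n l : ℕ) : ℂ) := by
    have h3 := hn 1
    have h4 : (fun c : C => χ (c * ((1 : S) : Γ))) = fun c : C => χ c := by
      funext c; rw [Subgroup.coe_one, mul_one]
    rw [h4] at h3
    rw [h3, Nat.cast_sum]
    refine Finset.sum_congr rfl fun l _ => ?_
    obtain ⟨f, hf⟩ := comm_linear (comm_of_zp hs) l
    rw [hf]; simp
  rw [h2]
  intro h3
  apply hne
  have h4 : ∑ l : IrrCharacter S, n l = 0 := by exact_mod_cast h3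
  rw [Finset.sum_eq_zero_iff] at h4
  show classInner (fun c : C => χ (c * ((⟨s, hsS⟩ : S) : Γ))) β = 0
  rw [h1]
  exact Finset.sum_eq_zero fun l hl => by rw [h4 l hl]; simp

theorem exists_gen (hcyc : IsCyclic S) : ∃ s : Γ, Subgroup.zpowers s = S := by
  obtain ⟨s, hs⟩ := hcyc.exists_generator
  refine ⟨s, le_antisymm (by rw [Subgroup.zpowers_le]; exact s.2) fun x hx => ?_⟩
  obtain ⟨k, hk⟩ := Subgroup.mem_zpowers_iff.1 (hs ⟨x, hx⟩)
  rw [Subgroup.mem_zpowers_iff]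
  refine ⟨k, ?_⟩
  have := congrArg Subtype.val hk
  rw [Subgroup.coe_zpow] at this
  exact this

theorem normal_of (G S : Subgroup Γ) (hnorm : ∀ s ∈ S, ∀ g ∈ G, s * g * s⁻¹ ∈ G)
    (htop : G ⊔ S = ⊤) : G.Normal := by
  rw [← Subgroup.normalizer_eq_top_iff, eq_top_iff, ← htop]
  apply sup_le Subgroup.le_normalizer
  intro s hs
  rw [Subgroup.mem_normalizer_iff]
  intro g
  refine ⟨fun hg => hnorm s hs g hg, fun hg => ?_⟩
  have := hnorm s⁻¹ (S.inv_mem hs) _ hg
  convert this using 1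
  group

theorem inv_top (htop : G ⊔ S = ⊤) (θ : IrrCharacter G)
    (h : ∀ s ∈ S, ∀ g g' : G, (g' : Γ) = s * g * s⁻¹ → (θ : G → ℂ) g' = (θ : G → ℂ) g)
    (x : Γ) (n : G) : (θ : G → ℂ) ⟨x * n * x⁻¹, hG.conj_mem (n : Γ) n.2 x⟩ = (θ : G → ℂ) n := by
  have h1 : G ⊔ S ≤ inertia G (θ : G → ℂ) := by
    apply sup_le (le_inertia G (isClassFunction_of_isIrr θ.2))
    intro s hs
    rw [mem_inertia_iff]
    exact fun g => h s hs g _ rfl
  rw [htop] at h1
  exact (mem_inertia_iff G).1 (h1 (Subgroup.mem_top x)) n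

theorem eps_eq {β β' : IrrCharacter C} {ε ε' : ℤ} (h1 : ε = 1 ∨ ε = -1) (h2 : ε' = 1 ∨ ε' = -1)
    (h : ∀ c : C, (ε : ℂ) * (β : C → ℂ) c = ε' * (β' : C → ℂ) c) : ε = ε' ∧ β = β' := by
  obtain ⟨d, hd0, hd⟩ := exists_degree_pos β.2
  obtain ⟨d', hd0', hd'⟩ := exists_degree_pos β'.2
  have h3 := h 1
  rw [hd, hd'] at h3
  have h4 : ε * d = ε' * d' := by exact_mod_cast h3
  have h5 : ε = ε' := by
    rcases h1 with rfl | rfl <;> rcases h2 with rfl | rfl
    · rfl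
    · exfalso; omega
    · exfalso; omega
    · rfl
  refine ⟨h5, ?_⟩
  subst h5
  apply Subtype.ext
  funext c
  have hε : (ε : ℂ) ≠ 0 := by rcases h1 with rfl | rfl <;> norm_num
  exact mul_left_cancel₀ hε (h c)

theorem corr_inj (hcop : (Nat.card G).Coprime (Nat.card S))
    (hC : C = G ⊓ Subgroup.centralizer (S : Set Γ)) {χ ψ : IrrCharacter Γ} {χ₀ ψ₀ : IrrCharacter G}
    (hχ : ∀ g : G, (χ : Γ → ℂ) g = (χ₀ : G → ℂ) g) (hψ : ∀ g : G, (ψ : Γ → ℂ) g = (ψ₀ : G → ℂ) g)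
    {s : Γ} (hs : Subgroup.zpowers s = S) {β : IrrCharacter C} {ε ε' : ℤ} (h1 : ε = 1 ∨ ε = -1)
    (h2 : ε' = 1 ∨ ε' = -1) (h3 : ∀ c : C, (χ : Γ → ℂ) (c * s) = ε * (β : C → ℂ) c)
    (h4 : ∀ c : C, (ψ : Γ → ℂ) (c * s) = ε' * (β : C → ℂ) c) : χ₀ = ψ₀ := by
  by_contra hne
  have hord : orderOf s = Nat.card S := by rw [← hs, Nat.card_zpowers]
  have e1 : (fun g : G => (χ : Γ → ℂ) g) = (χ₀ : G → ℂ) := funext hχ
  have e2 : (fun g : G => (ψ : Γ → ℂ) g) = (ψ₀ : G → ℂ) := funext hψ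
  have h5 := (inner_coset G C s (by rw [hord]; exact hcop)
    (by rw [centralizer_zp hs]; exact hC) χ.2 (by rw [e1]; exact χ₀.2) ψ.2).2 (by
      rw [e1, e2]
      exact inner_irr_ne ψ₀.2 χ₀.2 (fun h => hne (Subtype.ext h.symm)))
  have e3 : (fun c : C => (χ : Γ → ℂ) (c * s)) = (ε : ℂ) • (β : C → ℂ) := funext h3
  have e4 : (fun c : C => (ψ : Γ → ℂ) (c * s)) = (ε' : ℂ) • (β : C → ℂ) := funext h4
  rw [e3, e4, CharOrtho.inner_smul_left, CharOrtho.inner_smul_right, inner_irr_self β.2] at h5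
  rcases h1 with rfl | rfl <;> rcases h2 with rfl | rfl <;> norm_num at h5

end H77.GlaubC
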