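import Cfsg.Agent.Lib.H77.GlaubC
import Cfsg.Agent.Lib.H77.SignChar
import Cfsg.Agent.Lib.H78.Cong
import Cfsg.Agent.Lib.H20.Loc

/-!
# The cyclic Glauberman correspondence with constant centralisers (helper77)
-/

set_option autoImplicit false
set_option linter.unusedSectionVars false
set_option linter.unusedVariables false
set_option linter.style.haveILetI false
open Cfsg H18 H18.CharBasic H18.CharOrtho H18.CharInd H18.CharQuot H31.Clifford H77.PQuot H77.Canon
open H77.GlaubC H77.SignChar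
open scoped ComplexConjugate

namespace H77.GlaubFpf

universe u

section cyc
variable {S : Type u} [Group S] [Finite S]

theorem all_sign {g₀ : S} (hgen : ∀ x : S, x ∈ Subgroup.zpowers g₀) {a : S → ℂ}
    (ha : IsCharacter S a) (hval : ∀ x : S, x ≠ 1 → a x = 0 ∨ a x = 1 ∨ a x = -1)
    (h0 : a g₀ ≠ 0) : ∀ x : S, x ≠ 1 → a x ≠ 0 := by
  have hcomm : ∀ x y : S, x * y = y * x := by
    intro x y
    obtain ⟨i, rfl⟩ := Subgroup.mem_zpowers_iff.1 (hgen x)
    obtain ⟨j, rfl⟩ := Subgroup.mem_zpowers_iff.1 (hgen y)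
    rw [← zpow_add, ← zpow_add, add_comm]
  have hstep : ∀ (p : ℕ), p.Prime → ∀ (x' z : S) (k : ℕ), x' ≠ 1 → z ^ p ^ k = 1 → a x' ≠ 0 →
      a (z * x') ≠ 0 := by
    intro p hp x' z k hx' hz hax' hzero
    obtain ⟨M, hM⟩ := H78.Cong.exists_isPModular hp
    have h1 := H78.Cong.char_congr hM ha (hgen z) (hgen x') hz
    rw [hzero, zero_sub] at h1
    have h2 : a x' = 1 ∨ a x' = -1 := (hval x' hx').resolve_left hax'
    have h3 : ¬ (p : ℤ) ∣ 1 := by
      intro h
      have := Int.le_of_dvd one_pos h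
      have := hp.two_le
      omega
    rcases h2 with h2 | h2
    · rw [h2] at h1
      have h4 : MemLocalIdeal M ((-1 : ℤ) : ℂ) := by exact_mod_cast h1
      rw [H20.Loc.locI_intCast_iff hM] at h4
      exact h3 ((dvd_neg).1 h4)
    · rw [h2, neg_neg] at h1
      have h4 : MemLocalIdeal M ((1 : ℤ) : ℂ) := by exact_mod_cast h1
      rw [H20.Loc.locI_intCast_iff hM] at h4
      exact h3 h4
  have hcard : orderOf g₀ = Nat.card S := orderOf_eq_card_of_forall_mem_zpowers hgen
  intro x hx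
  induction hn : orderOf (g₀⁻¹ * x) using Nat.strong_induction_on generalizing x with
  | _ n ih =>
  by_cases hn1 : n = 1
  · rw [hn1, orderOf_eq_one_iff, inv_mul_eq_one] at hn
    rw [← hn]; exact h0
  · have hn0 : 0 < n := hn ▸ orderOf_pos _
    obtain ⟨p, hp, hpn⟩ := Nat.exists_prime_and_dvd hn1
    obtain ⟨k, m, hm, hkm⟩ := Nat.exists_eq_pow_mul_and_not_dvd hn0.ne' p hp.ne_one
    have hm0 : 0 < m := by
      rcases Nat.eq_zero_or_pos m with h | h
      · exact absurd (h ▸ dvd_zero p) hm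
      · exact h
    have hk0 : k ≠ 0 := by
      rintro rfl
      rw [pow_zero, one_mul] at hkm
      exact hm (hkm ▸ hpn)
    have hcop : (p ^ k).Coprime m := Nat.Coprime.pow_left k ((hp.coprime_iff_not_dvd).2 hm)
    obtain ⟨u, hu1, hu2⟩ := Nat.chineseRemainder hcop 0 1
    set z := g₀⁻¹ * x with hz
    have hzn : z ^ (p ^ k * m) = 1 := by rw [← hkm, ← hn, pow_orderOf_eq_one]
    have hz'm : (z ^ u) ^ m = 1 := by
      obtain ⟨t, ht⟩ := (Nat.modEq_zero_iff_dvd).1 hu1
      rw [← pow_mul, ht, mul_assoc, mul_comm t m, ← mul_assoc, pow_mul, hzn, one_pow]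
    have hord' : orderOf (z ^ u) ∣ m := orderOf_dvd_of_pow_eq_one hz'm
    have hlt : orderOf (z ^ u) < n := by
      refine lt_of_le_of_lt (Nat.le_of_dvd hm0 hord') ?_
      rw [hkm]
      have : 1 < p ^ k := Nat.one_lt_pow hk0 hp.one_lt
      nlinarith
    have hx'1 : g₀ * z ^ u ≠ 1 := by
      intro h
      have h1 : g₀ = (z ^ u)⁻¹ := eq_inv_of_mul_eq_one_left h
      have h2 : orderOf g₀ ∣ m := by rw [h1, orderOf_inv]; exact hord'
      have h3 : p ∣ orderOf g₀ := by
        rw [hcard]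
        exact hpn.trans (hn ▸ orderOf_dvd_natCard z)
      exact hm (h3.trans h2)
    have ih' := ih _ hlt (g₀ * z ^ u) hx'1 (by rw [inv_mul_cancel_left])
    have hpk : ((z ^ u)⁻¹ * z) ^ p ^ k = 1 := by
      have hc : Commute (z ^ u)⁻¹ z := ((Commute.refl z).pow_left u).inv_left
      rw [hc.mul_pow, inv_pow, inv_mul_eq_one, ← pow_mul, mul_comm u]
      have h1 : p ^ k * u ≡ p ^ k * 1 [MOD p ^ k * m] := Nat.ModEq.mul_left' _ hu2
      rw [pow_eq_pow_of_modEq h1 hzn, mul_one]
    have hfin := hstep p hp (g₀ * z ^ u) ((z ^ u)⁻¹ * z) k hx'1 hpk ih'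
    have he : (z ^ u)⁻¹ * z * (g₀ * z ^ u) = x := by
      rw [hcomm g₀ (z ^ u), hcomm ((z ^ u)⁻¹) z, mul_assoc, inv_mul_cancel_left, hcomm, hz,
        mul_inv_cancel_left]
    rwa [he] at hfin

end cyc

section main
variable {Γ : Type u} [Group Γ] [Fintype Γ] {G S C : Subgroup Γ} [hG : G.Normal] [Fintype G]
  [Fintype C]

theorem norm_x (hcop : (Nat.card G).Coprime (Nat.card S)) (htop : G ⊔ S = ⊤)
    (hC : C = G ⊓ Subgroup.centralizer (S : Set Γ))
    (hfpf : ∀ x ∈ S, x ≠ 1 → G ⊓ Subgroup.centralizer ({x} : Set Γ) = C) {χ : Γ → ℂ}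
    (hχ : IsIrrCharacter Γ χ) (hχG : IsIrrCharacter G (fun g : G => χ g))
    (hd : (detOrder χ).Coprime (Nat.card S)) (hcomm : ∀ a ∈ S, ∀ b ∈ S, a * b = b * a)
    (x : S) (hx : x ≠ 1) : ∃ (β : IrrCharacter C) (ε : ℤ), (ε = 1 ∨ ε = -1) ∧
      ∀ c : C, χ (c * x) = ε * (β : C → ℂ) c := by
  have hCG : C ≤ G := by rw [hC]; exact inf_le_left
  have hgen : IsGeneralizedCharacter C (fun c : C => χ (c * x)) := by
    rw [isGen_iff]
    exact ⟨classFun_f hC (isClassFunction_of_isIrr hχ) x.2, fun ψ hψ =>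
      coef_int hcop htop hcomm hCG (hCS_of hC) hχ hχG hd x hψ⟩
  have hord : orderOf (x : Γ) ∣ Nat.card S := by
    rw [Subgroup.orderOf_coe]; exact orderOf_dvd_natCard x
  have hnorm := (inner_coset G C (x : Γ) (hcop.coprime_dvd_right hord)
    (hfpf x x.2 (fun h => hx (Subtype.ext h))).symm hχ hχG hχ).1 rfl
  rcases gen_norm_one hgen hnorm with h | h
  · exact ⟨⟨_, h⟩, 1, Or.inl rfl, fun c => by simp⟩
  · exact ⟨⟨_, h⟩, -1, Or.inr rfl, fun c => by simp⟩

/-- the coefficient character of `S` -/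
theorem coef_char (hC : C = G ⊓ Subgroup.centralizer (S : Set Γ))
    (hcomm : ∀ a ∈ S, ∀ b ∈ S, a * b = b * a) {χ : Γ → ℂ} (hχ : IsIrrCharacter Γ χ) {β : C → ℂ}
    (hβ : IsIrrCharacter C β) : IsCharacter S (fun x : S => classInner (fun c : C => χ (c * x)) β) := by
  classical
  letI := Fintype.ofFinite (IrrCharacter S)
  obtain ⟨n, hn⟩ := fourier' hcomm (hCS_of hC) (isCharacter_of_isIrr hχ) hβ
  have h1 : (fun x : S => classInner (fun c : C => χ (c * x)) β) =
      ∑ l : IrrCharacter S, (n l : ℂ) • (l : S → ℂ) := by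
    funext x
    rw [hn x, Finset.sum_apply]
    rfl
  rw [h1]
  exact isCharacter_sum _ _ fun l _ => isCharacter_natCast_smul _ (isCharacter_of_isIrr l.2)

theorem main (hcop : (Nat.card G).Coprime (Nat.card S)) (htop : G ⊔ S = ⊤)
    (hC : C = G ⊓ Subgroup.centralizer (S : Set Γ))
    (hfpf : ∀ x ∈ S, x ≠ 1 → G ⊓ Subgroup.centralizer ({x} : Set Γ) = C) {χ : Γ → ℂ}
    (hχ : IsIrrCharacter Γ χ) (hχG : IsIrrCharacter G (fun g : G => χ g))
    (hd : (detOrder χ).Coprime (Nat.card S)) {s₀ : Γ} (hs₀ : Subgroup.zpowers s₀ = S)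
    (β : IrrCharacter C) (ε₀ : ℤ) (hε₀ : ε₀ = 1 ∨ ε₀ = -1)
    (hβ : ∀ c : C, χ (c * s₀) = ε₀ * (β : C → ℂ) c) :
    ∃ ε : ℤ, (ε = 1 ∨ ε = -1) ∧ (∃ μ : S → ℂ, IsCharacter S μ ∧ μ 1 = 1 ∧ (∀ x : S, μ x * μ x = 1) ∧
      ∀ c : C, ∀ x : S, x ≠ 1 → χ (c * x) = ε * (β : C → ℂ) c * μ x) ∧
      ∃ ϑ : C → ℂ, IsCharacter C ϑ ∧ (fun c : C => χ c) = fun c => (Nat.card S : ℂ) * ϑ c +
        (ε : ℂ) * (β : C → ℂ) c := by
  classical
  letI := Fintype.ofFinite S
  have hcomm := comm_of_zp hs₀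
  have hCG : C ≤ G := by rw [hC]; exact inf_le_left
  have hSpos : 0 < Nat.card S := Nat.card_pos
  have hε₀' : (ε₀ : ℂ) ≠ 0 := by rcases hε₀ with rfl | rfl <;> norm_num
  by_cases hS1 : Nat.card S = 1
  · have hs1 : s₀ = 1 := by
      have : orderOf s₀ = 1 := by rw [← Nat.card_zpowers, hs₀, hS1]
      exact orderOf_eq_one_iff.1 this
    refine ⟨ε₀, hε₀, ⟨fun _ => 1, isCharacter_one, rfl, fun _ => one_mul 1, ?_⟩, 0, isCharacter_zero, ?_⟩
    · intro c x hx
      exfalso
      apply hx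
      have := (Nat.card_eq_one_iff_unique.1 hS1).1
      exact Subsingleton.elim _ _
    · funext c
      have := hβ c
      rw [hs1, mul_one] at this
      rw [this]; simp
  · have hN2 : 2 ≤ Nat.card S := by omega
    have hs₀S : s₀ ∈ S := hs₀ ▸ Subgroup.mem_zpowers s₀
    set g₀ : S := ⟨s₀, hs₀S⟩ with hg₀
    have hgen : ∀ x : S, x ∈ Subgroup.zpowers g₀ := by
      intro x
      have h1 : (x : Γ) ∈ Subgroup.zpowers s₀ := by rw [hs₀]; exact x.2
      obtain ⟨k, hk⟩ := Subgroup.mem_zpowers_iff.1 h1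
      exact Subgroup.mem_zpowers_iff.2 ⟨k, Subtype.ext (by rw [Subgroup.coe_zpow]; exact hk)⟩
    have hcommS : ∀ a b : S, a * b = b * a := fun a b => Subtype.ext (hcomm a a.2 b b.2)
    set a : S → ℂ := fun x : S => classInner (fun c : C => χ (c * x)) (β : C → ℂ) with ha
    have hachar : IsCharacter S a := coef_char hC hcomm hχ β.2
    -- values
    have hinner : ∀ (x : S) (β' : IrrCharacter C) (ε' : ℤ), (∀ c : C, χ (c * x) = ε' * (β' : C → ℂ) c) →
        ∀ γ : IrrCharacter C, classInner (fun c : C => χ (c * x)) (γ : C → ℂ) =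
          if β' = γ then (ε' : ℂ) else 0 := by
      intro x β' ε' h γ
      have h1 : (fun c : C => χ (c * x)) = (ε' : ℂ) • (β' : C → ℂ) := funext h
      rw [h1, CharOrtho.inner_smul_left, inner_irr β'.2 γ.2]
      by_cases he : β' = γ
      · subst he; simp
      · rw [if_neg he, if_neg (fun h => he (Subtype.ext h)), mul_zero]
    have hval : ∀ x : S, x ≠ 1 → a x = 0 ∨ a x = 1 ∨ a x = -1 := by
      intro x hx
      obtain ⟨β', ε', hε', h⟩ := norm_x hcop htop hC hfpf hχ hχG hd hcomm x hx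
      have h1 := hinner x β' ε' h β
      have h2 : a x = if β' = β then (ε' : ℂ) else 0 := h1
      rw [h2]
      split_ifs
      · right
        rcases hε' with rfl | rfl
        · left; norm_num
        · right; norm_num
      · left; rfl
    have ha₀ : a g₀ ≠ 0 := by
      have h2 : a g₀ = if β = β then (ε₀ : ℂ) else 0 := hinner g₀ β ε₀ hβ β
      rw [h2, if_pos rfl]; exact hε₀'
    have hne := all_sign hgen hachar hval ha₀
    have hform : ∀ x : S, x ≠ 1 → ∀ c : C, χ (c * x) = a x * (β : C → ℂ) c := by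
      intro x hx c
      obtain ⟨β', ε', hε', h⟩ := norm_x hcop htop hC hfpf hχ hχG hd hcomm x hx
      have h2 : a x = if β' = β then (ε' : ℂ) else 0 := hinner x β' ε' h β
      by_cases he : β' = β
      · rw [if_pos he] at h2
        rw [h2, h c, he]
      · rw [if_neg he] at h2
        exact absurd h2 (hne x hx)
    obtain ⟨m, ε, μ, hε, hμ, hμ1, hμ2, hμa, hμ0⟩ := char_shape hcommS hN2 hachar
      (fun x hx => (hval x hx).resolve_left (hne x hx))
    refine ⟨ε, hε, ⟨μ, isCharacter_of_isIrr hμ, hμ1, hμ2, fun c x hx => ?_⟩, ?_⟩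
    · rw [hform x hx c, hμa x hx]; ring
    · have hN0 : (Nat.card S : ℂ) ≠ 0 := by exact_mod_cast hSpos.ne'
      refine ⟨(Nat.card S : ℂ)⁻¹ • ((fun c : C => χ c) - (ε : ℂ) • (β : C → ℂ)), ?_, ?_⟩
      · rw [isCharacter_iff]
        refine ⟨isClassFunction_smul _ (isClassFunction_sub
          (isClassFunction_restrict C (isClassFunction_of_isIrr hχ))
          (isClassFunction_smul _ (isClassFunction_of_isIrr β.2))), fun γ hγ => ?_⟩
        rw [CharOrtho.inner_smul_left, CharOrtho.inner_sub_left, CharOrtho.inner_smul_left]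
        have h1 : (fun c : C => χ (c * ((1 : S) : Γ))) = fun c : C => χ c := by
          funext c; rw [Subgroup.coe_one, mul_one]
        by_cases he : (β : C → ℂ) = γ
        · rw [← he, inner_irr_self β.2, mul_one]
          refine ⟨m, ?_⟩
          have h2 : classInner (fun c : C => χ c) (β : C → ℂ) = a 1 := by rw [← h1]
          rw [h2, hμ0]
          field_simp
          ring
        · rw [inner_irr_ne β.2 hγ he, mul_zero, sub_zero]
          -- the coefficient character vanishes off 1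
          set b : S → ℂ := fun x : S => classInner (fun c : C => χ (c * x)) γ with hb
          have hbchar : IsCharacter S b := coef_char hC hcomm hχ hγ
          have hb0 : ∀ x : S, x ≠ 1 → b x = 0 := by
            intro x hx
            have h3 : (fun c : C => χ (c * x)) = (a x) • (β : C → ℂ) := funext (hform x hx)
            have h4 : b x = classInner (fun c : C => χ (c * x)) γ := rfl
            rw [h4, h3, CharOrtho.inner_smul_left, inner_irr_ne β.2 hγ he, mul_zero]
          obtain ⟨k, hk⟩ := inner_char_natCast hbchar (isCharacter_one (G := S))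
          refine ⟨k, ?_⟩
          have h6 : classInner b (fun _ : S => 1) = (Nat.card S : ℂ)⁻¹ * b 1 := by
            rw [classInner, Finset.sum_eq_single (1 : S) (fun x _ hx => by rw [hb0 x hx, zero_mul])
              (fun h => absurd (Finset.mem_univ _) h), map_one, mul_one]
          rw [← hk, h6]
          congr 1
          have h5 : b 1 = classInner (fun c : C => χ (c * ((1 : S) : Γ))) γ := rfl
          rw [h5, h1]
      · funext c
        simp only [Pi.smul_apply, Pi.sub_apply, smul_eq_mul]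
        field_simp
        ring

end main

end H77.GlaubFpf
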