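import Cfsg.Agent.Lib.H77.KleinA
import Cfsg.Agent.Lib.H80.SU4
import Cfsg.Agent.Lib.H80.BR11
import Cfsg.Agent.S4637

set_option autoImplicit false
set_option linter.unusedSectionVars false
set_option linter.unusedVariables false
set_option maxHeartbeats 400000

/-!
# Blocks with Klein four defect group
-/

namespace H77.Klein

open Cfsg H20.Loc H20.Blk H20.Orth

universe u
variable {G : Type u} [Group G] [Finite G]
variable {M : Ideal AlgInt}

theorem isKleinFour_of {D : Subgroup G} (hc : Nat.card D = 4) (hsq : ∀ d ∈ D, d * d = 1) : IsKleinFour D := by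
  refine ⟨hc, ?_⟩
  haveI : Nontrivial D := by
    rw [← Finite.one_lt_card_iff_nontrivial, hc]; norm_num
  have h1 : Monoid.exponent D ∣ 2 := by
    refine Monoid.exponent_dvd_of_forall_pow_eq_one fun d => ?_
    apply Subtype.ext
    rw [sq]
    exact hsq d d.2
  rcases (Nat.dvd_prime Nat.prime_two).1 h1 with h | h
  · exfalso
    have h2 := Monoid.exp_eq_one_iff.1 h
    exact not_subsingleton D h2
  · exact h

theorem four_rank (hM : IsPModular 2 M) {B : Set (IrrCharacter G)} (hB : IsPBlock M B) {D : Subgroup G}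
    (hD : IsDefectGroup 2 M B D) (hc : Nat.card D = 4) (hsq : ∀ d ∈ D, d * d = 1) :
    Nat.card B = 4 ∧ (blockRank 2 B = 1 ∨ blockRank 2 B = 3) := by
  haveI : Fact (Nat.Prime 2) := ⟨Nat.prime_two⟩
  haveI : M.IsMaximal := hM.2.1
  haveI : CharP (H20.Loc.ResF M) 2 := H20.Loc.charP_resF hM
  letI : Algebra (ZMod 2) (H20.Loc.ResF M) := ZMod.algebra (H20.Loc.ResF M) 2
  haveI : Algebra.IsAlgebraic (ZMod 2) (H20.Loc.ResF M) := H80.BR1.isAlgebraic_resF hM
  haveI : IsAlgClosed (H20.Loc.ResF M) := H20.Loc.isAlgClosed_resF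
  obtain ⟨c, hcB, -⟩ := H80.SU4.exists_max hM hB hD
  have hV : IsKleinFour D := isKleinFour_of hc hsq
  have hPab : ∀ x ∈ D, ∀ y ∈ D, x * y = y * x := by
    intro x hx y hy
    have h1 : ∀ z ∈ D, z⁻¹ = z := fun z hz => inv_eq_of_mul_eq_one_right (hsq z hz)
    rw [← h1 (x * y) (mul_mem hx hy), mul_inv_rev, h1 x hx, h1 y hy]
  obtain ⟨T, hT⟩ : ∃ T : Subgroup G, ∀ g : G, g ∈ T ↔ (g ∈ Subgroup.normalizer (D : Set G) ∧
      StabilizesBlock (Subgroup.centralizer (D : Set G)) c g) := by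
    refine ⟨H80.GH.ST ⊤ D (H80.BR2.bl M _ c), fun g => ?_⟩
    rw [H80.BR2.stabilizes_iff hcB.1]
    constructor
    · rintro ⟨-, h2, h3⟩
      exact ⟨h2, H80.BR5.normalizer_cent_le D h2, h3⟩
    · rintro ⟨h2, -, h3⟩
      exact ⟨Subgroup.mem_top _, h2, h3⟩
  obtain ⟨h1, h2, h3⟩ := Cfsg.Agent.S4637.result M hM B hB D hD hV c hcB T hT _ rfl
  refine ⟨h2, ?_⟩
  rw [h3]
  exact h1

theorem klein_data (hM : IsPModular 2 M) {B : Set (IrrCharacter G)} (hB : IsPBlock M B) {D : Subgroup G}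
    (hD : IsDefectGroup 2 M B D) (hc : Nat.card D = 4) (hsq : ∀ d ∈ D, d * d = 1) :
    blockDefect 2 B = 2 ∧ ∃ (Y : Fin 4 → IrrCharacter G) (δ : Fin 4 → ℤ), Function.Injective Y ∧ (∀ χ, χ ∈ B ↔ ∃ i, χ = Y i) ∧
      (∀ i, δ i = 1 ∨ δ i = -1) ∧ (∀ i, blockHeight 2 B (Y i : G → ℂ) = 0) ∧
      ((blockRank 2 B = 1 ∧ ∀ i j, reg 2 ((δ i : ℂ) • (Y i : G → ℂ)) = reg 2 ((δ j : ℂ) • (Y j : G → ℂ))) ∨
        (blockRank 2 B = 3 ∧ reg 2 (∑ i, (δ i : ℂ) • (Y i : G → ℂ)) = 0)) := by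
  obtain ⟨h1, h2⟩ := four_rank hM hB hD hc hsq
  have hd : blockDefect 2 B = 2 := by
    have h3 := H20.Defect.card_defectGroup hM hB hD
    rw [hc] at h3
    have h4 : (2 : ℕ) ^ 2 = 2 ^ (blockDefect 2 B) := by rw [← h3]; norm_num
    exact (Nat.pow_right_injective le_rfl h4).symm
  exact ⟨hd, H77.KleinA.core hM hB hd h1 h2⟩

end H77.Klein
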