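import Cfsg.Agent.Lib.H81.RegMat
import Cfsg.Agent.Lib.H81.Contrib
import Cfsg.Agent.Lib.H77.KleinC

set_option autoImplicit false
set_option linter.unusedSectionVars false
set_option linter.unusedVariables false
set_option maxHeartbeats 1000000

/-!
# Blocks of defect two with four characters and rank one or three
-/

namespace H77.KleinA

open Cfsg H20.Loc H20.GA H20.Blk H20.DefGrp H20.Orth H20.Defect H20.Height
open H18.CharBasic H18.CharOrtho H18.CharInd

universe u
variable {G : Type u} [Group G] [Finite G]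
variable {M : Ideal AlgInt}

attribute [local instance] Fintype.ofFinite

theorem core (hM : IsPModular 2 M) {B : Set (IrrCharacter G)} (hB : IsPBlock M B)
    (hd : blockDefect 2 B = 2) (h4 : Nat.card B = 4) (hr : blockRank 2 B = 1 ∨ blockRank 2 B = 3) :
    ∃ (Y : Fin 4 → IrrCharacter G) (δ : Fin 4 → ℤ), Function.Injective Y ∧ (∀ χ, χ ∈ B ↔ ∃ i, χ = Y i) ∧
      (∀ i, δ i = 1 ∨ δ i = -1) ∧ (∀ i, blockHeight 2 B (Y i : G → ℂ) = 0) ∧
      ((blockRank 2 B = 1 ∧ ∀ i j, reg 2 ((δ i : ℂ) • (Y i : G → ℂ)) = reg 2 ((δ j : ℂ) • (Y j : G → ℂ))) ∨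
        (blockRank 2 B = 3 ∧ reg 2 (∑ i, (δ i : ℂ) • (Y i : G → ℂ)) = 0)) := by
  classical
  let e : B ≃ Fin 4 := Finite.equivFinOfCardEq h4
  obtain ⟨Y, hYinj, hYB, hYr⟩ : ∃ Y : Fin 4 → IrrCharacter G, Function.Injective Y ∧ (∀ i, Y i ∈ B) ∧
      ∀ χ, χ ∈ B ↔ ∃ i, χ = Y i := by
    refine ⟨fun i => (e.symm i : IrrCharacter G), fun i j h => e.symm.injective (Subtype.ext h),
      fun i => (e.symm i).2, fun χ => ⟨fun h => ⟨e ⟨χ, h⟩, by simp⟩, ?_⟩⟩
    rintro ⟨i, rfl⟩
    exact (e.symm i).2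
  choose a ha ha0 ha1 ha2 ha3 ha4 hasum using fun i => H81.RegMat.exists_row hM hB (hYB i)
  obtain ⟨A, hA⟩ : ∃ A : Fin 4 → Fin 4 → ℤ, ∀ i j, A i j = a i (Y j) := ⟨fun i j => a i (Y j), fun _ _ => rfl⟩
  have hval : ∀ i j, (4 : ℂ) * classInner (reg 2 (Y i : G → ℂ)) (Y j : G → ℂ) = (A i j : ℂ) := by
    intro i j
    have h1 := ha i (Y j)
    rw [hd] at h1
    rw [hA, ← h1]; norm_num
  have hsym : ∀ i j, A i j = A j i := by
    intro i j
    have h1 := hval i j
    rw [inner_reg_symm (irr_char (Y i)) (irr_char (Y j)), hval j i] at h1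
    exact_mod_cast h1.symm
  have hsum : ∀ i, ∑ j, (A i j) ^ 2 = 4 * A i i := by
    intro i
    have h1 := hasum i
    rw [hd] at h1
    have h2 : ∑ j, (A i j) ^ 2 = ∑ ψ : IrrCharacter G, (a i ψ) ^ 2 := by
      refine Fintype.sum_of_injective Y hYinj _ _ ?_ ?_
      · intro ψ hψ
        rw [ha0 i ψ]
        · norm_num
        · intro h; exact hψ ⟨_, ((hYr ψ).1 h).choose_spec.symm⟩
      · intro j; rw [hA]
    rw [h2, h1, hA]; norm_num
  have hexp : ∀ i, (4 : ℂ) • reg 2 (Y i : G → ℂ) = ∑ j, (A i j : ℂ) • (Y j : G → ℂ) := by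
    intro i
    have h1 := mem_classFun_expand (reg_class (p := 2) (irr_class (Y i)))
    conv_lhs => rw [h1]
    rw [Finset.smul_sum]
    symm
    refine Fintype.sum_of_injective Y hYinj _ _ ?_ ?_
    · intro ψ hψ
      have h2 := ha i ψ
      rw [hd, ha0 i ψ (fun h => hψ ⟨_, ((hYr ψ).1 h).choose_spec.symm⟩)] at h2
      have h3 : (4 : ℂ) * classInner (reg 2 (Y i : G → ℂ)) (ψ : G → ℂ) = 0 := by
        rw [Int.cast_zero] at h2
        rw [← h2]; norm_num
      rw [smul_smul, h3, zero_smul]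
    · intro j
      rw [smul_smul, hval]
  have hreg : ∀ i, (4 : ℂ) • reg 2 (Y i : G → ℂ) = ∑ j, (A i j : ℂ) • reg 2 (Y j : G → ℂ) := by
    intro i
    funext g
    by_cases hg : 2 ∣ orderOf g
    · simp [reg_not hg]
    · have h1 := congrFun (hexp i) g
      simp only [Pi.smul_apply, Finset.sum_apply, reg_of hg] at h1 ⊢
      exact h1
  have hne : ∀ i, reg 2 (Y i : G → ℂ) ≠ 0 := by
    intro i h
    have h1 := congrFun h 1
    rw [reg_of (by rw [orderOf_one]; decide)] at h1
    exact irr_one_ne_zero (Y i).2 h1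
  have hset : ((fun χ : IrrCharacter G => pRegularPart 2 (χ : G → ℂ)) '' B) =
      Set.range fun i => reg 2 (Y i : G → ℂ) := by
    ext f; constructor
    · rintro ⟨χ, hχ, rfl⟩
      obtain ⟨i, rfl⟩ := (hYr χ).1 hχ
      exact ⟨i, (H81.Contrib.pRegularPart_eq 2 _).symm⟩
    · rintro ⟨i, rfl⟩
      exact ⟨Y i, hYB i, H81.Contrib.pRegularPart_eq 2 _⟩
  have hspan : blockRank 2 B =
      Module.finrank ℂ (Submodule.span ℂ (Set.range fun i => reg 2 (Y i : G → ℂ))) := by
    unfold blockRank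
    rw [hset]
  have hrows : ∀ i, ∃ j, A i j ≠ 0 := by
    intro i
    by_contra hcon
    push Not at hcon
    have h1 := hreg i
    rw [Finset.sum_eq_zero (fun j _ => by rw [hcon j, Int.cast_zero, zero_smul])] at h1
    rcases smul_eq_zero.1 h1 with h | h
    · norm_num at h
    · exact hne i h
  rcases hr with hr | hr
  · have h1 := (finrank_eq_one_iff_of_nonzero'
      (⟨reg 2 (Y 0 : G → ℂ), Submodule.subset_span ⟨0, rfl⟩⟩ :
        Submodule.span ℂ (Set.range fun i => reg 2 (Y i : G → ℂ)))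
      (fun h => hne 0 (congrArg Subtype.val h))).1 (by rw [← hspan]; exact hr)
    have hc : ∀ i, ∃ c : ℂ, c • reg 2 (Y 0 : G → ℂ) = reg 2 (Y i : G → ℂ) := by
      intro i
      obtain ⟨c, hc⟩ := h1 ⟨reg 2 (Y i : G → ℂ), Submodule.subset_span ⟨i, rfl⟩⟩
      exact ⟨c, congrArg Subtype.val hc⟩
    choose c hc using hc
    have hcA : ∀ i j, (A i j : ℂ) = c i * (A 0 j : ℂ) := by
      intro i j
      rw [← hval i j, ← hval 0 j, ← hc i, H18.CharOrtho.inner_smul_left]
      ring
    have hcomb := H77.KleinC.comb A hsym hsum hrows c hcA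
    refine ⟨Y, fun i => A 0 i, hYinj, hYr, fun i => (hcomb i).2.1, ?_, Or.inl ⟨hr, ?_⟩⟩
    · intro i
      have h2 := ha1 i (Y i) (hYB i)
      rw [← hA, (hcomb i).1] at h2
      by_contra h3
      have h4 : ((2 : ℕ) : ℤ) ∣ 1 := (dvd_pow_self _ h3).trans h2
      norm_num at h4
    · have h5 : ∀ i, reg 2 ((A 0 i : ℂ) • (Y i : G → ℂ)) = reg 2 (Y 0 : G → ℂ) := by
        intro i
        have h6 : reg 2 ((A 0 i : ℂ) • (Y i : G → ℂ)) = (A 0 i : ℂ) • reg 2 (Y i : G → ℂ) := by
          funext g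
          by_cases hg : 2 ∣ orderOf g
          · simp [reg_not hg]
          · simp [reg_of hg]
        have h7 : (A 0 i : ℂ) * (A 0 i : ℂ) = 1 := by
          rcases (hcomb i).2.1 with h | h <;> rw [h] <;> norm_num
        rw [h6, ← hc i, (hcomb i).2.2, smul_smul, h7, one_smul]
      intro i j
      rw [h5 i, h5 j]
  · set T : (Fin 4 → ℂ) →ₗ[ℂ] (G → ℂ) := Fintype.linearCombination ℂ (fun i => reg 2 (Y i : G → ℂ)) with hTd
    have hT : ∀ f, T f = ∑ i, f i • reg 2 (Y i : G → ℂ) := fun f => Fintype.linearCombination_apply _ _ _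
    have hrange : LinearMap.range T = Submodule.span ℂ (Set.range fun i => reg 2 (Y i : G → ℂ)) :=
      Fintype.range_linearCombination _ _
    have hker : Module.finrank ℂ (LinearMap.ker T) = 1 := by
      have h1 := LinearMap.finrank_range_add_finrank_ker T
      rw [hrange, ← hspan, hr, Module.finrank_fin_fun] at h1
      omega
    obtain ⟨N, hN⟩ : ∃ N : Fin 4 → Fin 4 → ℤ, ∀ i j, N i j = (if i = j then 4 else 0) - A i j :=
      ⟨fun i j => (if i = j then 4 else 0) - A i j, fun _ _ => rfl⟩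
    have hNs : ∀ i j, N i j = N j i := by
      intro i j
      rw [hN, hN, hsym i j]
      simp only [eq_comm]
    have hN2 : ∀ i, ∑ j, (N i j) ^ 2 = 4 * N i i := by
      intro i
      have h1 := hsum i
      rw [Fin.sum_univ_four] at h1 ⊢
      simp only [hN]
      fin_cases i <;> simp at h1 ⊢ <;> linear_combination h1
    -- heights
    obtain ⟨k, hk⟩ : ∃ k, blockHeight 2 B (Y k : G → ℂ) = 0 := by
      have hne' : ((fun ψ : IrrCharacter G => (charDegree (ψ : G → ℂ)).factorization 2) '' B).Nonempty :=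
        ⟨_, Y 0, hYB 0, rfl⟩
      obtain ⟨ψ, hψ, h1⟩ := Nat.sInf_mem hne'
      obtain ⟨k, rfl⟩ := (hYr ψ).1 hψ
      refine ⟨k, ?_⟩
      rw [blockHeight, ← h1]
      exact Nat.sub_self _
    have hAk : ∀ i, A i k ≠ 0 := by
      intro i h0
      apply ha2 i (Y k) (hYB k) hk
      rw [← hA, h0]
      exact dvd_zero _
    have hNrows : ∀ i, ∃ j, N i j ≠ 0 := by
      intro i
      by_contra hcon
      push Not at hcon
      have h1 : ∀ j, i ≠ j → A i j = 0 := by
        intro j hij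
        have h2 := hcon j
        rw [hN, if_neg hij] at h2
        omega
      by_cases hik : i = k
      · obtain ⟨l, hl⟩ : ∃ l, l ≠ k := by
          by_cases h : k = 0
          · exact ⟨1, by rw [h]; decide⟩
          · exact ⟨0, fun h' => h h'.symm⟩
        apply hAk l
        rw [hsym, ← hik]
        exact h1 l (by rw [hik]; exact hl.symm)
      · exact hAk i (h1 k hik)
    have hv : ∀ i, (fun j => (N i j : ℂ)) ∈ LinearMap.ker T := by
      intro i
      rw [LinearMap.mem_ker, hT]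
      have h1 : ∑ j, (N i j : ℂ) • reg 2 (Y j : G → ℂ) =
          ∑ j, ((if i = j then (4 : ℂ) else 0) • reg 2 (Y j : G → ℂ) - (A i j : ℂ) • reg 2 (Y j : G → ℂ)) := by
        refine Finset.sum_congr rfl fun j _ => ?_
        rw [← sub_smul, hN]
        push_cast
        rfl
      rw [h1, Finset.sum_sub_distrib, ← hreg i, sub_eq_zero]
      simp [ite_smul]
    have h1 := (finrank_eq_one_iff_of_nonzero'
      (⟨fun j => (N 0 j : ℂ), hv 0⟩ : LinearMap.ker T) (by
        intro h
        obtain ⟨j, hj⟩ := hNrows 0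
        have h2 : (N 0 j : ℂ) = 0 := congrFun (congrArg Subtype.val h) j
        exact hj (by exact_mod_cast h2))).1 hker
    have hc : ∀ i, ∃ c : ℂ, ∀ j, (N i j : ℂ) = c * (N 0 j : ℂ) := by
      intro i
      obtain ⟨c, hc⟩ := h1 ⟨_, hv i⟩
      exact ⟨c, fun j => (congrFun (congrArg Subtype.val hc) j).symm⟩
    choose c hc using hc
    have hcomb := H77.KleinC.comb N hNs hN2 hNrows c hc
    refine ⟨Y, fun i => N 0 i, hYinj, hYr, fun i => (hcomb i).2.1, ?_, Or.inr ⟨hr, ?_⟩⟩
    · intro i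
      have h2 := ha1 i (Y i) (hYB i)
      have h5 := (hcomb i).1
      rw [hN, if_pos rfl] at h5
      have h6 : A i i = 3 := by omega
      rw [← hA, h6] at h2
      by_contra h3
      have h4 : ((2 : ℕ) : ℤ) ∣ 3 := (dvd_pow_self _ h3).trans h2
      norm_num at h4
    · have h2 := hv 0
      rw [LinearMap.mem_ker, hT] at h2
      funext g
      by_cases hg : 2 ∣ orderOf g
      · rw [reg_not hg]; rfl
      · have h3 := congrFun h2 g
        simp only [Finset.sum_apply, Pi.smul_apply, reg_of hg] at h3 ⊢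
        exact h3

end H77.KleinA
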