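import Cfsg.Agent.Lib.H77.Cov1
import Cfsg.Agent.Lib.H77.IndDef

/-!
# Knörr's theorem, nilpotency part (helper77)
-/

set_option autoImplicit false
set_option linter.unusedSectionVars false
set_option linter.unusedVariables false
set_option linter.style.haveILetI false
open Cfsg H18 H20.Loc H20.GA H20.Blk H20.DefGrp H77.Cov1 H77.IndDef
open scoped ComplexConjugate

namespace H77.Knorr

universe u
variable {G : Type u} [Group G] [Finite G] (N : Subgroup G) (M : Ideal AlgInt) [hMp : M.IsPrime]

/-- elements with local integer coefficients commuting with `N` -/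
def AN : Subring (MonoidAlgebra ℂ G) where
  carrier := {a | (∀ g, MemLocalRing M (a.coeff g)) ∧
    ∀ n ∈ N, MonoidAlgebra.single n (1 : ℂ) * a = a * MonoidAlgebra.single n 1}
  mul_mem' := by
    intro a b ha hb
    letI := Fintype.ofFinite G
    refine ⟨fun g => ?_, fun n hn => ?_⟩
    · rw [coeff_mul_eq]
      exact locR_sum fun x _ => locR_mul (ha.1 x) (hb.1 _)
    · rw [← mul_assoc, ha.2 n hn, mul_assoc, hb.2 n hn, mul_assoc]
  one_mem' := by
    classical
    refine ⟨fun g => ?_, fun n hn => by rw [mul_one, one_mul]⟩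
    rw [MonoidAlgebra.one_def, MonoidAlgebra.coeff_single, Finsupp.single_apply]
    split_ifs
    · exact locR_one
    · exact locR_zero
  add_mem' := by
    intro a b ha hb
    refine ⟨fun g => ?_, fun n hn => by rw [mul_add, add_mul, ha.2 n hn, hb.2 n hn]⟩
    exact locR_add (ha.1 g) (hb.1 g)
  zero_mem' := ⟨fun g => locR_zero, fun n hn => by rw [mul_zero, zero_mul]⟩
  neg_mem' := by
    intro a ha
    refine ⟨fun g => locR_neg (ha.1 g), fun n hn => by rw [mul_neg, neg_mul, ha.2 n hn]⟩

variable {N M}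

theorem coeff_inv {a : MonoidAlgebra ℂ G} (ha : a ∈ AN N M) {n : G} (hn : n ∈ N) (g : G) :
    a.coeff (n * g * n⁻¹) = a.coeff g := by
  rw [← coeff_conj a n g, ha.2 n⁻¹ (N.inv_mem hn), mul_assoc, MonoidAlgebra.single_mul_single,
    inv_mul_cancel, one_mul, ← MonoidAlgebra.one_def, mul_one]

variable (N) in
/-- inclusion of group algebras -/
noncomputable def emb : MonoidAlgebra ℂ N →+* MonoidAlgebra ℂ G :=
  MonoidAlgebra.mapDomainRingHom ℂ N.subtype

theorem emb_single (n : N) (c : ℂ) : emb N (MonoidAlgebra.single n c) = MonoidAlgebra.single (n : G) c := by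
  simp [emb]

theorem coeff_emb (x : MonoidAlgebra ℂ N) (n : N) : (emb N x).coeff (n : G) = x.coeff n :=
  Finsupp.mapDomain_apply (Subgroup.subtype_injective N) x.coeff n

theorem coeff_emb_not (x : MonoidAlgebra ℂ N) {g : G} (h : g ∉ N) : (emb N x).coeff g = 0 := by
  apply Finsupp.mapDomain_notin_range
  rintro ⟨n, rfl⟩
  exact h n.2

theorem emb_comm {a : MonoidAlgebra ℂ G} (ha : a ∈ AN N M) (x : MonoidAlgebra ℂ N) :
    emb N x * a = a * emb N x := by
  induction x using MonoidAlgebra.induction_linear with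
  | zero => rw [map_zero, zero_mul, mul_zero]
  | add x y hx hy => rw [map_add, add_mul, mul_add, hx, hy]
  | single n c =>
    rw [emb_single]
    have h1 : MonoidAlgebra.single (n : G) c = c • MonoidAlgebra.single (n : G) (1 : ℂ) := by
      rw [MonoidAlgebra.smul_single, smul_eq_mul, mul_one]
    rw [h1, smul_mul_assoc, mul_smul_comm, ha.2 n n.2]

/-- restriction to `N` of an `N`-invariant element. -/
noncomputable def resA {a : MonoidAlgebra ℂ G} (ha : a ∈ AN N M) : ZG N :=
  zof (fun n : N => a.coeff (n : G)) (by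
    intro n x
    exact coeff_inv ha x.2 n)

theorem zc_resA {a : MonoidAlgebra ℂ G} (ha : a ∈ AN N M) (n : N) : zc (resA ha) n = a.coeff (n : G) := rfl

theorem resA_mem {a : MonoidAlgebra ℂ G} (ha : a ∈ AN N M) : resA ha ∈ zr M N := fun n => ha.1 n

theorem emb_resA {a : MonoidAlgebra ℂ G} (ha : a ∈ AN N M) (h0 : ∀ g, g ∉ N → a.coeff g = 0) :
    emb N (toA (resA ha)) = a := by
  apply MonoidAlgebra.ext
  ext g
  by_cases hg : g ∈ N
  · have := coeff_emb (toA (resA ha)) ⟨g, hg⟩
    exact this.trans (zc_resA ha ⟨g, hg⟩)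
  · rw [coeff_emb_not _ hg, h0 g hg]

theorem emb_mem {z : ZG N} (hz : z ∈ zr M N) [hN : N.Normal] : emb N (toA z) ∈ AN N M := by
  classical
  refine ⟨fun g => ?_, fun n hn => ?_⟩
  · by_cases hg : g ∈ N
    · rw [show g = ((⟨g, hg⟩ : N) : G) from rfl, coeff_emb]; exact hz _
    · rw [coeff_emb_not _ hg]; exact locR_zero
  · have h1 := toA_comm z (MonoidAlgebra.single (⟨n, hn⟩ : N) (1 : ℂ))
    have h2 := congrArg (emb N) h1
    rw [map_mul, map_mul, emb_single] at h2
    exact h2.symm

variable (N M) in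
/-- elements of `Z(RN)` with value in `M` at all members of `b` -/
def JZ (b : Set (IrrCharacter N)) : Set (ZG N) :=
  {z | z ∈ zr M N ∧ ∀ θ ∈ b, MemLocalIdeal M (omega θ z)}

variable (N M) in
/-- products of `m` elements of `JZ` -/
def JP (b : Set (IrrCharacter N)) : ℕ → Set (ZG N)
  | 0 => {1}
  | m + 1 => {x | ∃ z ∈ JP b m, ∃ w ∈ JZ N M b, x = z * w}

theorem JP_mem (b : Set (IrrCharacter N)) (m : ℕ) : ∀ z ∈ JP N M b m, z ∈ zr M N := by
  induction m with
  | zero =>
    intro z hz
    have : z = 1 := hz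
    rw [this]; exact one_mem _
  | succ m ih =>
    rintro z ⟨z1, hz1, w, hw, rfl⟩
    exact mul_mem (ih z1 hz1) hw.1

theorem mz_mul {u w : ZG N} (hu : ∀ g, MemLocalIdeal M (zc u g)) (hw : w ∈ zr M N) (g : N) :
    MemLocalIdeal M (zc (u * w) g) := by
  letI := Fintype.ofFinite N
  rw [zc_mul]
  exact locI_sum fun x _ => locI_mul_right (hu x) (hw _)

theorem JP_reduce (b : Set (IrrCharacter N)) (s : Finset (IrrCharacter N)) (hs : ∀ θ ∈ s, θ ∈ b) :
    ∀ z ∈ JP N M b s.card, ∃ z' ∈ zr M N, (∀ θ ∈ s, omega θ z' = 0) ∧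
      ∀ g, MemLocalIdeal M (zc (z - z') g) := by
  classical
  induction s using Finset.induction_on with
  | empty =>
    intro z hz
    refine ⟨z, JP_mem b _ z hz, fun θ h => absurd h (Finset.notMem_empty _), fun g => ?_⟩
    rw [sub_self, zc_zero]; exact locI_zero
  | insert θ0 s h0 ih =>
    intro z hz
    rw [Finset.card_insert_of_notMem h0] at hz
    obtain ⟨z1, hz1, z2, hz2, rfl⟩ := hz
    obtain ⟨z1', hz1', hv, hd⟩ := ih (fun θ h => hs θ (Finset.mem_insert_of_mem h)) z1 hz1
    have hθ0 : θ0 ∈ b := hs θ0 (Finset.mem_insert_self _ _)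
    refine ⟨z1' * (z2 - algebraMap ℂ (ZG N) (omega θ0 z2)), ?_, ?_, ?_⟩
    · exact mul_mem hz1' (sub_mem hz2.1 (algebraMap_mem (omega_mem θ0 hz2.1)))
    · intro θ hθ
      rw [map_mul]
      rcases Finset.mem_insert.1 hθ with rfl | h
      · rw [map_sub, AlgHom.commutes]
        simp
      · rw [hv θ h, zero_mul]
    · intro g
      have h1 : z1 * z2 - z1' * (z2 - algebraMap ℂ (ZG N) (omega θ0 z2)) =
          (z1 - z1') * z2 + omega θ0 z2 • z1' := by
        rw [Algebra.smul_def]; ring
      rw [h1, zc_add, zc_smul]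
      exact locI_add (mz_mul hd hz2.1 g) (locI_mul_right (hz2.2 θ0 hθ0) (hz1' g))

theorem JP_eB {b : Set (IrrCharacter N)} (hb : IsPBlock M b) :
    ∃ k : ℕ, ∀ z ∈ JP N M b k, ∀ g, MemLocalIdeal M (zc (z * eB b) g) := by
  classical
  refine ⟨(Set.toFinite b).toFinset.card, fun z hz g => ?_⟩
  obtain ⟨z', hz', hv, hd⟩ := JP_reduce b (Set.toFinite b).toFinset (fun θ h => by simpa using h) z hz
  have h1 : z' * eB b = 0 := by
    apply eq_zero_of_omega
    intro θ
    rw [map_mul]
    by_cases hθ : θ ∈ b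
    · rw [hv θ (by simpa using hθ), zero_mul]
    · rw [omega_eB_notMem hθ, mul_zero]
  have h2 : z * eB b = (z - z') * eB b := by rw [sub_mul, h1, sub_zero]
  rw [h2]
  exact mz_mul hd (eB_mem hb) g

variable (N M) in
/-- the additive span of `emb (JP m) * AN` -/
noncomputable def JS (b : Set (IrrCharacter N)) (m : ℕ) : AddSubgroup (MonoidAlgebra ℂ G) :=
  AddSubgroup.closure {x | ∃ z ∈ JP N M b m, ∃ a ∈ AN N M, x = emb N (toA z) * a}

theorem JS_mul [N.Normal] {b : Set (IrrCharacter N)} {m : ℕ} {x y : MonoidAlgebra ℂ G}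
    (hx : x ∈ JS N M b m) (hy : y ∈ JS N M b 1) : x * y ∈ JS N M b (m + 1) := by
  induction hx using AddSubgroup.closure_induction with
  | zero => rw [zero_mul]; exact zero_mem _
  | add x x' _ _ h h' => rw [add_mul]; exact add_mem h h'
  | neg x _ h => rw [neg_mul]; exact neg_mem h
  | mem x hx =>
    obtain ⟨z, hz, a, ha, rfl⟩ := hx
    induction hy using AddSubgroup.closure_induction with
    | zero => rw [mul_zero]; exact zero_mem _
    | add x x' _ _ h h' => rw [mul_add]; exact add_mem h h'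
    | neg x _ h => rw [mul_neg]; exact neg_mem h
    | mem y hy =>
      obtain ⟨w, hw, c, hc, rfl⟩ := hy
      obtain ⟨w0, hw0, w1, hw1, rfl⟩ := hw
      have h0 : w0 = 1 := hw0
      rw [h0, one_mul]
      apply AddSubgroup.subset_closure
      refine ⟨z * w1, ⟨z, hz, w1, hw1, rfl⟩, a * c, mul_mem ha hc, ?_⟩
      rw [map_mul, map_mul]
      calc emb N (toA z) * a * (emb N (toA w1) * c) = emb N (toA z) * (a * emb N (toA w1)) * c := by
            simp only [mul_assoc]
        _ = emb N (toA z) * (emb N (toA w1) * a) * c := by rw [emb_comm ha]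
        _ = _ := by simp only [mul_assoc]

theorem JS_pow [N.Normal] {b : Set (IrrCharacter N)} {y : MonoidAlgebra ℂ G}
    (hy : y ∈ JS N M b 1) (m : ℕ) : y ^ m ∈ JS N M b m := by
  induction m with
  | zero =>
    apply AddSubgroup.subset_closure
    exact ⟨1, rfl, 1, one_mem _, by rw [map_one, map_one, pow_zero, one_mul]⟩
  | succ m ih => rw [pow_succ]; exact JS_mul ih hy

theorem JS_coeff [N.Normal] {b : Set (IrrCharacter N)} {k : ℕ}
    (hk : ∀ z ∈ JP N M b k, ∀ g, MemLocalIdeal M (zc (z * eB b) g)) {x : MonoidAlgebra ℂ G}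
    (hx : x ∈ JS N M b k) (g : G) : MemLocalIdeal M ((x * emb N (toA (eB b))).coeff g) := by
  letI := Fintype.ofFinite G
  revert g
  induction hx using AddSubgroup.closure_induction with
  | zero => intro g; rw [zero_mul]; exact locI_zero
  | add x x' _ _ h h' => intro g; rw [add_mul]; exact locI_add (h g) (h' g)
  | neg x _ h => intro g; rw [neg_mul]; exact locI_neg (h g)
  | mem x hx =>
    intro g
    obtain ⟨z, hz, a, ha, rfl⟩ := hx
    have h1 : emb N (toA z) * a * emb N (toA (eB b)) = emb N (toA (z * eB b)) * a := by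
      rw [mul_assoc, ← emb_comm ha, ← mul_assoc, ← map_mul, ← map_mul]
    rw [h1, coeff_mul_eq]
    refine locI_sum fun y _ => locI_mul_right ?_ (ha.1 _)
    by_cases hy : y ∈ N
    · rw [show y = ((⟨y, hy⟩ : N) : G) from rfl, coeff_emb]; exact hk z hz _
    · rw [coeff_emb_not _ hy]; exact locI_zero

section grade
variable [hN : N.Normal]

open Classical in
variable (N) in
/-- part of the class sum of `y` in the coset `c` -/
noncomputable def Yc (y : G) (c : G ⧸ N) : MonoidAlgebra ℂ G :=
  ga (fun g => if IsConj y g ∧ (QuotientGroup.mk g : G ⧸ N) = c then 1 else 0)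

open Classical in
theorem coeff_Yc (y : G) (c : G ⧸ N) (g : G) :
    (Yc N y c).coeff g = if IsConj y g ∧ (QuotientGroup.mk g : G ⧸ N) = c then 1 else 0 := rfl

theorem mk_conj {n : G} (hn : n ∈ N) (g : G) :
    (QuotientGroup.mk (n * g * n⁻¹) : G ⧸ N) = QuotientGroup.mk g := by
  have h1 : (QuotientGroup.mk n : G ⧸ N) = 1 := (QuotientGroup.eq_one_iff n).2 hn
  rw [QuotientGroup.mk_mul, QuotientGroup.mk_mul, QuotientGroup.mk_inv, h1]
  simp

theorem single_comm_of_inv {a : MonoidAlgebra ℂ G} {n : G}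
    (h : ∀ g, a.coeff (n * g * n⁻¹) = a.coeff g) :
    MonoidAlgebra.single n (1 : ℂ) * a = a * MonoidAlgebra.single n 1 := by
  apply MonoidAlgebra.ext
  ext x
  rw [MonoidAlgebra.coeff_mul_single_apply, MonoidAlgebra.coeff_single_mul_apply, one_mul, mul_one]
  have := h (n⁻¹ * x)
  rw [← this]
  congr 1
  group

theorem Yc_mem (y : G) (c : G ⧸ N) : Yc N y c ∈ AN N M := by
  classical
  refine ⟨fun g => ?_, fun n hn => ?_⟩
  · rw [coeff_Yc]
    split_ifs
    · exact locR_one
    · exact locR_zero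
  · apply single_comm_of_inv
    intro g
    rw [coeff_Yc, coeff_Yc]
    have h1 : IsConj y (n * g * n⁻¹) ↔ IsConj y g := by
      have h2 : IsConj g (n * g * n⁻¹) := isConj_iff.2 ⟨n, rfl⟩
      exact ⟨fun h => h.trans h2.symm, fun h => h.trans h2⟩
    rw [mk_conj hn, h1]

theorem sum_Yc [Fintype (G ⧸ N)] (y : G) : toA (cls y) = ∑ c : G ⧸ N, Yc N y c := by
  classical
  apply MonoidAlgebra.ext
  ext g
  change zc (cls y) g = _
  rw [zc_cls, MonoidAlgebra.coeff_sum, Finsupp.finsetSum_apply,
    Finset.sum_eq_single (QuotientGroup.mk g : G ⧸ N)]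
  · rw [coeff_Yc]
    simp
  · intro c _ hc
    rw [coeff_Yc, if_neg]
    rintro ⟨_, h⟩
    exact hc h.symm
  · intro h; exact absurd (Finset.mem_univ _) h

/-- homogeneous of degree `c` -/
def Hg (c : G ⧸ N) (a : MonoidAlgebra ℂ G) : Prop :=
  ∀ g : G, a.coeff g ≠ 0 → (QuotientGroup.mk g : G ⧸ N) = c

theorem Hg_mul {c d : G ⧸ N} {a b : MonoidAlgebra ℂ G} (ha : Hg c a) (hb : Hg d b) :
    Hg (c * d) (a * b) := by
  letI := Fintype.ofFinite G
  intro g hg
  rw [coeff_mul_eq] at hg
  obtain ⟨x, _, hx⟩ := Finset.exists_ne_zero_of_sum_ne_zero hg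
  have h1 := ha x (left_ne_zero_of_mul hx)
  have h2 := hb _ (right_ne_zero_of_mul hx)
  rw [← h1, ← h2, ← QuotientGroup.mk_mul]
  congr 1
  group

theorem Hg_one : Hg (N := N) 1 1 := by
  classical
  intro g hg
  rw [MonoidAlgebra.one_def, MonoidAlgebra.coeff_single, Finsupp.single_apply] at hg
  have : (1 : G) = g := by
    by_contra h
    rw [if_neg h] at hg
    exact hg rfl
  rw [← this]
  rfl

theorem Hg_Yc (y : G) (c : G ⧸ N) : Hg c (Yc N y c) := by
  classical
  intro g hg
  rw [coeff_Yc] at hg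
  by_contra h
  rw [if_neg (fun h' => h h'.2)] at hg
  exact hg rfl

theorem prod_mem (y : G) (l : List (G ⧸ N)) : (l.map (Yc N y)).prod ∈ AN N M := by
  induction l with
  | nil => simpa using one_mem (AN N M)
  | cons c l ih => simpa using mul_mem (Yc_mem y c) ih

theorem prod_Hg (y : G) (l : List (G ⧸ N)) : Hg l.prod (l.map (Yc N y)).prod := by
  induction l with
  | nil => simpa using Hg_one
  | cons c l ih => rw [List.prod_cons, List.map_cons, List.prod_cons]; exact Hg_mul (Hg_Yc y c) ih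

/-- span of products of length `n` -/
noncomputable def WS (N : Subgroup G) [N.Normal] (y : G) (n : ℕ) : AddSubgroup (MonoidAlgebra ℂ G) :=
  AddSubgroup.closure {x | ∃ l : List (G ⧸ N), l.length = n ∧ x = (l.map (Yc N y)).prod}

theorem pow_mem_WS (y : G) (n : ℕ) : (toA (cls y)) ^ n ∈ WS N y n := by
  letI := Fintype.ofFinite (G ⧸ N)
  rw [sum_Yc (N := N)]
  induction n with
  | zero => exact AddSubgroup.subset_closure ⟨[], rfl, by simp⟩
  | succ n ih =>
    rw [pow_succ, Finset.mul_sum]
    refine AddSubgroup.sum_mem _ fun c _ => ?_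
    generalize (∑ c : G ⧸ N, Yc N y c) ^ n = w at ih
    induction ih using AddSubgroup.closure_induction with
    | zero => rw [zero_mul]; exact zero_mem _
    | add x x' _ _ h h' => rw [add_mul]; exact add_mem h h'
    | neg x _ h => rw [neg_mul]; exact neg_mem h
    | mem x hx =>
      obtain ⟨l, hl, rfl⟩ := hx
      apply AddSubgroup.subset_closure
      exact ⟨l ++ [c], by simp [hl], by simp⟩

/-- pigeonhole: a product of `|G/N|` components contains a nonempty factor of degree `1`. -/
theorem exists_factor (l : List (G ⧸ N)) (hl : l.length = Nat.card (G ⧸ N)) :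
    ∃ (l1 : List (G ⧸ N)) (c : G ⧸ N) (l2 l3 : List (G ⧸ N)), l = l1 ++ (c :: l2) ++ l3 ∧
      c * l2.prod = 1 := by
  letI := Fintype.ofFinite (G ⧸ N)
  have h1 : Fintype.card (G ⧸ N) < Fintype.card (Fin (l.length + 1)) := by
    rw [Fintype.card_fin, hl, Nat.card_eq_fintype_card]; omega
  obtain ⟨i, j, hij, h2⟩ := Fintype.exists_ne_map_eq_of_card_lt
    (fun i : Fin (l.length + 1) => (l.take i).prod) h1
  wlog hlt : i < j generalizing i j
  · exact this j i hij.symm h2.symm (lt_of_le_of_ne (not_lt.1 hlt) hij.symm)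
  replace h2 : (l.take i).prod = (l.take j).prod := h2
  have hjl : (j : ℕ) ≤ l.length := Nat.lt_succ_iff.1 j.2
  have hlt' : (i : ℕ) < j := hlt
  have h3 : l.take j = l.take i ++ (l.take j).drop i := by
    conv_lhs => rw [← List.take_append_drop i (l.take j)]
    rw [List.take_take, min_eq_left hlt'.le]
  have h4 : ((l.take j).drop i).prod = 1 := by
    have h5 : (l.take j).prod = (l.take i).prod * ((l.take j).drop i).prod := by
      conv_lhs => rw [h3]
      rw [List.prod_append]
    rw [← h2] at h5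
    exact (mul_eq_left.1 h5.symm)
  have h6 : ((l.take j).drop i).length = j - i := by
    rw [List.length_drop, List.length_take, min_eq_left hjl]
  obtain ⟨c, l2, h7⟩ : ∃ c l2, (l.take j).drop i = c :: l2 := by
    cases h8 : (l.take j).drop i with
    | nil => rw [h8] at h6; simp at h6; omega
    | cons c l2 => exact ⟨c, l2, rfl⟩
  refine ⟨l.take i, c, l2, l.drop j, ?_, ?_⟩
  · rw [← h7, ← h3, List.take_append_drop]
  · rw [h7, List.prod_cons] at h4; exact h4

end grade

end H77.Knorr
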