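import Cfsg.Agent.Lib.H77.Knorr

/-!
# Knörr's theorem, stable case (helper77)
-/

set_option autoImplicit false
set_option linter.unusedSectionVars false
set_option linter.unusedVariables false
set_option linter.style.haveILetI false
open Cfsg H18 H20.Loc H20.GA H20.Blk H20.DefGrp H20.Defect H77.Cov1 H77.IndDef H77.Knorr
open scoped ComplexConjugate

namespace H77.Knorr2

universe u
variable {G : Type u} [Group G] [Finite G] {N : Subgroup G} [hN : N.Normal] {M : Ideal AlgInt}
  [hMp : M.IsPrime] {p : ℕ}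

theorem centralizer_map {P : Subgroup N} {x : N} (h : P ≤ Subgroup.centralizer ({x} : Set N)) :
    P.map N.subtype ≤ Subgroup.centralizer ({(x : G)} : Set G) := by
  rintro _ ⟨y, hy, rfl⟩
  have := Subgroup.mem_centralizer_singleton_iff.1 (h hy)
  rw [Subgroup.mem_centralizer_singleton_iff]
  exact congrArg (fun z : N => (z : G)) this

/-- fixed point argument -/
theorem exists_fixed (hM : IsPModular p M) {Q : Subgroup G} (hQ : IsPGroup p Q) (hQN : Q ≤ N)
    {u w : MonoidAlgebra ℂ G} (hu : u ∈ AN N M) (hw : w ∈ AN N M) {x : G}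
    (hQx : Q ≤ Subgroup.centralizer ({x} : Set G))
    (hx : ¬ MemLocalIdeal M ((u * w).coeff x)) :
    ∃ y : G, Q ≤ Subgroup.centralizer ({y} : Set G) ∧ ¬ MemLocalIdeal M (u.coeff y) ∧
      ¬ MemLocalIdeal M (w.coeff (y⁻¹ * x)) := by
  classical
  letI := Fintype.ofFinite G
  letI : MulAction Q G := MulAction.compHom G (MulAut.conj.comp Q.subtype)
  have hsm : ∀ (q : Q) (x : G), q • x = (q : G) * x * (q : G)⁻¹ := fun q x => rfl
  let f : G → ℂ := fun y => u.coeff y * w.coeff (y⁻¹ * x)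
  have hf : ∀ y, MemLocalRing M (f y) := fun y => locR_mul (hu.1 y) (hw.1 _)
  have hinv : ∀ (q : Q) (y : G), f (q • y) = f y := by
    intro q y
    simp only [f]
    rw [hsm]
    congr 1
    · exact coeff_inv hu (hQN q.2) y
    · have h1 := Subgroup.mem_centralizer_singleton_iff.1 (hQx q.2)
      have h2 : ((q : G) * y * (q : G)⁻¹)⁻¹ * x = (q : G) * (y⁻¹ * x) * (q : G)⁻¹ := by
        calc ((q : G) * y * (q : G)⁻¹)⁻¹ * x = (q : G) * y⁻¹ * ((q : G)⁻¹ * (x * (q : G))) * (q : G)⁻¹ := by group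
          _ = (q : G) * y⁻¹ * ((q : G)⁻¹ * ((q : G) * x)) * (q : G)⁻¹ := by rw [h1]
          _ = _ := by group
      rw [h2]
      exact coeff_inv hw (hQN q.2) _
  have h1 := sum_fixed_congr hM hQ f hf hinv
  rw [coeff_mul_eq] at hx
  have h2 : ¬ MemLocalIdeal M (∑ x : G, if ∀ q : Q, q • x = x then f x else 0) :=
    fun h3 => hx ((locI_congr h1).2 h3)
  obtain ⟨y, hy⟩ : ∃ y : G, ¬ MemLocalIdeal M (if ∀ q : Q, q • y = y then f y else 0) := by
    by_contra! hc
    exact h2 (locI_sum fun x _ => hc x)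
  split_ifs at hy with hfix
  · refine ⟨y, ?_, ?_, ?_⟩
    · intro q hq
      rw [Subgroup.mem_centralizer_singleton_iff]
      have := hfix ⟨q, hq⟩
      rw [hsm] at this
      exact mul_inv_eq_iff_eq_mul.1 this
    · intro hc
      exact hy (locI_mul_right hc (hw.1 _))
    · intro hc
      exact hy (locI_mul_left (hu.1 _) hc)
  · exact absurd locI_zero hy

theorem bad (hM : IsPModular p M) {b : Set (IrrCharacter N)} (hb : IsPBlock M b) {Q0 : Subgroup N}
    (hQ : IsDefectGroup p M b Q0) {y : G}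
    (H : ∀ y', IsConj y y' → ¬ Q0.map N.subtype ≤ Subgroup.centralizer ({y'} : Set G))
    (c : G ⧸ N) {w : MonoidAlgebra ℂ G} (hw : w ∈ AN N M) (hx : Yc N y c * w ∈ AN N M) :
    resA hx ∈ JZ N M b := by
  classical
  refine ⟨resA_mem hx, fun θ hθ => ?_⟩
  by_contra hno
  obtain ⟨h, h1, h2⟩ := exists_unit_class (resA_mem hx) θ hno
  obtain ⟨h0, hh0, P, rfl⟩ := hQ
  obtain ⟨x, hx1, hx2⟩ := sylow_le_of_blockCoeff hM hb ⟨θ, hθ, h2⟩ hh0.2.1
    (isPGroup_sylC h0 P) (sylC_le h0 P)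
  rw [zc_conj _ hx1, zc_resA] at h1
  obtain ⟨y', hy1, hy2, _⟩ := exists_fixed hM ((isPGroup_sylC h0 P).map N.subtype)
    (Subgroup.map_subtype_le _) (Yc_mem y c) hw (centralizer_map hx2) h1
  apply H y' _ hy1
  by_contra hc
  apply hy2
  rw [coeff_Yc, if_neg (fun h' => hc h'.1)]
  exact locI_zero

theorem pow_mem_JS (hM : IsPModular p M) {b : Set (IrrCharacter N)} (hb : IsPBlock M b)
    {Q0 : Subgroup N} (hQ : IsDefectGroup p M b Q0) {y : G}
    (H : ∀ y', IsConj y y' → ¬ Q0.map N.subtype ≤ Subgroup.centralizer ({y'} : Set G)) :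
    (toA (cls y)) ^ (Nat.card (G ⧸ N)) ∈ JS N M b 1 := by
  have h1 := pow_mem_WS (N := N) y (Nat.card (G ⧸ N))
  generalize toA (cls y) ^ Nat.card (G ⧸ N) = w0 at h1
  induction h1 using AddSubgroup.closure_induction with
  | zero => exact zero_mem _
  | add x x' _ _ h h' => exact add_mem h h'
  | neg x _ h => exact neg_mem h
  | mem x hx =>
    obtain ⟨l, hl, rfl⟩ := hx
    obtain ⟨l1, c, l2, l3, rfl, h2⟩ := exists_factor l hl
    have hP1 := prod_mem (M := M) y l1
    have hP2 := prod_mem (M := M) y l2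
    have hP3 := prod_mem (M := M) y l3
    have hx : Yc N y c * (l2.map (Yc N y)).prod ∈ AN N M := mul_mem (Yc_mem y c) hP2
    have hH : Hg (1 : G ⧸ N) (Yc N y c * (l2.map (Yc N y)).prod) := by
      rw [← h2]; exact Hg_mul (Hg_Yc y c) (prod_Hg y l2)
    have h0 : ∀ g, g ∉ N → (Yc N y c * (l2.map (Yc N y)).prod).coeff g = 0 := by
      intro g hg
      by_contra hne
      exact hg ((QuotientGroup.eq_one_iff g).1 (hH g hne))
    have he := emb_resA hx h0
    apply AddSubgroup.subset_closure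
    refine ⟨resA hx, ⟨1, rfl, resA hx, bad hM hb hQ H c hP2 hx, (one_mul _).symm⟩,
      (l1.map (Yc N y)).prod * (l3.map (Yc N y)).prod, mul_mem hP1 hP3, ?_⟩
    have e1 := emb_comm hP1 (toA (resA hx))
    rw [he] at e1
    rw [List.map_append, List.map_append, List.map_cons, List.prod_append, List.prod_append,
      List.prod_cons, he, ← mul_assoc (Yc N y c * _), e1]

/-- **Knörr, key step.** If `b` is `G`-stable with defect group `Q`, `χ` lies over `b` and
`ω_χ(y)` is a unit, then `Q` centralizes a conjugate of `y`. -/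
theorem exists_centralized_conj [Fintype G] [Fintype N] (hM : IsPModular p M)
    {b : Set (IrrCharacter N)} (hb : IsPBlock M b) (hst : ∀ θ ∈ b, ∀ g : G, cI N g θ ∈ b)
    {Q0 : Subgroup N} (hQ : IsDefectGroup p M b Q0) {χ : IrrCharacter G} {θ : IrrCharacter N}
    (hθ : θ ∈ b) (hcon : classInner (fun n : N => (χ : G → ℂ) n) (θ : N → ℂ) ≠ 0) {y : G}
    (hy : ¬ MemLocalIdeal M (centralChar (χ : G → ℂ) y)) :
    ∃ y', IsConj y y' ∧ Q0.map N.subtype ≤ Subgroup.centralizer ({y'} : Set G) := by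
  by_contra! H
  obtain ⟨k, hk⟩ := JP_eB (N := N) hb
  have h1 := JS_pow (pow_mem_JS hM hb hQ H) k
  have hz : InvZ N (eB b) := eB_inv N hst
  have h2 : emb N (toA (eB b)) = toA (up N hz) := by
    apply MonoidAlgebra.ext
    ext g
    by_cases hg : g ∈ N
    · rw [show g = ((⟨g, hg⟩ : N) : G) from rfl, coeff_emb]
      exact (zc_up_mem N hz hg).symm
    · rw [coeff_emb_not _ hg]
      exact (zc_up_notMem N hz hg).symm
  have h3 : ∀ g, MemLocalIdeal M (zc ((cls y ^ Nat.card (G ⧸ N)) ^ k * up N hz) g) := by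
    intro g
    have := JS_coeff hk h1 g
    rw [h2, ← map_pow, ← map_pow, ← map_mul] at this
    exact this
  have h4 := omega_memI χ h3
  rw [map_mul, omega_up N hz χ θ hcon, omega_eB_mem hθ, mul_one, map_pow, map_pow, omega_cls] at h4
  have h5 := locI_of_pow (locR_pow (centralChar_memR χ y) _) h4
  exact hy (locI_of_pow (centralChar_memR χ y) h5)

/-- The other inequality: a `p`-subgroup of `N` centralizing `y`, where the idempotent of `B` has
unit coefficient at `y`, is contained in an `N`-conjugate of `Q`. -/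
theorem card_le_defect [Fintype G] [Fintype N] (hM : IsPModular p M)
    {b : Set (IrrCharacter N)} (hb : IsPBlock M b) (hst : ∀ θ ∈ b, ∀ g : G, cI N g θ ∈ b)
    {Q0 : Subgroup N} (hQ : IsDefectGroup p M b Q0) {B : Set (IrrCharacter G)} (hB : IsPBlock M B)
    (hover : ∀ χ ∈ B, ∃ θ ∈ b, classInner (fun n : N => (χ : G → ℂ) n) (θ : N → ℂ) ≠ 0) {y : G}
    (hy : ¬ MemLocalIdeal M (blockCoeff B y)) {R : Subgroup G} (hR : IsPGroup p R) (hRN : R ≤ N)
    (hRy : R ≤ Subgroup.centralizer ({y} : Set G)) : Nat.card R ≤ Nat.card Q0 := by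
  classical
  haveI : Fact p.Prime := ⟨pm_prime hM⟩
  have hz : InvZ N (eB b) := eB_inv N hst
  have h1 : eB B = up N hz * eB B := by
    apply eq_of_omega
    intro χ
    rw [map_mul]
    by_cases hχ : χ ∈ B
    · obtain ⟨θ, hθ, h⟩ := hover χ hχ
      rw [omega_eB_mem hχ, omega_up N hz χ θ h, omega_eB_mem hθ, mul_one]
    · rw [omega_eB_notMem hχ, mul_zero]
  have h2 : emb N (toA (eB b)) = toA (up N hz) := by
    apply MonoidAlgebra.ext
    ext g
    by_cases hg : g ∈ N
    · rw [show g = ((⟨g, hg⟩ : N) : G) from rfl, coeff_emb]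
      exact (zc_up_mem N hz hg).symm
    · rw [coeff_emb_not _ hg]
      exact (zc_up_notMem N hz hg).symm
  have hu : toA (up N hz) ∈ AN N M := by
    rw [← h2]; exact emb_mem (eB_mem hb)
  have hw : toA (eB B) ∈ AN N M := by
    refine ⟨fun g => eB_mem hB g, fun n _ => (toA_comm (eB B) _).symm⟩
  have h3 : ¬ MemLocalIdeal M ((toA (up N hz) * toA (eB B)).coeff y) := by
    rw [← map_mul, ← h1]; exact hy
  obtain ⟨x, hx1, hx2, _⟩ := exists_fixed hM hR hRN hu hw hRy h3
  have hxN : x ∈ N := by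
    by_contra hx
    apply hx2
    change MemLocalIdeal M (zc (up N hz) x)
    rw [zc_up_notMem N hz hx]
    exact locI_zero
  have h4 : ¬ MemLocalIdeal M (blockCoeff b ⟨x, hxN⟩) := by
    intro h
    apply hx2
    change MemLocalIdeal M (zc (up N hz) x)
    rw [zc_up_mem N hz hxN]
    exact h
  obtain ⟨h0, hh0, P, rfl⟩ := hQ
  obtain ⟨θ, hθ⟩ := isPBlock_nonempty hb
  have hR' : IsPGroup p (R.subgroupOf N) := hR.comap_of_injective _ (Subgroup.subtype_injective _)
  have hRx : R.subgroupOf N ≤ Subgroup.centralizer ({(⟨x, hxN⟩ : N)} : Set N) := by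
    intro r hr
    rw [Subgroup.mem_centralizer_singleton_iff]
    apply Subtype.ext
    exact Subgroup.mem_centralizer_singleton_iff.1 (hx1 (Subgroup.mem_subgroupOf.1 hr))
  obtain ⟨x', hx'1, hx'2⟩ := sylow_le_of_blockCoeff hM hb ⟨θ, hθ, hh0.2.2 θ hθ⟩ h4 hR' hRx
  obtain ⟨c, hc⟩ := exists_conj_le hx'1 P hR' hx'2
  have h5 := Subgroup.card_le_of_le hc
  rw [card_map_conj] at h5
  rwa [Nat.card_congr (Subgroup.subgroupOfEquivOfLe hRN).toEquiv] at h5

/-- Knörr's theorem when `b` is `G`-stable. -/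
theorem knorr_stable [Fintype G] [Fintype N] (hM : IsPModular p M)
    {b : Set (IrrCharacter N)} (hb : IsPBlock M b) (hst : ∀ θ ∈ b, ∀ g : G, cI N g θ ∈ b)
    {Q0 : Subgroup N} (hQ : IsDefectGroup p M b Q0) {B : Set (IrrCharacter G)} (hB : IsPBlock M B)
    (hover : ∀ χ ∈ B, ∃ θ ∈ b, classInner (fun n : N => (χ : G → ℂ) n) (θ : N → ℂ) ≠ 0) :
    ∃ P : Subgroup G, IsDefectGroup p M B P ∧ P ⊓ N = Q0.map N.subtype := by
  haveI : Fact p.Prime := ⟨pm_prime hM⟩
  obtain ⟨y, hy⟩ := exists_isDefectClass hB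
  obtain ⟨χ, hχ⟩ := isPBlock_nonempty hB
  obtain ⟨θ, hθ, hcon⟩ := hover χ hχ
  obtain ⟨y', hyy', hQy⟩ := exists_centralized_conj hM hb hst hQ hθ hcon (hy.2.2 χ hχ)
  have hy' : IsDefectClass M B y' := (isDefectClass_congr hyy').1 hy
  -- a Sylow subgroup of `C(y')` containing `Q`
  have hQp : IsPGroup p (Q0.map N.subtype) := (isPGroup_of_isDefectGroup hQ).map _
  have h2 : IsPGroup p ((Q0.map N.subtype).subgroupOf (Subgroup.centralizer ({y'} : Set G))) :=
    hQp.comap_of_injective _ (Subgroup.subtype_injective _)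
  obtain ⟨S, hS⟩ := h2.exists_le_sylow
  have hle : Q0.map N.subtype ≤ sylC y' S := by
    intro q hq
    exact ⟨⟨q, hQy hq⟩, hS hq, rfl⟩
  refine ⟨sylC y' S, ⟨y', hy', S, rfl⟩, ?_⟩
  symm
  apply Subgroup.eq_of_le_of_card_ge
  · exact le_inf hle (Subgroup.map_subtype_le _)
  · have h3 := card_le_defect hM hb hst hQ hB hover hy'.2.1
      (R := sylC y' S ⊓ N) ((isPGroup_sylC y' S).to_le inf_le_left) inf_le_right
      (inf_le_left.trans (sylC_le y' S))
    rwa [Subgroup.card_map_of_injective (Subgroup.subtype_injective _)]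

end H77.Knorr2
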