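import Cfsg.Agent.Lib.H77.GlPerm
import Cfsg.Agent.Lib.H77.Conv
import Cfsg.Agent.Lib.H77.Canon
import Cfsg.Agent.Lib.H77.OverInv

/-!
# Twisted extensions of linear characters and the involution operator (helper77)

`K / L` abelian of odd order, `f : K → ℂ` with `f x * f y = f (x y) * f ⁅x, y⁆ ^ m`, `f` linear on `L`.
-/

set_option autoImplicit false
set_option linter.unusedSectionVars false
set_option linter.unusedVariables false
set_option linter.style.haveILetI false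
open Cfsg H18 H18.CharBasic H18.CharOrtho H18.CharInd H18.CharQuot H31.Clifford
open H77.GlaubP H77.CopChain
open scoped ComplexConjugate commutatorElement

namespace H77.OddA

universe u v

/-- twisted extension of a linear character of `L` to `K` -/
structure TwExt {G : Type u} [Group G] (K L : Subgroup G) (m : ℕ) (f : G → ℂ) : Prop where
  le : L ≤ K
  one : f 1 = 1
  norm : ∀ x ∈ K, ‖f x‖ = 1
  com : ∀ x ∈ K, ∀ y ∈ K, ⁅x, y⁆ ∈ L
  mulL : ∀ x ∈ L, ∀ y ∈ L, f (x * y) = f x * f y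
  inv : ∀ g : G, ∀ x ∈ L, f (g * x * g⁻¹) = f x
  mul : ∀ x ∈ K, ∀ y ∈ K, f x * f y = f (x * y) * f ⁅x, y⁆ ^ m
  ord : ∀ x ∈ K, ∀ y ∈ K, f ⁅x, y⁆ ^ (2 * m + 1) = 1

namespace TwExt

variable {G : Type u} [Group G] {K L : Subgroup G} [hK : K.Normal] [hL : L.Normal] {m : ℕ}
  {f : G → ℂ} (F : TwExt K L m f)

include F

theorem ne_zero {x : G} (hx : x ∈ K) : f x ≠ 0 := by
  intro h
  have := F.norm x hx
  rw [h, norm_zero] at this
  exact zero_ne_one this

theorem invL {x : G} (hx : x ∈ L) : f x⁻¹ = (f x)⁻¹ := by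
  have h1 := F.mulL x⁻¹ (L.inv_mem hx) x hx
  rw [inv_mul_cancel, F.one] at h1
  exact eq_inv_of_mul_eq_one_left h1.symm

/-- `f ⁅x, y⁆` is bilinear -/
theorem b_mul_left {x y z : G} (hx : x ∈ K) (hy : y ∈ K) (hz : z ∈ K) :
    f ⁅x * y, z⁆ = f ⁅x, z⁆ * f ⁅y, z⁆ := by
  have h1 : ⁅x * y, z⁆ = x * ⁅y, z⁆ * x⁻¹ * ⁅x, z⁆ := by
    simp only [commutatorElement_def]; group
  rw [h1, F.mulL _ (hL.conj_mem _ (F.com y hy z hz) x) _ (F.com x hx z hz), F.inv _ _ (F.com y hy z hz),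
    mul_comm]

theorem b_swap {x y : G} (hx : x ∈ K) (hy : y ∈ K) : f ⁅y, x⁆ = (f ⁅x, y⁆)⁻¹ := by
  rw [← commutatorElement_inv, F.invL (F.com x hx y hy)]

theorem b_mul_right {x y z : G} (hx : x ∈ K) (hy : y ∈ K) (hz : z ∈ K) :
    f ⁅x, y * z⁆ = f ⁅x, y⁆ * f ⁅x, z⁆ := by
  rw [F.b_swap (K.mul_mem hy hz) hx, F.b_mul_left hy hz hx, F.b_swap hx hy, F.b_swap hx hz, mul_inv,
    inv_inv, inv_inv]

theorem b_self (x : G) : f ⁅x, x⁆ = 1 := by
  rw [commutatorElement_self, F.one]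

theorem b_inv_left {x y : G} (hx : x ∈ K) (hy : y ∈ K) : f ⁅x⁻¹, y⁆ = (f ⁅x, y⁆)⁻¹ := by
  have h1 := F.b_mul_left (K.inv_mem hx) hx hy
  rw [inv_mul_cancel, commutatorElement_one_left, F.one] at h1
  exact eq_inv_of_mul_eq_one_left h1.symm

theorem b_inv_right {x y : G} (hx : x ∈ K) (hy : y ∈ K) : f ⁅x, y⁻¹⁆ = (f ⁅x, y⁆)⁻¹ := by
  rw [F.b_swap (K.inv_mem hy) hx, F.b_inv_left hy hx, F.b_swap hx hy, inv_inv]

theorem b_ne_zero {x y : G} (hx : x ∈ K) (hy : y ∈ K) : f ⁅x, y⁆ ≠ 0 :=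
  F.ne_zero (F.le (F.com x hx y hy))

theorem b_L {x l : G} (hx : x ∈ K) (hl : l ∈ L) : f ⁅x, l⁆ = 1 := by
  rw [commutatorElement_def, F.mulL _ (hL.conj_mem _ hl x) _ (L.inv_mem hl), F.inv x l hl, F.invL hl,
    mul_inv_cancel₀ (F.ne_zero (F.le hl))]

theorem b_conj {x y : G} (g : G) (hx : x ∈ K) (hy : y ∈ K) :
    f ⁅g * x * g⁻¹, g * y * g⁻¹⁆ = f ⁅x, y⁆ := by
  have h1 : ⁅g * x * g⁻¹, g * y * g⁻¹⁆ = g * ⁅x, y⁆ * g⁻¹ := by
    simp only [commutatorElement_def]; group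
  rw [h1, F.inv _ _ (F.com x hx y hy)]

theorem mul' {x y : G} (hx : x ∈ K) (hy : y ∈ K) : f (x * y) = f x * f y * (f ⁅x, y⁆ ^ m)⁻¹ := by
  rw [F.mul x hx y hy, mul_assoc, mul_inv_cancel₀ (pow_ne_zero _ (F.b_ne_zero hx hy)), mul_one]

theorem inv' {x : G} (hx : x ∈ K) : f x⁻¹ = (f x)⁻¹ := by
  have h1 := F.mul x⁻¹ (K.inv_mem hx) x hx
  rw [F.b_inv_left hx hx, F.b_self, inv_one, one_pow, mul_one, inv_mul_cancel, F.one] at h1
  exact eq_inv_of_mul_eq_one_left h1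

theorem conj_eq {x : G} (hx : x ∈ K) : conj (f x) = f x⁻¹ := by
  rw [F.inv' hx]
  have h1 : f x * conj (f x) = 1 := by
    rw [Complex.mul_conj, Complex.normSq_eq_norm_sq, F.norm x hx]; norm_num
  exact eq_inv_of_mul_eq_one_right h1

theorem mulR {x l : G} (hx : x ∈ K) (hl : l ∈ L) : f (x * l) = f x * f l := by
  rw [F.mul' hx (F.le hl), F.b_L hx hl, one_pow, inv_one, mul_one]

theorem sandwich {x y : G} (hx : x ∈ K) (hy : y ∈ K) : f (x * y * x) = f x ^ 2 * f y := by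
  have h0 := pow_ne_zero m (F.b_ne_zero hx hy)
  rw [F.mul' (K.mul_mem hx hy) hx, F.mul' hx hy, F.b_mul_left hx hy hx, F.b_self, one_mul,
    F.b_swap hx hy, inv_pow, inv_inv]
  field_simp

theorem conj_L {x l : G} (hx : x ∈ K) (hl : l ∈ L) : f (l * x * l⁻¹) = f x := by
  have h1 : l * x * l⁻¹ = x * (x⁻¹ * l * x * l⁻¹) := by group
  have h2 : x⁻¹ * l * x ∈ L := by
    have := hL.conj_mem l hl x⁻¹
    simpa using this
  rw [h1, F.mulR hx (L.mul_mem h2 (L.inv_mem hl)), F.mulL _ h2 _ (L.inv_mem hl)]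
  have h3 := F.inv x⁻¹ l hl
  rw [inv_inv] at h3
  rw [h3, F.invL hl, mul_inv_cancel₀ (F.ne_zero (F.le hl)), mul_one]

/-- two-sided: `2 m + 1` kills the form, so `b^{-2m} = b` -/
theorem b_pow {x y : G} (hx : x ∈ K) (hy : y ∈ K) : f ⁅x, y⁆ ^ m * f ⁅x, y⁆ ^ m = (f ⁅x, y⁆)⁻¹ := by
  have h1 := F.ord x hx y hy
  rw [← pow_add]
  apply eq_inv_of_mul_eq_one_left
  rw [← pow_succ]
  rw [← h1]; congr 1; ring

end TwExt

section D
variable {G : Type u} [Group G] [Fintype G] {K L : Subgroup G} [hK : K.Normal] [hL : L.Normal] {m : ℕ}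
  {f : G → ℂ} [Fintype K]

/-- the transform `g ↦ tr (g A)`, `A = ∑ f(k)⁻¹ k` -/
noncomputable def D (K : Subgroup G) [Fintype K] (f : G → ℂ) (η : G → ℂ) (g : G) : ℂ :=
  ∑ k : K, f ((k : G)⁻¹) * η (g * k)

variable (F : TwExt K L m f)
include F

theorem D_sandwich {η : G → ℂ} (hη : IsClassFunction G η) {x : G} (hx : x ∈ K) (g : G) :
    D K f η (x * g * x) = f x ^ 2 * D K f η g := by
  unfold D
  rw [Finset.mul_sum]
  refine Fintype.sum_equiv
    { toFun := fun k : K => (⟨x * k * x, K.mul_mem (K.mul_mem hx k.2) hx⟩ : K)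
      invFun := fun k : K => ⟨x⁻¹ * k * x⁻¹, K.mul_mem (K.mul_mem (K.inv_mem hx) k.2) (K.inv_mem hx)⟩
      left_inv := fun k => by ext; simp [mul_assoc]
      right_inv := fun k => by ext; simp [mul_assoc] } _ _ (fun k => ?_)
  have h1 : η (x * g * x * k) = η (g * (x * k * x)) := by
    have h2 := hη (g * (x * k * x)) x
    rw [← h2]
    congr 1
    group
  have h3 : f ((k : G)⁻¹) = f x ^ 2 * f ((x * k * x)⁻¹) := by
    have h4 : (k : G)⁻¹ = x * (x * k * x)⁻¹ * x := by group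
    rw [h4, F.sandwich hx (K.inv_mem (K.mul_mem (K.mul_mem hx k.2) hx))]
  rw [h1, h3]
  show _ = f x ^ 2 * (f ((x * k * x)⁻¹) * η (g * (x * k * x)))
  ring

theorem D_mulL (η : G → ℂ) {l : G} (hl : l ∈ L) (g : G) :
    D K f η (g * l) = f l * D K f η g := by
  unfold D
  rw [Finset.mul_sum]
  refine Fintype.sum_equiv
    { toFun := fun k : K => (⟨l * k, K.mul_mem (F.le hl) k.2⟩ : K)
      invFun := fun k : K => ⟨l⁻¹ * k, K.mul_mem (K.inv_mem (F.le hl)) k.2⟩
      left_inv := fun k => by ext; simp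
      right_inv := fun k => by ext; simp } _ _ (fun k => ?_)
  show _ = f l * (f ((l * k)⁻¹) * η (g * (l * k)))
  have h4 : (k : G)⁻¹ = (l * k)⁻¹ * l := by group
  rw [h4, F.mulR (K.inv_mem (K.mul_mem (F.le hl) k.2)) hl]
  rw [mul_assoc g l]
  ring

/-- the coset condition -/
theorem coset_form (hodd : Odd (L.index)) {g k : G} (hk : k ∈ K) :
    ∃ x ∈ K, ∃ l ∈ L, g * k = x * g * x * l := by
  classical
  -- the map `x ↦ (g⁻¹ x g) x` on `K / L`
  set LK := L.subgroupOf K with hLK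
  have hcomm : ∀ a b : K ⧸ LK, a * b = b * a := by
    intro a b
    obtain ⟨a, rfl⟩ := QuotientGroup.mk_surjective a
    obtain ⟨b, rfl⟩ := QuotientGroup.mk_surjective b
    rw [← QuotientGroup.mk_mul, ← QuotientGroup.mk_mul, QuotientGroup.eq]
    rw [Subgroup.mem_subgroupOf]
    have h1 := F.com (b : G)⁻¹ (K.inv_mem b.2) (a : G)⁻¹ (K.inv_mem a.2)
    have h2 : (((a * b)⁻¹ * (b * a) : K) : G) = ⁅(b : G)⁻¹, (a : G)⁻¹⁆ := by
      simp only [commutatorElement_def]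
      push_cast
      group
    rw [h2]; exact h1
  let c : K →* K := ((MulAut.conjNormal g⁻¹ : MulAut K) : K →* K)
  have hc : ∀ x : K, ((c x : K) : G) = g⁻¹ * x * g := fun x => by
    show ((MulAut.conjNormal g⁻¹ x : K) : G) = _
    rw [MulAut.conjNormal_apply, inv_inv]
  let cq : K ⧸ LK →* K ⧸ LK := QuotientGroup.map LK LK c (by
    intro x hx
    rw [Subgroup.mem_comap, Subgroup.mem_subgroupOf, hc]
    have := hL.conj_mem _ (Subgroup.mem_subgroupOf.1 hx) g⁻¹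
    simpa using this)
  let T : K ⧸ LK →* K ⧸ LK :=
    { toFun := fun q => cq q * q
      map_one' := by rw [map_one, one_mul]
      map_mul' := fun a b => by
        rw [map_mul]
        calc cq a * cq b * (a * b) = cq a * (cq b * a) * b := by group
          _ = cq a * (a * cq b) * b := by rw [hcomm (cq b) a]
          _ = cq a * a * (cq b * b) := by group }
  have hinj : Function.Injective T := by
    rw [injective_iff_map_eq_one]
    intro q hq
    have h1 : cq q = q⁻¹ := eq_inv_of_mul_eq_one_left hq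
    -- iterate
    have h2 : ∀ n : ℕ, (cq^[n]) q = q ^ ((-1 : ℤ) ^ n) := by
      intro n
      induction n with
      | zero => simp
      | succ n ih =>
        rw [Function.iterate_succ_apply', ih, map_zpow, h1, inv_zpow, ← zpow_neg, pow_succ]
        congr 1; ring
    -- `g ^ L.index ∈ L`
    have h3 : ∀ n : ℕ, ∀ x : K, (cq^[n]) (x : K ⧸ LK) =
        ((MulAut.conjNormal (g⁻¹ ^ n) x : K) : K ⧸ LK) := by
      intro n
      induction n with
      | zero => intro x; simp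
      | succ n ih =>
        intro x
        rw [Function.iterate_succ_apply', ih, pow_succ']
        rw [map_mul]
        rfl
    obtain ⟨x, rfl⟩ := QuotientGroup.mk_surjective q
    have h4 : g⁻¹ ^ L.index ∈ L := Subgroup.pow_index_mem L g⁻¹
    have h5 := h2 L.index
    rw [h3, hodd.neg_one_pow] at h5
    have h6 : ((MulAut.conjNormal (g⁻¹ ^ L.index) x : K) : K ⧸ LK) = (x : K ⧸ LK) := by
      rw [QuotientGroup.eq, Subgroup.mem_subgroupOf]
      push_cast
      rw [MulAut.conjNormal_apply]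
      have h7 : (g⁻¹ ^ L.index * (x : G) * (g⁻¹ ^ L.index)⁻¹)⁻¹ * x =
          g⁻¹ ^ L.index * ((x : G)⁻¹ * (g⁻¹ ^ L.index)⁻¹ * x) := by group
      rw [h7]
      refine L.mul_mem h4 ?_
      have := hL.conj_mem _ (L.inv_mem h4) (x : G)⁻¹
      simpa using this
    rw [h6] at h5
    have h7 : (x : K ⧸ LK) * (x : K ⧸ LK) = 1 := by
      have : (x : K ⧸ LK) = (x : K ⧸ LK)⁻¹ := by
        rw [← zpow_neg_one]; exact h5
      nth_rewrite 1 [this]
      rw [inv_mul_cancel]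
    have h8 : Odd (Nat.card (K ⧸ LK)) := by
      have h9 : Nat.card (K ⧸ LK) ∣ L.index := by
        show LK.index ∣ _
        exact Subgroup.relIndex_dvd_index_of_normal L K
      exact Odd.of_dvd_nat hodd h9
    have h9 : orderOf (x : K ⧸ LK) ∣ 2 := by
      apply orderOf_dvd_of_pow_eq_one; rw [pow_two, h7]
    have h10 : orderOf (x : K ⧸ LK) ∣ Nat.card (K ⧸ LK) := orderOf_dvd_natCard _
    have h11 : orderOf (x : K ⧸ LK) ∣ 1 := by
      have hc2 : Nat.Coprime 2 (Nat.card (K ⧸ LK)) := by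
        rw [Nat.coprime_two_left]; exact h8
      have := Nat.dvd_gcd h9 h10
      rwa [hc2.gcd_eq_one] at this
    exact orderOf_eq_one_iff.1 (Nat.dvd_one.1 h11)
  have hsurj : Function.Surjective T := Finite.surjective_of_injective hinj
  obtain ⟨q, hq⟩ := hsurj ((⟨k, hk⟩ : K) : K ⧸ LK)
  obtain ⟨x, rfl⟩ := QuotientGroup.mk_surjective q
  have h1 : ((c x * x : K) : K ⧸ LK) = ((⟨k, hk⟩ : K) : K ⧸ LK) := hq
  rw [QuotientGroup.eq, Subgroup.mem_subgroupOf] at h1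
  refine ⟨x, x.2, _, h1, ?_⟩
  push_cast
  rw [hc]
  group

end D

end H77.OddA
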