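import Cfsg.Agent.Lib.H77.OddA

/-!
# The involution operator: isometry and parity (helper77)
-/

set_option autoImplicit false
set_option linter.unusedSectionVars false
set_option linter.unusedVariables false
set_option linter.style.haveILetI false
open Cfsg H18 H18.CharBasic H18.CharOrtho H18.CharInd H18.CharQuot H31.Clifford
open H77.GlaubP H77.CopChain
open scoped ComplexConjugate commutatorElement

namespace H77.OddB

open H77.OddA

universe u v

section parity
variable {H : Type u} [Group H] [Fintype H]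

/-- an operator of order two commuting with a representation: parity of multiplicities -/
theorem parity {V : Type} [AddCommGroup V] [Module ℂ V] [FiniteDimensional ℂ V]
    (ρ : Representation ℂ H V) (z : V →ₗ[ℂ] V) (hz : z * z = 1) (hc : ∀ h, ρ h * z = z * ρ h)
    {β : H → ℂ} (hβ : IsIrrCharacter H β) :
    ∃ a b : ℕ, classInner ρ.character β = a + b ∧
      classInner (fun h => LinearMap.trace ℂ V (ρ h * z)) β = (a : ℂ) - b := by
  classical
  let C2 := ULift.{u} ℤˣ
  letI : Fintype C2 := Fintype.ofFinite _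
  letI : Fintype (IrrCharacter C2) := Fintype.ofFinite _
  let g : C2 →* (V →ₗ[ℂ] V) :=
    { toFun := fun ε => if ε.down = 1 then 1 else z
      map_one' := by simp
      map_mul' := by
        rintro ⟨a⟩ ⟨b⟩
        show (if a * b = 1 then (1 : V →ₗ[ℂ] V) else z) =
          (if a = 1 then 1 else z) * (if b = 1 then 1 else z)
        have hne : (-1 : ℤˣ) ≠ 1 := by decide
        rcases Int.units_eq_one_or a with rfl | rfl <;> rcases Int.units_eq_one_or b with rfl | rfl
        · simp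
        · simp [hne]
        · simp [hne]
        · simp [hz, hne] }
  have hg1 : g ⟨1⟩ = 1 := rfl
  have hgm : g ⟨-1⟩ = z := rfl
  let Ψ : Representation ℂ (H × C2) V := MonoidHom.noncommCoprod ρ g (by
    rintro h ⟨a⟩
    rcases Int.units_eq_one_or a with rfl | rfl
    · rw [hg1]; exact Commute.one_right _
    · rw [hgm]; exact hc h)
  have hΨ : ∀ h : H, ∀ ε : C2, Ψ.character (h, ε) = LinearMap.trace ℂ V (ρ h * g ε) := fun h ε => rfl
  have hS : ∀ a b : C2, a * b = b * a := fun a b => mul_comm a b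
  obtain ⟨n, hn⟩ := H77.Canon.fourier hS (isCharacter_of_rep Ψ) hβ
  have h1 := hn ⟨1⟩
  have h2 := hn ⟨-1⟩
  have hl1 : ∀ l : IrrCharacter C2, l.1 (⟨1⟩ : C2) = 1 := by
    intro l
    obtain ⟨f, hf⟩ := exists_hom_of_isIrr_of_comm hS l.2
    rw [hf]
    show ((f 1 : ℂˣ) : ℂ) = 1
    rw [map_one, Units.val_one]
  have hlm : ∀ l : IrrCharacter C2, l.1 (⟨-1⟩ : C2) = 1 ∨ l.1 (⟨-1⟩ : C2) = -1 := by
    intro l
    obtain ⟨f, hf⟩ := exists_hom_of_isIrr_of_comm hS l.2
    have h3 : (⟨-1⟩ : C2) * ⟨-1⟩ = 1 := rfl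
    have h4 : (f ⟨-1⟩ : ℂ) * f ⟨-1⟩ = 1 := by
      rw [← Units.val_mul, ← map_mul, h3, map_one, Units.val_one]
    rw [hf]
    show (f ⟨-1⟩ : ℂ) = 1 ∨ (f ⟨-1⟩ : ℂ) = -1
    exact mul_self_eq_one_iff.1 h4
  refine ⟨∑ l ∈ Finset.univ.filter (fun l : IrrCharacter C2 => l.1 (⟨-1⟩ : C2) = 1), n l,
    ∑ l ∈ Finset.univ.filter (fun l : IrrCharacter C2 => ¬ l.1 (⟨-1⟩ : C2) = 1), n l, ?_, ?_⟩
  · have h3 : (fun c => Ψ.character (c, (⟨1⟩ : C2))) = ρ.character := by
      funext h
      rw [hΨ, hg1, mul_one]; rfl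
    rw [h3] at h1
    rw [h1]
    push_cast
    rw [Finset.sum_filter_add_sum_filter_not]
    refine Finset.sum_congr rfl fun l _ => ?_
    rw [show (l : C2 → ℂ) ⟨1⟩ = 1 from hl1 l, mul_one]
  · have h3 : (fun c => Ψ.character (c, (⟨-1⟩ : C2))) =
        fun h => LinearMap.trace ℂ V (ρ h * z) := by
      funext h
      rw [hΨ, hgm]
    rw [h3] at h2
    rw [h2]
    push_cast
    rw [← Finset.sum_filter_add_sum_filter_not Finset.univ
      (fun l : IrrCharacter C2 => l.1 (⟨-1⟩ : C2) = 1), sub_eq_add_neg, ← Finset.sum_neg_distrib]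
    congr 1
    · refine Finset.sum_congr rfl fun l hl => ?_
      rw [show (l : C2 → ℂ) ⟨-1⟩ = 1 from (Finset.mem_filter.1 hl).2, mul_one]
    · refine Finset.sum_congr rfl fun l hl => ?_
      rw [show (l : C2 → ℂ) ⟨-1⟩ = -1 from (hlm l).resolve_left (Finset.mem_filter.1 hl).2]
      ring

end parity

section sums
variable {G : Type u} [Group G] [Fintype G] {K L : Subgroup G} [hK : K.Normal] [hL : L.Normal] {m : ℕ}
  {f : G → ℂ} [Fintype K]

/-- the radical of the commutator form -/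
def Rad (K : Subgroup G) (f : G → ℂ) (u : G) : Prop := u ∈ K ∧ ∀ y ∈ K, f ⁅u, y⁆ = 1

variable (F : TwExt K L m f)
include F

open Classical in
/-- orthogonality for the form -/
theorem sum_form {u : G} (hu : u ∈ K) :
    ∑ x : K, (f ⁅u, (x : G)⁆ ^ m)⁻¹ = if Rad K f u then (Nat.card K : ℂ) else 0 := by
  split_ifs with h
  · rw [Finset.sum_congr rfl fun x _ => by rw [h.2 x x.2, one_pow, inv_one], Finset.sum_const,
      Finset.card_univ, nsmul_eq_mul, mul_one, Nat.card_eq_fintype_card]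
  · have h1 : ∃ y ∈ K, f ⁅u, y⁆ ≠ 1 := by
      by_contra! hno
      exact h ⟨hu, hno⟩
    obtain ⟨y, hy, hne⟩ := h1
    have h2 : (f ⁅u, y⁆ ^ m)⁻¹ ≠ 1 := by
      intro h3
      apply hne
      have h4 : f ⁅u, y⁆ ^ m = 1 := inv_eq_one.1 h3
      have h5 := F.ord u hu y hy
      rw [pow_succ, mul_comm 2 m, pow_mul, h4, one_pow, one_mul] at h5
      exact h5
    have h3 : ∑ x : K, (f ⁅u, (x : G)⁆ ^ m)⁻¹ =
        (f ⁅u, y⁆ ^ m)⁻¹ * ∑ x : K, (f ⁅u, (x : G)⁆ ^ m)⁻¹ := by
      rw [Finset.mul_sum]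
      symm
      refine Fintype.sum_equiv (Equiv.mulLeft (⟨y, hy⟩ : K)) _ _ (fun x => ?_)
      show _ = (f ⁅u, y * (x : G)⁆ ^ m)⁻¹
      rw [F.b_mul_right hu hy x.2, mul_pow, mul_inv]
    have h4 : (1 - (f ⁅u, y⁆ ^ m)⁻¹) * ∑ x : K, (f ⁅u, (x : G)⁆ ^ m)⁻¹ = 0 := by
      rw [sub_mul, one_mul, ← h3, sub_self]
    exact (mul_eq_zero.1 h4).resolve_left (sub_ne_zero.2 (Ne.symm h2))

open Classical in
/-- `∑_x f(x⁻¹) f(u⁻¹ x) = |K| f(u⁻¹)` on the radical, zero off it -/
theorem sum_ff {u : G} (hu : u ∈ K) :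
    ∑ x : K, f (x : G)⁻¹ * f (u⁻¹ * x) = if Rad K f u then (Nat.card K : ℂ) * f u⁻¹ else 0 := by
  have h1 : ∀ x : K, f (x : G)⁻¹ * f (u⁻¹ * x) = f u⁻¹ * (f ⁅u⁻¹, (x : G)⁆ ^ m)⁻¹ := by
    intro x
    rw [F.mul' (K.inv_mem hu) x.2, F.inv' x.2]
    have := F.ne_zero x.2
    field_simp
  rw [Finset.sum_congr rfl fun x _ => h1 x, ← Finset.mul_sum, sum_form F (K.inv_mem hu)]
  have h2 : Rad K f u⁻¹ ↔ Rad K f u := by
    constructor
    · rintro ⟨h3, h4⟩
      refine ⟨hu, fun y hy => ?_⟩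
      have := h4 y hy
      rw [F.b_inv_left hu hy, inv_eq_one] at this
      exact this
    · rintro ⟨h3, h4⟩
      refine ⟨K.inv_mem hu, fun y hy => ?_⟩
      rw [F.b_inv_left hu hy, h4 y hy, inv_one]
  simp only [h2]
  split_ifs
  · ring
  · ring

end sums

section oper
variable {G : Type u} [Group G] [Fintype G] {K L : Subgroup G} [hK : K.Normal] [hL : L.Normal] {m : ℕ}
  {f : G → ℂ} [Fintype K]

open Classical in
/-- size of the radical -/
noncomputable def rc (K : Subgroup G) (f : G → ℂ) [Fintype K] : ℕ :=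
  (Finset.univ.filter (fun u : K => Rad K f u)).card

theorem rc_pos (F : TwExt K L m f) : 0 < rc K f := by
  classical
  unfold rc
  apply Finset.card_pos.2
  refine ⟨1, Finset.mem_filter.2 ⟨Finset.mem_univ _, K.one_mem, fun y hy => ?_⟩⟩
  show f ⁅(1 : G), y⁆ = 1
  rw [commutatorElement_one_left, F.one]

/-- the operator `A` -/
noncomputable def opA (K : Subgroup G) [Fintype K] (f : G → ℂ) {V : Type} [AddCommGroup V]
    [Module ℂ V] (ρ : Representation ℂ G V) : V →ₗ[ℂ] V := ∑ k : K, f ((k : G)⁻¹) • ρ k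

variable (F : TwExt K L m f) {V : Type} [AddCommGroup V] [Module ℂ V] [FiniteDimensional ℂ V]
  (ρ : Representation ℂ G V)
include F

theorem opA_sq (hrad : ∀ u, Rad K f u → ρ u = f u • (1 : V →ₗ[ℂ] V)) :
    opA K f ρ * opA K f ρ = ((Nat.card K * rc K f : ℕ) : ℂ) • (1 : V →ₗ[ℂ] V) := by
  classical
  unfold opA
  rw [Finset.sum_mul]
  have h1 : ∀ x : K, (f (x : G)⁻¹ • ρ x) * ∑ k : K, f ((k : G)⁻¹) • ρ k =
      ∑ u : K, (f (x : G)⁻¹ * f ((u : G)⁻¹ * x)) • ρ u := by
    intro x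
    rw [Finset.mul_sum]
    refine Fintype.sum_equiv (Equiv.mulLeft x) _ _ (fun k => ?_)
    show _ = (f (x : G)⁻¹ * f (((x : G) * k)⁻¹ * x)) • ρ ((x : G) * k)
    rw [map_mul, smul_mul_smul_comm, mul_inv_rev, inv_mul_cancel_right]
  rw [Finset.sum_congr rfl fun x _ => h1 x, Finset.sum_comm]
  have h2 : ∀ u : K, ∑ x : K, (f (x : G)⁻¹ * f ((u : G)⁻¹ * x)) • ρ u =
      if Rad K f u then (Nat.card K : ℂ) • (1 : V →ₗ[ℂ] V) else 0 := by
    intro u
    rw [← Finset.sum_smul, sum_ff F u.2]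
    split_ifs with h
    · rw [hrad u h, smul_smul, F.inv' u.2, mul_assoc, inv_mul_cancel₀ (F.ne_zero u.2), mul_one]
    · rw [zero_smul]
  rw [Finset.sum_congr rfl fun u _ => h2 u, ← Finset.sum_filter, Finset.sum_const, rc]
  rw [← Nat.cast_smul_eq_nsmul ℂ, smul_smul]
  push_cast
  rw [mul_comm]

theorem opA_comm {h : G} (hh : ∀ x ∈ K, f (h * x * h⁻¹) = f x) :
    ρ h * opA K f ρ = opA K f ρ * ρ h := by
  unfold opA
  rw [Finset.sum_mul, Finset.mul_sum]
  refine Fintype.sum_equiv (MulAut.conjNormal h : MulAut K).toEquiv _ _ (fun k => ?_)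
  show _ = f (((MulAut.conjNormal h k : K) : G)⁻¹) • ρ ((MulAut.conjNormal h k : K) : G) * ρ h
  rw [MulAut.conjNormal_apply]
  have h1 : (h * (k : G) * h⁻¹)⁻¹ = h * (k : G)⁻¹ * h⁻¹ := by group
  rw [h1, hh _ (K.inv_mem k.2), mul_smul_comm, smul_mul_assoc, ← map_mul, ← map_mul]
  congr 2
  group

omit F in
theorem trace_opA (g : G) : LinearMap.trace ℂ V (ρ g * opA K f ρ) = D K f ρ.character g := by
  unfold opA D
  rw [Finset.mul_sum, map_sum]
  refine Finset.sum_congr rfl fun k _ => ?_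
  rw [mul_smul_comm, map_smul, smul_eq_mul, ← map_mul]
  rfl

end oper

section inner
variable {G : Type u} [Group G] [Fintype G] {K L : Subgroup G} [hK : K.Normal] [hL : L.Normal] {m : ℕ}
  {f : G → ℂ} [Fintype K]
variable (F : TwExt K L m f)
include F

/-- inner product over the whole group -/
theorem inner_D {η η' : G → ℂ} (hη : IsIrrCharacter G η) (hη' : IsIrrCharacter G η')
    (hrad : ∀ u, Rad K f u → η' u = η' 1 * f u) :
    classInner (D K f η) (D K f η') = classInner η η' * (Nat.card K * rc K f : ℕ) := by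
  classical
  have hG0 : (Nat.card G : ℂ) ≠ 0 := card_ne_zero'
  have h10 := irr_one_ne_zero hη'
  unfold classInner
  have h1 : ∀ k k' : K, ∑ g : G, η (g * k) * conj (η' (g * k')) =
      classInner η η' * (Nat.card G : ℂ) * η' ((k' : G)⁻¹ * k) / η' 1 := by
    intro k k'
    rw [← H77.Conv.sum_mul_irr (isClassFunction_of_isIrr hη) hη']
    refine Fintype.sum_equiv (Equiv.mulRight (k : G)) _ _ (fun g => ?_)
    show _ = η (g * k) * η' ((g * k)⁻¹ * ((k' : G)⁻¹ * k))
    congr 1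
    rw [← char_inv (isCharacter_of_isIrr hη')]
    have h2 := isClassFunction_of_isIrr hη' ((g * k)⁻¹ * ((k' : G)⁻¹ * k)) (k : G)
    rw [← h2]
    have h3 := isClassFunction_of_isIrr hη' ((k : G) * ((g * k)⁻¹ * ((k' : G)⁻¹ * k)) * (k : G)⁻¹) g
    rw [← h3]
    congr 1
    group
  calc (Nat.card G : ℂ)⁻¹ * ∑ g : G, D K f η g * conj (D K f η' g)
      = (Nat.card G : ℂ)⁻¹ * ∑ g : G, ∑ k' : K, ∑ k : K, f (k : G)⁻¹ * f (k' : G) *
          (η (g * k) * conj (η' (g * k'))) := by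
        congr 1
        refine Finset.sum_congr rfl fun g _ => ?_
        unfold D
        rw [map_sum, Finset.mul_sum]
        refine Finset.sum_congr rfl fun k' _ => ?_
        rw [Finset.sum_mul]
        refine Finset.sum_congr rfl fun k _ => ?_
        rw [map_mul, F.conj_eq (K.inv_mem k'.2), inv_inv]
        ring
    _ = (Nat.card G : ℂ)⁻¹ * ∑ k' : K, ∑ k : K, f (k : G)⁻¹ * f (k' : G) *
          (classInner η η' * (Nat.card G : ℂ) * η' ((k' : G)⁻¹ * k) / η' 1) := by
        congr 1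
        rw [Finset.sum_comm]
        refine Finset.sum_congr rfl fun k' _ => ?_
        rw [Finset.sum_comm]
        refine Finset.sum_congr rfl fun k _ => ?_
        rw [← Finset.mul_sum, h1]
    _ = (Nat.card G : ℂ)⁻¹ * ∑ k' : K, ∑ u : K, f (k' : G) * f ((u : G)⁻¹ * (k' : G)⁻¹) *
          (classInner η η' * (Nat.card G : ℂ) * η' u / η' 1) := by
        congr 1
        refine Finset.sum_congr rfl fun k' _ => ?_
        refine Fintype.sum_equiv (Equiv.mulLeft k'⁻¹) _ _ (fun k => ?_)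
        show _ = f (k' : G) * f (((k' : G)⁻¹ * (k : G))⁻¹ * (k' : G)⁻¹) *
          (classInner η η' * (Nat.card G : ℂ) * η' ((k' : G)⁻¹ * k) / η' 1)
        have h2 : ((k' : G)⁻¹ * (k : G))⁻¹ * (k' : G)⁻¹ = (k : G)⁻¹ := by group
        rw [h2]
        ring
    _ = (Nat.card G : ℂ)⁻¹ * ∑ u : K, (∑ x : K, f (x : G)⁻¹ * f ((u : G)⁻¹ * x)) *
          (classInner η η' * (Nat.card G : ℂ) * η' u / η' 1) := by
        congr 1
        rw [Finset.sum_comm]
        refine Finset.sum_congr rfl fun u _ => ?_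
        rw [Finset.sum_mul]
        refine Fintype.sum_equiv (Equiv.inv K) _ _ (fun k' => ?_)
        show _ = f (((k' : G)⁻¹)⁻¹) * f ((u : G)⁻¹ * (k' : G)⁻¹) *
          (classInner η η' * (Nat.card G : ℂ) * η' u / η' 1)
        rw [inv_inv]
    _ = (Nat.card G : ℂ)⁻¹ * ∑ u : K, (if Rad K f u then
          (Nat.card K : ℂ) * (classInner η η' * (Nat.card G : ℂ)) else 0) := by
        congr 1
        refine Finset.sum_congr rfl fun u _ => ?_
        rw [sum_ff F u.2]
        split_ifs with h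
        · rw [hrad u h, F.inv' u.2]
          have := F.ne_zero u.2
          field_simp
        · rw [zero_mul]
    _ = _ := by
        rw [← Finset.sum_filter, Finset.sum_const, nsmul_eq_mul, rc]
        unfold classInner
        push_cast
        field_simp

end inner

end H77.OddB
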