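import Cfsg.Agent.Lib.H77.OddB
import Cfsg.Agent.Lib.H79.Ovr

/-!
# The correspondence over an invariant linear character (helper77)
-/

set_option autoImplicit false
set_option linter.unusedSectionVars false
set_option linter.unusedVariables false
set_option linter.style.haveILetI false
open Cfsg H18 H18.CharBasic H18.CharOrtho H18.CharInd H18.CharQuot H31.Clifford
open H77.GlaubP H77.CopChain
open scoped ComplexConjugate commutatorElement

namespace H77.OddC

open H77.OddA H77.OddB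

universe u v

variable {G : Type u} [Group G] [Fintype G] {K L : Subgroup G} [hK : K.Normal] [hL : L.Normal] {m : ℕ}
  {f : G → ℂ} [Fintype K]

theorem inner_H (H : Subgroup G) [Fintype H] (F : TwExt K L m f) (hodd : Odd L.index)
    (hKH : K ⊔ H = ⊤) {η η' : G → ℂ} (hη : IsClassFunction G η) (hη' : IsClassFunction G η') :
    classInner (fun h : H => D K f η h) (fun h : H => D K f η' h) =
      classInner (D K f η) (D K f η') := by
  classical
  letI : Fintype (G ⧸ K) := Fintype.ofFinite _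
  set Φ : G → ℂ := fun g => D K f η g * conj (D K f η' g) with hΦ
  have hΦK : ∀ g k : G, k ∈ K → Φ (g * k) = Φ g := by
    intro g k hk
    obtain ⟨x, hx, l, hl, he⟩ := coset_form F hodd (g := g) hk
    rw [he]
    show D K f η (x * g * x * l) * conj (D K f η' (x * g * x * l)) = _
    rw [D_mulL F η hl, D_mulL F η' hl, D_sandwich F hη hx, D_sandwich F hη' hx]
    have h1 : ∀ {y : G}, y ∈ K → f y * conj (f y) = 1 := by
      intro y hy
      rw [F.conj_eq hy, F.inv' hy, mul_inv_cancel₀ (F.ne_zero hy)]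
    have h2 := h1 hx
    have h3 := h1 (F.le hl)
    simp only [map_mul, map_pow]
    calc f l * (f x ^ 2 * D K f η g) * (conj (f l) * (conj (f x) ^ 2 * conj (D K f η' g)))
        = (f l * conj (f l)) * (f x * conj (f x)) ^ 2 * (D K f η g * conj (D K f η' g)) := by ring
      _ = Φ g := by rw [h2, h3]; simp [hΦ]
  let Φq : G ⧸ K → ℂ := Quotient.lift Φ (by
    intro a b hab
    have h1 : a⁻¹ * b ∈ K := QuotientGroup.leftRel_apply.1 hab
    rw [← hΦK a _ h1, mul_inv_cancel_left])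
  have hΦq : ∀ g : G, Φq (QuotientGroup.mk' K g) = Φ g := fun g => rfl
  have h1 : classInner (fun g : G => Φq (QuotientGroup.mk' K g))
      (fun g : G => (1 : G ⧸ K → ℂ) (QuotientGroup.mk' K g)) = classInner Φq 1 :=
    H79.Ovr.inner_comp_surj (QuotientGroup.mk'_surjective K) Φq 1
  have hsurj : Function.Surjective ((QuotientGroup.mk' K).comp H.subtype) := by
    intro q
    obtain ⟨g, rfl⟩ := QuotientGroup.mk'_surjective K q
    have hg : g ∈ K ⊔ H := hKH ▸ Subgroup.mem_top g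
    rw [Subgroup.mem_sup_of_normal_left] at hg
    obtain ⟨k, hk, h, hh, rfl⟩ := hg
    refine ⟨⟨h, hh⟩, ?_⟩
    show QuotientGroup.mk' K h = QuotientGroup.mk' K (k * h)
    rw [map_mul, (QuotientGroup.eq_one_iff k).2 hk |> (show QuotientGroup.mk' K k = 1 from ·), one_mul]
  have h2 : classInner (fun h : H => Φq (((QuotientGroup.mk' K).comp H.subtype) h))
      (fun h : H => (1 : G ⧸ K → ℂ) (((QuotientGroup.mk' K).comp H.subtype) h)) = classInner Φq 1 :=
    H79.Ovr.inner_comp_surj hsurj Φq 1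
  rw [← h1] at h2
  unfold classInner at h2 ⊢
  simp only [Pi.one_apply, map_one, mul_one] at h2
  exact h2

/-- a family of integers with square sum one -/
theorem int_sq_sum {ι : Type*} [Fintype ι] [DecidableEq ι] {d : ι → ℤ} (h : ∑ i, d i ^ 2 = 1) :
    ∃ i₀, (d i₀ = 1 ∨ d i₀ = -1) ∧ ∀ i, i ≠ i₀ → d i = 0 := by
  have h1 : ∃ i₀, d i₀ ≠ 0 := by
    by_contra! hno
    rw [Finset.sum_eq_zero fun i _ => by rw [hno i]; norm_num] at h
    exact zero_ne_one h
  obtain ⟨i₀, hi₀⟩ := h1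
  have h2 : 1 ≤ d i₀ ^ 2 := by
    have := sq_pos_of_ne_zero (R := ℤ) hi₀
    omega
  rw [← Finset.add_sum_erase _ _ (Finset.mem_univ i₀)] at h
  have h3 : 0 ≤ ∑ i ∈ Finset.univ.erase i₀, d i ^ 2 := Finset.sum_nonneg fun i _ => sq_nonneg _
  have h4 : ∑ i ∈ Finset.univ.erase i₀, d i ^ 2 = 0 := by linarith
  have h5 : d i₀ ^ 2 = 1 := by linarith
  refine ⟨i₀, mul_self_eq_one_iff.1 (by rw [← pow_two]; exact h5), fun i hi => ?_⟩
  have h6 := (Finset.sum_eq_zero_iff_of_nonneg (fun i _ => sq_nonneg (d i))).1 h4 i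
      (Finset.mem_erase.2 ⟨hi, Finset.mem_univ _⟩)
  exact (pow_eq_zero_iff two_ne_zero).1 h6

/-- the normalising constant -/
noncomputable def cc (K : Subgroup G) (f : G → ℂ) [Fintype K] : ℂ :=
  ((Real.sqrt ((Nat.card K * rc K f : ℕ) : ℝ) : ℝ) : ℂ)

theorem cc_sq : cc K f * cc K f = ((Nat.card K * rc K f : ℕ) : ℂ) := by
  unfold cc
  rw [← Complex.ofReal_mul, Real.mul_self_sqrt (Nat.cast_nonneg _)]
  norm_cast

theorem cc_ne (F : TwExt K L m f) : cc K f ≠ 0 := by
  intro h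
  have h1 := cc_sq (K := K) (f := f)
  rw [h, zero_mul] at h1
  have h2 : Nat.card K * rc K f ≠ 0 := Nat.mul_ne_zero Nat.card_pos.ne' (rc_pos F).ne'
  exact h2 (by exact_mod_cast h1.symm)

theorem cc_conj : conj (cc K f) = cc K f := Complex.conj_ofReal _

section main
variable (H : Subgroup G) [Fintype H] (F : TwExt K L m f) (hodd : Odd L.index)
  (hKH : K ⊔ H = ⊤) (hfH : ∀ h ∈ H, ∀ x ∈ K, f (h * x * h⁻¹) = f x)
include F hodd hKH hfH

theorem exists_psi {η : G → ℂ} (hη : IsIrrCharacter G η)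
    (hμ : ∀ u, Rad K f u → η u = η 1 * f u) :
    ∃ ψ : IrrCharacter H, (∀ ψ' : IrrCharacter H,
      (∃ n : ℕ, Odd n ∧ classInner (fun h : H => η h) ψ'.1 = n) ↔ ψ' = ψ) ∧
      ∃ ε : ℂ, ε * ε = 1 ∧ ∀ h : H, D K f η h = ε * cc K f * ψ.1 h := by
  classical
  letI : Fintype (IrrCharacter H) := Fintype.ofFinite _
  have hηcl := isClassFunction_of_isIrr hη
  have hη2 := hη
  have hcc := cc_ne F
  obtain ⟨d, ρ, hρ, rfl⟩ := hη2
  have hd : (d : ℂ) ≠ 0 := by
    have h1 := irr_one_ne_zero hη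
    rw [Representation.char_one] at h1
    simpa using h1
  have hd1 : ρ.character 1 = d := by
    rw [Representation.char_one]; simp
  have hrad : ∀ u, Rad K f u → ρ u = f u • (1 : (Fin d → ℂ) →ₗ[ℂ] (Fin d → ℂ)) := by
    intro u hu
    have h1 := hμ u hu
    rw [hd1] at h1
    have h2 : ‖ρ.character u‖ = (Module.finrank ℂ (Fin d → ℂ) : ℝ) := by
      rw [h1, norm_mul, F.norm u hu.1, mul_one, Complex.norm_natCast]
      simp
    obtain ⟨ω, hω⟩ := (H4.Eigen.norm_char_eq_iff ρ u).1 h2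
    have h3 : ρ.character u = ω * d := by
      show LinearMap.trace ℂ _ (ρ u) = _
      rw [hω, map_smul, LinearMap.trace_id]
      simp
    have h4 : ω = f u := by
      rw [h3, mul_comm] at h1
      exact mul_left_cancel₀ hd h1
    rw [hω, h4]; rfl
  let z : (Fin d → ℂ) →ₗ[ℂ] (Fin d → ℂ) := (cc K f)⁻¹ • opA K f ρ
  have hz : z * z = 1 := by
    show ((cc K f)⁻¹ • opA K f ρ) * ((cc K f)⁻¹ • opA K f ρ) = 1
    rw [smul_mul_smul_comm, opA_sq F ρ hrad, smul_smul, ← cc_sq, ← mul_inv,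
      inv_mul_cancel₀ (mul_ne_zero hcc hcc), one_smul]
  let σ : Representation ℂ H (Fin d → ℂ) := ρ.comp H.subtype
  have hσz : ∀ h : H, σ h * z = z * σ h := by
    intro h
    show ρ h * ((cc K f)⁻¹ • opA K f ρ) = ((cc K f)⁻¹ • opA K f ρ) * ρ h
    rw [mul_smul_comm, smul_mul_assoc, opA_comm F ρ (hfH h h.2)]
  set δ : H → ℂ := fun h => LinearMap.trace ℂ _ (σ h * z) with hδ
  have hδD : ∀ h : H, δ h = (cc K f)⁻¹ * D K f ρ.character h := by
    intro h
    show LinearMap.trace ℂ _ (ρ h * ((cc K f)⁻¹ • opA K f ρ)) = _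
    rw [mul_smul_comm, map_smul, smul_eq_mul, trace_opA]
  have hδcl : IsClassFunction H δ := by
    intro g h
    show LinearMap.trace ℂ _ (σ (h * g * h⁻¹) * z) = LinearMap.trace ℂ _ (σ g * z)
    have h1 : σ (h * g * h⁻¹) = σ h * σ g * σ h⁻¹ := by rw [map_mul σ, map_mul σ]
    have h2 : σ h⁻¹ * σ h = 1 := by rw [← map_mul σ, inv_mul_cancel, map_one σ]
    rw [h1, mul_assoc (σ h * σ g), hσz, LinearMap.trace_mul_comm]
    rw [show z * σ h⁻¹ * (σ h * σ g) = z * ((σ h⁻¹ * σ h) * σ g) by simp only [mul_assoc], h2, one_mul,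
      LinearMap.trace_mul_comm]
  have hpar := fun β : IrrCharacter H => parity σ z hz hσz β.2
  choose a b hab hab' using hpar
  have hnorm : classInner δ δ = 1 := by
    have h1 : δ = (cc K f)⁻¹ • (fun h : H => D K f ρ.character h) := by
      funext h; rw [hδD]; rfl
    rw [h1, CharOrtho.inner_smul_left, CharOrtho.inner_smul_right, inner_H H F hodd hKH hηcl hηcl,
      inner_D F hη hη hμ, inner_irr_self hη, one_mul, ← cc_sq, map_inv₀, cc_conj]
    field_simp
  have hsum : ∑ β : IrrCharacter H, ((a β : ℤ) - b β) ^ 2 = 1 := by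
    have h1 := norm_eq_sum hδcl
    rw [hnorm] at h1
    have h2 : ∀ β : IrrCharacter H, ‖classInner δ β.1‖ ^ 2 = (((a β : ℤ) - b β) ^ 2 : ℤ) := by
      intro β
      have h3 : classInner δ β.1 = (((a β : ℤ) - b β : ℤ) : ℂ) := by
        rw [hδ]; push_cast; exact hab' β
      rw [h3, Complex.norm_intCast]
      push_cast
      rw [sq_abs]
    have h3 : (1 : ℝ) = ∑ β : IrrCharacter H, ‖classInner δ β.1‖ ^ 2 := by exact_mod_cast h1
    rw [Finset.sum_congr rfl fun β _ => h2 β] at h3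
    exact_mod_cast h3.symm
  obtain ⟨ψ, hψ1, hψ2⟩ := int_sq_sum hsum
  have hin : ∀ β : IrrCharacter H, classInner (fun h : H => ρ.character h) β.1 = ((a β + b β : ℕ) : ℂ) := by
    intro β
    push_cast
    exact hab β
  refine ⟨ψ, fun ψ' => ⟨?_, ?_⟩, ?_⟩
  · rintro ⟨n, hn, hn'⟩
    by_contra hne
    have h1 := hψ2 ψ' hne
    rw [hin] at hn'
    have h2 : a ψ' + b ψ' = n := by exact_mod_cast hn'
    have h3 : a ψ' = b ψ' := by omega
    rw [← h2, h3] at hn
    exact (Nat.not_odd_iff_even.2 ⟨_, rfl⟩) hn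
  · rintro rfl
    refine ⟨a ψ' + b ψ', ?_, hin ψ'⟩
    rw [Nat.odd_iff]
    rcases hψ1 with h | h <;> omega
  · refine ⟨(((a ψ : ℤ) - b ψ : ℤ) : ℂ), ?_, fun h => ?_⟩
    · rcases hψ1 with h | h <;> rw [h] <;> norm_num
    · have h1 := congrFun (mem_classFun_expand hδcl) h
      rw [Finset.sum_apply, Finset.sum_eq_single ψ] at h1
      · have h3 : classInner δ ψ.1 = (((a ψ : ℤ) - b ψ : ℤ) : ℂ) := by
          rw [hδ]; push_cast; exact hab' ψ
        rw [hδD, Pi.smul_apply, smul_eq_mul] at h1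
        have h4 : (cc K f)⁻¹ * D K f ρ.character h = classInner δ ψ.1 * ψ.1 h := h1
        rw [h3] at h4
        have h5 : D K f ρ.character h = cc K f * ((cc K f)⁻¹ * D K f ρ.character h) := by
          rw [mul_inv_cancel_left₀ hcc]
        rw [h5, h4]; ring
      · intro β _ hne
        have h3 : classInner δ β.1 = (((a β : ℤ) - b β : ℤ) : ℂ) := by
          rw [hδ]; push_cast; exact hab' β
        rw [Pi.smul_apply, smul_eq_mul]
        have h4 : classInner δ β.1 = 0 := by rw [h3, hψ2 β hne]; norm_num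
        have h5 : classInner δ (β : H → ℂ) = 0 := h4
        rw [h5, zero_mul]
      · intro h; exact absurd (Finset.mem_univ _) h

theorem psi_inj {η η' : G → ℂ} (hη : IsIrrCharacter G η) (hη' : IsIrrCharacter G η')
    (hμ : ∀ u, Rad K f u → η u = η 1 * f u) (hμ' : ∀ u, Rad K f u → η' u = η' 1 * f u)
    (ψ : IrrCharacter H) (h1 : ∃ n : ℕ, Odd n ∧ classInner (fun h : H => η h) ψ.1 = n)
    (h2 : ∃ n : ℕ, Odd n ∧ classInner (fun h : H => η' h) ψ.1 = n) : η = η' := by
  obtain ⟨ψ₁, ha, ε, hε, hb⟩ := exists_psi H F hodd hKH hfH hη hμ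
  obtain ⟨ψ₂, ha', ε', hε', hb'⟩ := exists_psi H F hodd hKH hfH hη' hμ'
  obtain rfl := (ha ψ).1 h1
  obtain rfl := (ha' ψ).1 h2
  by_contra hne
  have h3 := inner_H H F hodd hKH (isClassFunction_of_isIrr hη) (isClassFunction_of_isIrr hη')
  rw [inner_D F hη hη' hμ', inner_irr_ne hη hη' hne, zero_mul] at h3
  have h4 : (fun h : H => D K f η h) = (ε * cc K f) • ψ.1 := by
    funext h; rw [hb]; rfl
  have h5 : (fun h : H => D K f η' h) = (ε' * cc K f) • ψ.1 := by
    funext h; rw [hb']; rfl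
  rw [h4, h5, CharOrtho.inner_smul_left, CharOrtho.inner_smul_right, inner_irr_self ψ.2, mul_one] at h3
  have hcc := cc_ne F
  have hε0 : ε ≠ 0 := by rintro rfl; simp at hε
  have hε'0 : ε' ≠ 0 := by rintro rfl; simp at hε'
  rcases mul_eq_zero.1 h3 with h6 | h6
  · exact (mul_ne_zero hε0 hcc) h6
  · rw [map_eq_zero] at h6
    exact (mul_ne_zero hε'0 hcc) h6

end main

end H77.OddC
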