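import Cfsg.Agent.Lib.H77.OddC
import Cfsg.Agent.Lib.H19.CharExt

/-!
# The correspondence over an invariant linear character: surjectivity (helper77)
-/

set_option autoImplicit false
set_option linter.unusedSectionVars false
set_option linter.unusedVariables false
set_option linter.style.haveILetI false
open Cfsg H18 H18.CharBasic H18.CharOrtho H18.CharInd H18.CharQuot H31.Clifford
open H77.GlaubP H77.CopChain
open scoped ComplexConjugate commutatorElement

namespace H77.OddD

open H77.OddA H77.OddB H77.OddC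

universe u v

variable {G : Type u} [Group G] {K L : Subgroup G} [hK : K.Normal] [hL : L.Normal] {m : ℕ}
  {f : G → ℂ}

/-- the radical as a subgroup -/
def radSub (F : TwExt K L m f) : Subgroup G where
  carrier := {u | Rad K f u}
  one_mem' := ⟨K.one_mem, fun y hy => by rw [commutatorElement_one_left, F.one]⟩
  mul_mem' := by
    rintro a b ⟨ha, ha'⟩ ⟨hb, hb'⟩
    refine ⟨K.mul_mem ha hb, fun y hy => ?_⟩
    rw [F.b_mul_left ha hb hy, ha' y hy, hb' y hy, one_mul]
  inv_mem' := by
    rintro a ⟨ha, ha'⟩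
    refine ⟨K.inv_mem ha, fun y hy => ?_⟩
    rw [F.b_inv_left ha hy, ha' y hy, inv_one]

variable (F : TwExt K L m f)

theorem mem_radSub {u : G} : u ∈ radSub F ↔ Rad K f u := Iff.rfl

theorem rad_conj {u : G} (hu : Rad K f u) (F : TwExt K L m f) (g : G) : Rad K f (g * u * g⁻¹) := by
  refine ⟨hK.conj_mem u hu.1 g, fun y hy => ?_⟩
  have h1 : y = g * (g⁻¹ * y * g) * g⁻¹ := by group
  have h2 : g⁻¹ * y * g ∈ K := by
    have := hK.conj_mem y hy g⁻¹
    simpa using this
  rw [h1, F.b_conj g hu.1 h2]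
  exact hu.2 _ h2

instance radSub_normal : (radSub F).Normal := ⟨fun u hu g => rad_conj hu F g⟩

theorem le_radSub : L ≤ radSub F := by
  intro l hl
  refine ⟨F.le hl, fun y hy => ?_⟩
  rw [F.b_swap hy (F.le hl), F.b_L hy hl, inv_one]

theorem radSub_le : radSub F ≤ K := fun u hu => hu.1

theorem mul_rad {u v : G} (hu : u ∈ radSub F) (hv : v ∈ K) : f (u * v) = f u * f v := by
  rw [F.mul' hu.1 hv, hu.2 v hv, one_pow, inv_one, mul_one]

/-- the linear character of the radical -/
noncomputable def radHom : radSub F →* ℂˣ where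
  toFun u := Units.mk0 (f u) (F.ne_zero u.2.1)
  map_one' := Units.ext F.one
  map_mul' a b := Units.ext (mul_rad F a.2 b.2.1)

theorem radHom_coe (u : radSub F) : ((radHom F u : ℂˣ) : ℂ) = f u := rfl

theorem inv_rad (H : Subgroup G) (hKH : K ⊔ H = ⊤) (hfH : ∀ h ∈ H, ∀ x ∈ K, f (h * x * h⁻¹) = f x)
    (g : G) {u : G} (hu : u ∈ radSub F) : f (g * u * g⁻¹) = f u := by
  have hg : g ∈ K ⊔ H := hKH ▸ Subgroup.mem_top g
  rw [Subgroup.mem_sup_of_normal_left] at hg
  obtain ⟨k, hk, h, hh, rfl⟩ := hg
  have h1 : k * h * u * (k * h)⁻¹ = k * (h * u * h⁻¹) * k⁻¹ := by group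
  rw [h1]
  have h2 : h * u * h⁻¹ ∈ radSub F := rad_conj hu F h
  have h3 : k * (h * u * h⁻¹) * k⁻¹ = ⁅k, h * u * h⁻¹⁆ * (h * u * h⁻¹) := by
    rw [commutatorElement_def]; group
  rw [h3, mul_rad F (le_radSub F (F.com k hk _ h2.1)) h2.1, F.b_swap h2.1 hk, h2.2 k hk, inv_one,
    one_mul, hfH h hh u hu.1]

variable [Fintype G] [Fintype K]

include F in
theorem exists_eta (H : Subgroup G) [Fintype H] (hodd : Odd L.index)
    (hKH : K ⊔ H = ⊤) (hfH : ∀ h ∈ H, ∀ x ∈ K, f (h * x * h⁻¹) = f x) (hLH : L ≤ H)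
    (hKHL : K ⊓ H ≤ L) {ψ : H → ℂ} (hψ : IsIrrCharacter H ψ)
    (hψL : ∀ l : G, ∀ hl : l ∈ L, ψ ⟨l, hLH hl⟩ = ψ 1 * f l) :
    ∃ η : IrrCharacter G, (∀ u, Rad K f u → η.1 u = η.1 1 * f u) ∧
      ∃ n : ℕ, Odd n ∧ classInner (fun h : H => η.1 h) ψ = n := by
  classical
  letI : Fintype (IrrCharacter G) := Fintype.ofFinite _
  set Z := radSub F with hZ
  letI : Fintype Z := Fintype.ofFinite _
  letI : Fintype L := Fintype.ofFinite _
  set μ : Z → ℂ := fun u => (radHom F u : ℂ) with hμ
  have hμirr : IsIrrCharacter Z μ := isIrrCharacter_of_hom _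
  have hμinv : inertia Z μ = ⊤ := by
    rw [eq_top_iff]
    intro g _
    rw [mem_inertia_iff]
    intro u
    exact inv_rad F H hKH hfH g u.2
  have hover : ∀ η : IrrCharacter G, classInner (fun u : Z => η.1 u) μ ≠ 0 →
      (∀ u, Rad K f u → η.1 u = η.1 1 * f u) := by
    intro η hη u hu
    have h1 := H77.OverInv.restrict_of_inv Z η.2 hμirr hμinv hη
    have h2 := congrFun h1 ⟨u, hu⟩
    have h3 := congrFun h1 1
    simp only [Pi.smul_apply, smul_eq_mul] at h2 h3
    have h4 : μ 1 = 1 := F.one
    rw [h4, mul_one] at h3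
    have h5 : η.1 1 = classInner (fun u : Z => η.1 u) μ := h3
    rw [h5]; exact h2
  -- the sum
  have hcard1 : Nat.card L * K.index = Nat.card H := by
    have h1 : K.relIndex (H ⊔ K) = K.relIndex H := Subgroup.relIndex_sup_right _ _
    rw [sup_comm, hKH, Subgroup.relIndex_top_right] at h1
    have h2 : K.relIndex H = L.relIndex H := by
      rw [← Subgroup.inf_relIndex_right, le_antisymm hKHL (le_inf F.le hLH)]
    rw [h1, h2]
    have := Subgroup.card_mul_index (L.subgroupOf H)
    rw [← Nat.card_congr (Subgroup.subgroupOfEquivOfLe hLH).toEquiv]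
    exact this
  have hcard2 : H.index * Nat.card L = Nat.card K := by
    have h1 : Nat.card K * K.index = Nat.card G := K.card_mul_index
    have h2 : Nat.card H * H.index = Nat.card G := H.card_mul_index
    have h3 : K.index ≠ 0 := Subgroup.index_ne_zero_of_finite
    apply Nat.eq_of_mul_eq_mul_right (Nat.pos_of_ne_zero h3)
    rw [h1, ← h2, ← hcard1]; ring
  have hψc := isCharacter_of_isIrr hψ
  have hindc := isCharacter_ind H hψc
  obtain ⟨d, hd0, hd⟩ := exists_degree_pos hψ
  have hindZ : ∀ z : Z, indFun H ψ z = if (z : G) ∈ L then (H.index : ℂ) * (d * f z) else 0 := by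
    intro z
    rw [indFun_apply']
    have hH0 : (Nat.card H : ℂ) ≠ 0 := card_ne_zero'
    split_ifs with hz
    · have h1 : ∀ x : G, extendByZero H ψ (x * z * x⁻¹) = d * f z := by
        intro x
        have h2 : x * (z : G) * x⁻¹ ∈ L := hL.conj_mem _ hz x
        rw [ext_mem H ψ (hLH h2), hψL _ h2, hd, F.inv x _ hz]
      rw [Finset.sum_congr rfl fun x _ => h1 x, Finset.sum_const, Finset.card_univ, nsmul_eq_mul]
      have h3 : (Fintype.card G : ℂ) = Nat.card H * H.index := by
        rw [← Nat.card_eq_fintype_card]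
        exact_mod_cast (H.card_mul_index).symm
      rw [h3]
      field_simp
    · rw [Finset.sum_eq_zero, mul_zero]
      intro x _
      apply ext_notMem
      intro h1
      apply hz
      have h2 : x * (z : G) * x⁻¹ ∈ L := hKHL ⟨hK.conj_mem _ (radSub_le F z.2) x, h1⟩
      have h3 := hL.conj_mem _ h2 x⁻¹
      have h4 : x⁻¹ * (x * (z : G) * x⁻¹) * x⁻¹⁻¹ = z := by group
      rwa [h4] at h3
  have hinner : classInner (fun z : Z => indFun H ψ z) μ = ((Z.relIndex K * d : ℕ) : ℂ) := by
    unfold classInner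
    have h1 : ∀ z : Z, indFun H ψ z * conj (μ z) = if (z : G) ∈ L then (H.index : ℂ) * d else 0 := by
      intro z
      rw [hindZ]
      split_ifs with hz
      · have h2 : f z * conj (f z) = 1 := by
          rw [F.conj_eq z.2.1, F.inv' z.2.1, mul_inv_cancel₀ (F.ne_zero z.2.1)]
        show (H.index : ℂ) * (d * f z) * conj (f z) = _
        calc (H.index : ℂ) * (d * f z) * conj (f z) = (H.index : ℂ) * d * (f z * conj (f z)) := by ring
          _ = _ := by rw [h2, mul_one]
      · rw [zero_mul]
    rw [Finset.sum_congr rfl fun z _ => h1 z, ← Finset.sum_filter, Finset.sum_const, nsmul_eq_mul]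
    have h2 : (Finset.univ.filter (fun z : Z => (z : G) ∈ L)).card = Nat.card L := by
      rw [← Fintype.card_subtype, ← Nat.card_eq_fintype_card]
      exact Nat.card_congr (Subgroup.subgroupOfEquivOfLe (le_radSub F)).toEquiv
    rw [h2]
    have h3 : Nat.card Z * Z.relIndex K = Nat.card K := by
      have := Subgroup.card_mul_index (Z.subgroupOf K)
      rw [← Nat.card_congr (Subgroup.subgroupOfEquivOfLe (radSub_le F)).toEquiv]
      exact this
    have h4 : (Nat.card Z : ℂ) ≠ 0 := card_ne_zero'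
    rw [inv_mul_eq_iff_eq_mul₀ h4]
    have h5 : Nat.card L * (H.index * d) = Nat.card Z * (Z.relIndex K * d) := by
      calc Nat.card L * (H.index * d) = (H.index * Nat.card L) * d := by ring
        _ = (Nat.card Z * Z.relIndex K) * d := by rw [hcard2, h3]
        _ = _ := by ring
    exact_mod_cast h5
  -- oddness
  have hoddd : Odd d := by
    set LH := L.subgroupOf H with hLHdef
    letI : Fintype LH := Fintype.ofFinite _
    let ϑ : LH →* ℂˣ := (radHom F).comp
      ((Subgroup.inclusion (le_radSub F)).comp (Subgroup.subgroupOfEquivOfLe hLH).toMonoidHom)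
    have hϑ : ∀ x : LH, ((ϑ x : ℂˣ) : ℂ) = f ((x : H) : G) := fun x => rfl
    have h1 : (fun n : LH => ψ n) = (d : ℂ) • (fun x : LH => (ϑ x : ℂ)) := by
      funext n
      rw [Pi.smul_apply, smul_eq_mul, hϑ]
      have := hψL ((n : H) : G) n.2
      rw [hd] at this
      exact this
    have h2 := H19.CharExt.dvd_of_invariant (N := LH) hψ (isIrrCharacter_of_hom ϑ) (by
        rw [h1, CharOrtho.inner_smul_left, inner_irr_self (isIrrCharacter_of_hom ϑ), mul_one]
        exact_mod_cast hd0.ne') (by
        intro g n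
        rw [hϑ, hϑ]
        exact F.inv (g : G) _ n.2) d h1
    have h3 : LH.index ∣ L.index := Subgroup.relIndex_dvd_index_of_normal L H
    exact Odd.of_dvd_nat hodd (h2.trans h3)
  have hoddZ : Odd (Z.relIndex K) := by
    have h1 : Z.relIndex K ∣ L.relIndex K := Subgroup.relIndex_dvd_of_le_left K (le_radSub F)
    exact Odd.of_dvd_nat hodd (h1.trans (Subgroup.relIndex_dvd_index_of_normal L K))
  -- expansion
  have hexp : classInner (fun z : Z => indFun H ψ z) μ =
      ∑ η : IrrCharacter G, classInner (indFun H ψ) η.1 * classInner (fun u : Z => η.1 u) μ := by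
    have h1 := mem_classFun_expand (isClassFunction_of_isCharacter hindc)
    have h2 : (fun z : Z => indFun H ψ z) =
        ∑ η : IrrCharacter G, classInner (indFun H ψ) η.1 • (fun u : Z => η.1 u) := by
      funext z
      conv_lhs => rw [h1]
      rw [Finset.sum_apply, Finset.sum_apply]
      rfl
    rw [h2, inner_sum_left]
    refine Finset.sum_congr rfl fun η _ => ?_
    rw [CharOrtho.inner_smul_left]
  have hnat : ∀ η : IrrCharacter G, ∃ a b : ℕ, classInner (indFun H ψ) η.1 = a ∧
      classInner (fun u : Z => η.1 u) μ = b := by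
    intro η
    obtain ⟨a, ha⟩ := inner_char_natCast hindc (isCharacter_of_isIrr η.2)
    obtain ⟨b, hb⟩ := inner_char_natCast (isCharacter_restrict Z (isCharacter_of_isIrr η.2))
      (isCharacter_of_isIrr hμirr)
    exact ⟨a, b, ha, hb⟩
  choose a b ha hb using hnat
  have hsum : Z.relIndex K * d = ∑ η : IrrCharacter G, a η * b η := by
    rw [hinner] at hexp
    have : ((Z.relIndex K * d : ℕ) : ℂ) = ((∑ η : IrrCharacter G, a η * b η : ℕ) : ℂ) := by
      rw [hexp]; push_cast
      refine Finset.sum_congr rfl fun η _ => ?_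
      rw [ha, hb]
    exact_mod_cast this
  have hex : ∃ η : IrrCharacter G, Odd (a η * b η) := by
    by_contra! hno
    have h1 : Even (∑ η : IrrCharacter G, a η * b η) :=
      Finset.even_sum _ fun η _ => Nat.not_odd_iff_even.1 (hno η)
    rw [← hsum] at h1
    exact (Nat.not_even_iff_odd.2 (hoddZ.mul hoddd)) h1
  obtain ⟨η, hη⟩ := hex
  rw [Nat.odd_mul] at hη
  refine ⟨η, hover η ?_, a η, hη.1, ?_⟩
  · rw [hb]
    intro h
    have : b η = 0 := by exact_mod_cast h
    rw [this] at hη
    exact absurd hη.2 (by decide)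
  · rw [← ha, frobenius H ψ (isClassFunction_of_isIrr η.2)]
    exact classInner_comm (isCharacter_restrict H (isCharacter_of_isIrr η.2)) hψc

end H77.OddD
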