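import Cfsg.Agent.Lib.H77.OddD
import Cfsg.Agent.Lib.H65.Baer

/-!
# Existence of invariant twisted extensions (helper77)
-/

set_option autoImplicit false
set_option linter.unusedSectionVars false
set_option linter.unusedVariables false
set_option linter.style.haveILetI false
open Cfsg H18 H18.CharBasic H18.CharOrtho H18.CharInd H18.CharQuot H31.Clifford
open H77.GlaubP H77.CopChain
open scoped ComplexConjugate commutatorElement

namespace H77.OddE

open H77.OddA H77.OddB H77.OddC H77.OddD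

universe u v

/-- extending linear characters along a homomorphism to a finite abelian group -/
theorem ext_lemma {X A : Type u} [Group X] [CommGroup A] [Finite A] (i : X →* A) (a : X →* ℂˣ)
    (h : ∀ x, i x = 1 → a x = 1) : ∃ Λ : A →* ℂˣ, ∀ x, Λ (i x) = a x := by
  let b : i.range →* ℂˣ :=
    { toFun := fun y => a y.2.choose
      map_one' := h _ (by
        have := (⟨1, i.range.one_mem⟩ : i.range).2.choose_spec
        exact this)
      map_mul' := fun y z => by
        rw [← map_mul]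
        have h1 := (y * z).2.choose_spec
        have h2 := y.2.choose_spec
        have h3 := z.2.choose_spec
        have h4 : a ((y * z).2.choose * (y.2.choose * z.2.choose)⁻¹) = 1 := by
          apply h
          rw [map_mul, map_inv, map_mul, h1, h2, h3]
          show ((y : A) * z) * ((y : A) * z)⁻¹ = 1
          rw [mul_inv_cancel]
        rw [map_mul, map_inv] at h4
        exact mul_inv_eq_one.1 h4 }
  obtain ⟨Λ, hΛ⟩ := exists_hom_extension i.range b
  refine ⟨Λ, fun x => ?_⟩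
  have h1 := hΛ ⟨i x, ⟨x, rfl⟩⟩
  have h2 : (⟨i x, ⟨x, rfl⟩⟩ : i.range).2.choose_spec = (⟨i x, ⟨x, rfl⟩⟩ : i.range).2.choose_spec := rfl
  have h3 : i (⟨i x, ⟨x, rfl⟩⟩ : i.range).2.choose = i x := (⟨i x, ⟨x, rfl⟩⟩ : i.range).2.choose_spec
  rw [h1]
  show a (⟨i x, ⟨x, rfl⟩⟩ : i.range).2.choose = a x
  have h4 : a ((⟨i x, ⟨x, rfl⟩⟩ : i.range).2.choose * x⁻¹) = 1 := by
    apply h
    rw [map_mul, map_inv, h3, mul_inv_cancel]
  rw [map_mul, map_inv] at h4
  exact mul_inv_eq_one.1 h4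

variable {G : Type u} [Group G] {S : Type v} [Group S]

/-- the coprime configuration -/
structure Setup (φ : S →* MulAut G) (K L H : Subgroup G) : Prop where
  le : L ≤ K
  leH : L ≤ H
  com : ∀ x ∈ K, ∀ y ∈ K, ⁅x, y⁆ ∈ L
  invK : ∀ s, ∀ k ∈ K, φ s k ∈ K
  invL : ∀ s, ∀ k ∈ L, φ s k ∈ L
  cop : (Nat.card S).Coprime L.index
  odd : Odd L.index
  sup : K ⊔ H = ⊤
  cen : ∀ h ∈ H, ∀ s, φ s h * h⁻¹ ∈ L
  HK : ∀ a : K →* ℂˣ, (∀ l : K, (l : G) ∈ L → a l = 1) →
    (∀ s k, a (restrAct φ K invK s k) = a k) → a = 1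

/-- values of finite order -/
theorem coprime_pow_eq_one {c : ℂˣ} {a b : ℕ} (h : a.Coprime b) (ha : c ^ a = 1) (hb : c ^ b = 1) :
    c = 1 := by
  have h1 := Nat.dvd_gcd (orderOf_dvd_of_pow_eq_one ha) (orderOf_dvd_of_pow_eq_one hb)
  rw [h.gcd_eq_one, Nat.dvd_one] at h1
  exact orderOf_eq_one_iff.1 h1

section setup
variable [Finite G] {φ : S →* MulAut G} {K L H : Subgroup G} [hK : K.Normal] [hL : L.Normal]
  (U : Setup φ K L H)
include U

theorem pow_L (k : K) (a : K →* ℂˣ) (ha : ∀ l : K, (l : G) ∈ L → a l = 1) : a k ^ L.index = 1 := by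
  rw [← map_pow]
  apply ha
  exact Subgroup.pow_index_mem L (k : G)

/-- invariant linear characters of an intermediate group, extended -/
theorem ext_K (K' : Subgroup G) (hLK' : L ≤ K') (hK'K : K' ≤ K) (a : K' →* ℂˣ)
    (ha : ∀ l : K', (l : G) ∈ L → a l = 1) :
    ∃ b : K →* ℂˣ, (∀ x : K', b (Subgroup.inclusion hK'K x) = a x) := by
  classical
  set LK := L.subgroupOf K with hLK
  have hcomm : ∀ a b : K ⧸ LK, a * b = b * a := by
    intro a b
    obtain ⟨a, rfl⟩ := QuotientGroup.mk_surjective a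
    obtain ⟨b, rfl⟩ := QuotientGroup.mk_surjective b
    rw [← QuotientGroup.mk_mul, ← QuotientGroup.mk_mul, QuotientGroup.eq]
    rw [Subgroup.mem_subgroupOf]
    have h1 := U.com (b : G)⁻¹ (K.inv_mem b.2) (a : G)⁻¹ (K.inv_mem a.2)
    have h2 : (((a * b)⁻¹ * (b * a) : K) : G) = ⁅(b : G)⁻¹, (a : G)⁻¹⁆ := by
      simp only [commutatorElement_def]
      push_cast
      group
    rw [h2]; exact h1
  letI : CommGroup (K ⧸ LK) := { (inferInstance : Group (K ⧸ LK)) with mul_comm := hcomm }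
  obtain ⟨Λ, hΛ⟩ := ext_lemma ((QuotientGroup.mk' LK).comp (Subgroup.inclusion hK'K)) a (by
    intro x hx
    apply ha
    have h1 : (Subgroup.inclusion hK'K x : K) ∈ LK := (QuotientGroup.eq_one_iff _).1 hx
    exact h1)
  exact ⟨Λ.comp (QuotientGroup.mk' LK), fun x => hΛ x⟩

/-- averaging -/
theorem avg [Finite S] (a : K →* ℂˣ) (ha : ∀ l : K, (l : G) ∈ L → a l = 1) (k : K)
    (hk : ∀ s, a (restrAct φ K U.invK s k) = a k) : a k = 1 := by
  classical
  letI := Fintype.ofFinite S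
  let b : K →* ℂˣ := ∏ s : S, a.comp ((restrAct φ K U.invK s : MulAut K) : K →* K)
  have hb : ∀ x, b x = ∏ s : S, a (restrAct φ K U.invK s x) := by
    intro x
    show (∏ s : S, a.comp ((restrAct φ K U.invK s : MulAut K) : K →* K)) x = _
    rw [MonoidHom.finsetProd_apply]; rfl
  have hb1 : b = 1 := by
    apply U.HK
    · intro l hl
      rw [hb]
      exact Finset.prod_eq_one fun s _ => ha _ (U.invL s _ hl)
    · intro t x
      rw [hb, hb]
      refine Fintype.prod_equiv (Equiv.mulRight t) _ _ (fun s => ?_)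
      show _ = a (restrAct φ K U.invK (s * t) x)
      rw [map_mul]; rfl
  have h1 : b k = 1 := by rw [hb1]; rfl
  rw [hb, Finset.prod_congr rfl fun s _ => hk s, Finset.prod_const, Finset.card_univ,
    ← Nat.card_eq_fintype_card] at h1
  exact coprime_pow_eq_one U.cop h1 (pow_L U k a ha)

theorem fix [Finite S] (K' : Subgroup G) (hLK' : L ≤ K') (hK'K : K' ≤ K) (hK' : ∀ s, ∀ k ∈ K', φ s k ∈ K')
    {k : G} (hk : k ∈ K) (hf : ∀ s, φ s k * k⁻¹ ∈ K') : k ∈ K' := by
  classical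
  by_contra hno
  set KK := K'.subgroupOf K with hKK
  haveI hn : KK.Normal := by
    constructor
    intro x hx g
    rw [Subgroup.mem_subgroupOf] at hx ⊢
    have h1 : ((g * x * g⁻¹ : K) : G) = ⁅(g : G), (x : G)⁆ * x := by
      rw [commutatorElement_def]; push_cast; group
    rw [h1]
    exact K'.mul_mem (hLK' (U.com _ g.2 _ x.2)) hx
  have hcomm : commutator (K ⧸ KK) = ⊥ := by
    rw [commutator_def, Subgroup.commutator_eq_bot_iff_le_centralizer]
    intro a _
    rw [Subgroup.mem_centralizer_iff]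
    intro b _
    obtain ⟨a, rfl⟩ := QuotientGroup.mk_surjective a
    obtain ⟨b, rfl⟩ := QuotientGroup.mk_surjective b
    rw [← QuotientGroup.mk_mul, ← QuotientGroup.mk_mul, QuotientGroup.eq]
    rw [Subgroup.mem_subgroupOf]
    have h1 := U.com (a : G)⁻¹ (K.inv_mem a.2) (b : G)⁻¹ (K.inv_mem b.2)
    have h2 : (((b * a)⁻¹ * (a * b) : K) : G) = ⁅(a : G)⁻¹, (b : G)⁻¹⁆ := by
      simp only [commutatorElement_def]
      push_cast
      group
    rw [h2]; exact hLK' h1
  have h1 : ((⟨k, hk⟩ : K) : K ⧸ KK) ∉ commutator (K ⧸ KK) := by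
    rw [hcomm, Subgroup.mem_bot, QuotientGroup.eq_one_iff]
    exact hno
  obtain ⟨c, hc⟩ := exists_hom_ne_one h1
  apply hc
  let a : K →* ℂˣ := c.comp (QuotientGroup.mk' KK)
  have haK : ∀ x : K, (x : G) ∈ K' → a x = 1 := by
    intro x hx
    show c (x : K ⧸ KK) = 1
    rw [(QuotientGroup.eq_one_iff x).2 hx, map_one]
  refine avg U a (fun l hl => haK l (hLK' hl)) ⟨k, hk⟩ (fun s => ?_)
  have h2 : restrAct φ K U.invK s ⟨k, hk⟩ =
      (⟨φ s k * k⁻¹, K.mul_mem (U.invK s k hk) (K.inv_mem hk)⟩ : K) * ⟨k, hk⟩ := by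
    apply Subtype.ext
    show φ s k = φ s k * k⁻¹ * k
    rw [inv_mul_cancel_right]
  rw [h2, map_mul, haK _ (hf s), one_mul]

/-- `HK` for intermediate groups -/
theorem HK_sub [Finite S] (K' : Subgroup G) (hLK' : L ≤ K') (hK'K : K' ≤ K)
    (hK' : ∀ s, ∀ k ∈ K', φ s k ∈ K') (a : K' →* ℂˣ) (ha : ∀ l : K', (l : G) ∈ L → a l = 1)
    (hinv : ∀ s k, a (restrAct φ K' hK' s k) = a k) : a = 1 := by
  obtain ⟨b, hb⟩ := ext_K U K' hLK' hK'K a ha
  ext x
  congr 1
  rw [← hb]
  refine avg U b (fun l hl => ?_) _ (fun s => ?_)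
  · have h1 : b l = b (Subgroup.inclusion hK'K ⟨(l : G), hLK' hl⟩) := rfl
    rw [h1, hb]
    exact ha _ hl
  · have h1 : restrAct φ K U.invK s (Subgroup.inclusion hK'K x) =
        Subgroup.inclusion hK'K (restrAct φ K' hK' s x) := rfl
    rw [h1, hb, hb, hinv]

theorem inf_le [Finite S] : K ⊓ H ≤ L := by
  rintro x ⟨hx, hx'⟩
  exact fix U L le_rfl U.le U.invL hx (U.cen x hx')

end setup

end H77.OddE
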