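import Cfsg.Agent.Lib.H77.OddE

/-!
# Existence of invariant twisted extensions, II (helper77)
-/

set_option autoImplicit false
set_option linter.unusedSectionVars false
set_option linter.unusedVariables false
set_option linter.style.haveILetI false
open Cfsg H18 H18.CharBasic H18.CharOrtho H18.CharInd H18.CharQuot H31.Clifford
open H77.GlaubP H77.CopChain
open scoped ComplexConjugate commutatorElement

namespace H77.OddF

open H77.OddA H77.OddB H77.OddC H77.OddD H77.OddE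

universe u v

variable {G : Type u} [Group G]

section f0
variable [Finite G] {K L : Subgroup G} [hK : K.Normal] [hL : L.Normal]

theorem exists_f0 (hle : L ≤ K) (hcom : ∀ x ∈ K, ∀ y ∈ K, ⁅x, y⁆ ∈ L) (m : ℕ) (hm : 2 * m + 1 = L.index)
    (lam : L →* ℂˣ) (hinv : ∀ (g : G) (l : L), lam ⟨g * l * g⁻¹, hL.conj_mem l l.2 g⟩ = lam l) :
    ∃ f : G → ℂ, TwExt K L m f ∧ ∀ l : L, f l = lam l := by
  classical
  have hinv' : ∀ (g l : G) (hl : l ∈ L), lam ⟨g * l * g⁻¹, hL.conj_mem l hl g⟩ = lam ⟨l, hl⟩ :=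
    fun g l hl => hinv g ⟨l, hl⟩
  have hlm : ∀ (a b : G) (ha : a ∈ L) (hb : b ∈ L) (hab : a * b ∈ L),
      lam ⟨a * b, hab⟩ = lam ⟨a, ha⟩ * lam ⟨b, hb⟩ := fun a b ha hb hab => by
    rw [← map_mul]; rfl
  have hli : ∀ (a : G) (ha : a ∈ L) (ha' : a⁻¹ ∈ L), lam ⟨a⁻¹, ha'⟩ = (lam ⟨a, ha⟩)⁻¹ :=
    fun a ha ha' => by rw [← map_inv]; rfl
  have hcast : ∀ {a b : G} (h : a = b) (ha : a ∈ L) (hb : b ∈ L), lam ⟨a, ha⟩ = lam ⟨b, hb⟩ := by
    intro a b h ha hb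
    congr 1
    exact Subtype.ext h
  -- the kernel
  let NK : Subgroup K :=
    { carrier := {x | ∃ h : (x : G) ∈ L, lam ⟨x, h⟩ = 1}
      one_mem' := ⟨L.one_mem, map_one lam⟩
      mul_mem' := by
        rintro a b ⟨ha, ha'⟩ ⟨hb, hb'⟩
        refine ⟨L.mul_mem ha hb, ?_⟩
        have := hlm _ _ ha hb (L.mul_mem ha hb)
        rw [ha', hb', one_mul] at this
        exact this
      inv_mem' := by
        rintro a ⟨ha, ha'⟩
        refine ⟨L.inv_mem ha, ?_⟩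
        have := hli _ ha (L.inv_mem ha)
        rw [ha', inv_one] at this
        exact this }
  have hNK : ∀ x : K, x ∈ NK ↔ ∃ h : (x : G) ∈ L, lam ⟨x, h⟩ = 1 := fun x => Iff.rfl
  haveI : NK.Normal := by
    constructor
    rintro x ⟨hx, hx'⟩ g
    exact ⟨hL.conj_mem _ hx g, (hinv' _ _ hx).trans hx'⟩
  -- central elements of the quotient
  have hcenL : ∀ l : K, (l : G) ∈ L → ∀ z : K, (z : K ⧸ NK) * (l : K ⧸ NK) = (l : K ⧸ NK) * z := by
    intro l hl z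
    rw [← QuotientGroup.mk_mul, ← QuotientGroup.mk_mul, QuotientGroup.eq, hNK]
    have h1 : ((((z * l)⁻¹ * (l * z) : K)) : G) = (l : G)⁻¹ * ((z : G)⁻¹ * l * (z : G)⁻¹⁻¹) := by
      push_cast; group
    have h2 : (z : G)⁻¹ * l * (z : G)⁻¹⁻¹ ∈ L := hL.conj_mem _ hl _
    refine ⟨h1 ▸ L.mul_mem (L.inv_mem hl) h2, ?_⟩
    rw [hcast h1 _ (L.mul_mem (L.inv_mem hl) h2), hlm _ _ (L.inv_mem hl) h2, hinv' _ _ hl,
      hli _ hl, inv_mul_cancel]
  have hZ : commutator (K ⧸ NK) ≤ Subgroup.center (K ⧸ NK) := by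
    rw [commutator_def, Subgroup.commutator_le]
    intro a _ b _
    obtain ⟨a, rfl⟩ := QuotientGroup.mk_surjective a
    obtain ⟨b, rfl⟩ := QuotientGroup.mk_surjective b
    rw [Subgroup.mem_center_iff]
    intro z
    obtain ⟨z, rfl⟩ := QuotientGroup.mk_surjective z
    exact hcenL ⁅a, b⁆ (by
      have : ((⁅a, b⁆ : K) : G) = ⁅(a : G), (b : G)⁆ := rfl
      rw [this]; exact hcom _ a.2 _ b.2) z
  -- exponent
  have hpow : ∀ (x y : G) (hx : x ∈ K) (hy : y ∈ K) (j : ℕ),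
      lam ⟨⁅x ^ j, y⁆, hcom _ (K.pow_mem hx j) _ hy⟩ = lam ⟨⁅x, y⁆, hcom _ hx _ hy⟩ ^ j := by
    intro x y hx hy j
    induction j with
    | zero =>
      refine (hcast (a := ⁅x ^ 0, y⁆) (b := 1) (by rw [pow_zero, commutatorElement_one_left]) _
        L.one_mem).trans ?_
      rw [pow_zero]
      exact map_one lam
    | succ j ih =>
      have h1 : ⁅x ^ (j + 1), y⁆ = x * ⁅x ^ j, y⁆ * x⁻¹ * ⁅x, y⁆ := by
        rw [pow_succ']
        simp only [commutatorElement_def]; group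
      have h2 := hcom _ (K.pow_mem hx j) _ hy
      have h3 := hL.conj_mem _ h2 x
      rw [hcast h1 _ (L.mul_mem h3 (hcom _ hx _ hy)), hlm _ _ h3 (hcom _ hx _ hy), hinv' _ _ h2, ih,
        pow_succ]
  have hexpL : ∀ (x y : G) (hx : x ∈ K) (hy : y ∈ K),
      lam ⟨⁅x, y⁆, hcom _ hx _ hy⟩ ^ (2 * m + 1) = 1 := by
    intro x y hx hy
    rw [← hpow x y hx hy]
    have h1 : x ^ (2 * m + 1) ∈ L := by rw [hm]; exact Subgroup.pow_index_mem L x
    have h2 : ⁅x ^ (2 * m + 1), y⁆ = x ^ (2 * m + 1) * (y * (x ^ (2 * m + 1))⁻¹ * y⁻¹) := by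
      rw [commutatorElement_def]; group
    have h3 := hL.conj_mem _ (L.inv_mem h1) y
    rw [hcast h2 _ (L.mul_mem h1 h3), hlm _ _ h1 h3, hinv' _ _ (L.inv_mem h1), hli _ h1,
      mul_inv_cancel]
  have hexp : ∀ x y : K ⧸ NK, ⁅x, y⁆ ^ (2 * m + 1) = 1 := by
    intro x y
    obtain ⟨x, rfl⟩ := QuotientGroup.mk_surjective x
    obtain ⟨y, rfl⟩ := QuotientGroup.mk_surjective y
    have h1 : ⁅(x : K ⧸ NK), (y : K ⧸ NK)⁆ ^ (2 * m + 1) = ((⁅x, y⁆ ^ (2 * m + 1) : K) : K ⧸ NK) := rfl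
    rw [h1, QuotientGroup.eq_one_iff, hNK]
    have h2 : (⁅(x : G), (y : G)⁆) ^ (2 * m + 1) ∈ L := L.pow_mem (hcom _ x.2 _ y.2) _
    refine ⟨h2, ?_⟩
    have h3 := hexpL x y x.2 y.2
    rw [← map_pow] at h3
    exact h3
  letI : AddCommGroup (K ⧸ NK) := H65.Baer.addCommGroup hZ (2 * m + 1) m rfl hexp
  have hadd : ∀ x y : K ⧸ NK, x + y = x * y * ⁅x, y⁆ ^ m := fun x y => rfl
  have hzero : (0 : K ⧸ NK) = 1 := rfl
  have hcen : ∀ (x : K ⧸ NK) (l : K), (l : G) ∈ L → x + (l : K ⧸ NK) = x * (l : K ⧸ NK) := by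
    intro x l hl
    obtain ⟨x, rfl⟩ := QuotientGroup.mk_surjective x
    rw [hadd]
    have h1 : ⁅(x : K ⧸ NK), (l : K ⧸ NK)⁆ = 1 :=
      commutatorElement_eq_one_iff_mul_comm.2 (hcenL l hl x)
    rw [h1, one_pow, mul_one]
  let i : L →* Multiplicative (K ⧸ NK) :=
    { toFun := fun l => Multiplicative.ofAdd ((Subgroup.inclusion hle l : K) : K ⧸ NK)
      map_one' := rfl
      map_mul' := fun a b => by
        rw [← ofAdd_add, hcen _ _ b.2]
        rfl }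
  obtain ⟨Λ, hΛ⟩ := ext_lemma i lam (by
    intro l hl
    have h1 : ((Subgroup.inclusion hle l : K) : K ⧸ NK) = 1 := hl
    rw [QuotientGroup.eq_one_iff, hNK] at h1
    obtain ⟨h2, h3⟩ := h1
    exact h3)
  let g : K ⧸ NK → ℂˣ := fun x => Λ (Multiplicative.ofAdd x)
  have hg : ∀ x y, g (x + y) = g x * g y := fun x y => by
    show Λ (Multiplicative.ofAdd (x + y)) = _
    rw [ofAdd_add, map_mul]
  have hg1 : g 1 = 1 := by
    show Λ (Multiplicative.ofAdd (1 : K ⧸ NK)) = 1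
    rw [← hzero]
    exact map_one Λ
  have hgL : ∀ (l : K) (hl : (l : G) ∈ L), g l = lam ⟨l, hl⟩ := fun l hl => hΛ ⟨l, hl⟩
  let f : G → ℂ := fun x => if hx : x ∈ K then (g ((⟨x, hx⟩ : K) : K ⧸ NK) : ℂ) else 0
  have hf : ∀ (x : G) (hx : x ∈ K), f x = (g ((⟨x, hx⟩ : K) : K ⧸ NK) : ℂ) := fun x hx => dif_pos hx
  have hfL : ∀ (l : G) (hl : l ∈ L), f l = lam ⟨l, hl⟩ := fun l hl => by
    rw [hf l (hle hl), hgL _ hl]
  refine ⟨f, ⟨hle, ?_, ?_, hcom, ?_, ?_, ?_, ?_⟩, fun l => hfL l l.2⟩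
  · rw [hfL 1 L.one_mem]
    have : lam ⟨1, L.one_mem⟩ = 1 := map_one lam
    rw [this, Units.val_one]
  · intro x hx
    rw [hf x hx]
    exact hom_norm_one Λ _
  · intro x hx y hy
    rw [hfL _ (L.mul_mem hx hy), hfL _ hx, hfL _ hy, hlm _ _ hx hy, Units.val_mul]
  · intro g' x hx
    rw [hfL _ (hL.conj_mem _ hx g'), hfL _ hx, hinv' _ _ hx]
  · intro x hx y hy
    rw [hf x hx, hf y hy, hf _ (K.mul_mem hx hy), hfL _ (hcom _ hx _ hy), ← Units.val_mul,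
      ← Units.val_pow_eq_pow_val, ← Units.val_mul, ← hg, hadd]
    congr 1
    have h1 : (⟨x, hx⟩ : K) * ⟨y, hy⟩ = ⟨x * y, K.mul_mem hx hy⟩ := rfl
    have h2 : ((⟨x, hx⟩ : K) : K ⧸ NK) * ((⟨y, hy⟩ : K) : K ⧸ NK) =
        ((⟨x * y, K.mul_mem hx hy⟩ : K) : K ⧸ NK) := rfl
    have h3 : ⁅((⟨x, hx⟩ : K) : K ⧸ NK), ((⟨y, hy⟩ : K) : K ⧸ NK)⁆ ^ m =
        ((⟨⁅x, y⁆ ^ m, K.pow_mem (hle (hcom _ hx _ hy)) m⟩ : K) : K ⧸ NK) := rfl
    have h4 : ⁅x, y⁆ ^ m ∈ L := L.pow_mem (hcom _ hx _ hy) m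
    rw [h2, h3, ← hcen _ ⟨⁅x, y⁆ ^ m, K.pow_mem (hle (hcom _ hx _ hy)) m⟩ h4, hg,
      hgL ⟨⁅x, y⁆ ^ m, K.pow_mem (hle (hcom _ hx _ hy)) m⟩ h4]
    congr 1
    rw [← map_pow]; rfl
  · intro x hx y hy
    rw [hfL _ (hcom _ hx _ hy), ← Units.val_pow_eq_pow_val, hexpL x y hx hy, Units.val_one]

end f0

section tw
variable {K L : Subgroup G} [hK : K.Normal] [hL : L.Normal] {m : ℕ} {f f' : G → ℂ}

theorem quo (F : TwExt K L m f) (F' : TwExt K L m f') (h : ∀ l ∈ L, f' l = f l) :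
    ∃ a : K →* ℂˣ, (∀ k : K, f' k = a k * f k) ∧ ∀ l : K, (l : G) ∈ L → a l = 1 := by
  let a : K →* ℂˣ :=
    { toFun := fun k => Units.mk0 (f' k / f k) (div_ne_zero (F'.ne_zero k.2) (F.ne_zero k.2))
      map_one' := by
        apply Units.ext
        show f' 1 / f 1 = 1
        rw [F.one, F'.one, div_one]
      map_mul' := fun x y => by
        apply Units.ext
        show f' (x * y) / f (x * y) = f' x / f x * (f' y / f y)
        rw [F.mul' x.2 y.2, F'.mul' x.2 y.2, h _ (F.com _ x.2 _ y.2)]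
        have h1 := F.ne_zero x.2
        have h2 := F.ne_zero y.2
        have h3 := pow_ne_zero m (F.b_ne_zero x.2 y.2)
        field_simp }
  refine ⟨a, fun k => ?_, fun l hl => ?_⟩
  · show f' k = f' k / f k * f k
    rw [div_mul_cancel₀ _ (F.ne_zero k.2)]
  · apply Units.ext
    show f' l / f l = 1
    rw [h _ hl, div_self (F.ne_zero l.2)]

open Classical in
theorem twist [Finite G] (F : TwExt K L m f) (a : K →* ℂˣ) (ha : ∀ l : K, (l : G) ∈ L → a l = 1) :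
    TwExt K L m (fun x => if hx : x ∈ K then (a ⟨x, hx⟩ : ℂ) * f x else 0) := by
  suffices key : ∀ f' : G → ℂ, (∀ (x : G) (hx : x ∈ K), f' x = a ⟨x, hx⟩ * f x) → TwExt K L m f' from
    key _ (fun x hx => dif_pos hx)
  intro f' h1
  have h2 : ∀ l ∈ L, f' l = f l := by
    intro l hl
    rw [h1 l (F.le hl), ha _ hl, Units.val_one, one_mul]
  refine ⟨F.le, ?_, ?_, F.com, ?_, ?_, ?_, ?_⟩
  · rw [h2 1 L.one_mem, F.one]
  · intro x hx
    rw [h1 x hx, norm_mul, F.norm x hx, mul_one]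
    exact hom_norm_one a _
  · intro x hx y hy
    rw [h2 _ hx, h2 _ hy, h2 _ (L.mul_mem hx hy), F.mulL x hx y hy]
  · intro g x hx
    rw [h2 _ hx, h2 _ (hL.conj_mem _ hx g), F.inv g x hx]
  · intro x hx y hy
    rw [h1 x hx, h1 y hy, h1 _ (K.mul_mem hx hy), h2 _ (F.com _ hx _ hy)]
    have h3 : a ⟨x * y, K.mul_mem hx hy⟩ = a ⟨x, hx⟩ * a ⟨y, hy⟩ := by rw [← map_mul]; rfl
    rw [h3, Units.val_mul]
    have h4 := F.mul x hx y hy
    linear_combination ((a ⟨x, hx⟩ : ℂ) * a ⟨y, hy⟩) * h4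
  · intro x hx y hy
    rw [h2 _ (F.com _ hx _ hy), F.ord x hx y hy]

theorem comp (F : TwExt K L m f) (σ : G ≃* G) (hσK : ∀ k ∈ K, σ k ∈ K) (hσL : ∀ l ∈ L, σ l ∈ L) :
    TwExt K L m (fun x => f (σ x)) where
  le := F.le
  one := by
    show f (σ 1) = 1
    rw [map_one, F.one]
  norm x hx := F.norm _ (hσK x hx)
  com := F.com
  mulL x hx y hy := by
    show f (σ (x * y)) = _
    rw [map_mul, F.mulL _ (hσL x hx) _ (hσL y hy)]
  inv g x hx := by
    show f (σ (g * x * g⁻¹)) = _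
    rw [map_mul, map_mul, map_inv, F.inv _ _ (hσL x hx)]
  mul x hx y hy := by
    show f (σ x) * f (σ y) = f (σ (x * y)) * f (σ ⁅x, y⁆) ^ m
    rw [map_mul, map_commutatorElement, F.mul _ (hσK x hx) _ (hσK y hy)]
  ord x hx y hy := by
    show f (σ ⁅x, y⁆) ^ (2 * m + 1) = 1
    rw [map_commutatorElement, F.ord _ (hσK x hx) _ (hσK y hy)]

end tw

section main
variable [Finite G] {S : Type v} [Group S] [Finite S] {φ : S →* MulAut G} {K L H : Subgroup G}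
  [hK : K.Normal] [hL : L.Normal] (U : Setup φ K L H)
include U

theorem exists_f (m : ℕ) (hm : 2 * m + 1 = L.index)
    (lam : L →* ℂˣ) (hinv : ∀ (g : G) (l : L), lam ⟨g * l * g⁻¹, hL.conj_mem l l.2 g⟩ = lam l)
    (hS : ∀ (s : S) (l : L), lam ⟨φ s l, U.invL s l l.2⟩ = lam l) :
    ∃ f : G → ℂ, TwExt K L m f ∧ (∀ l : L, f l = lam l) ∧ (∀ s, ∀ k ∈ K, f (φ s k) = f k) ∧
      ∀ h ∈ H, ∀ k ∈ K, f (h * k * h⁻¹) = f k := by
  classical
  letI := Fintype.ofFinite S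
  obtain ⟨f₀, F₀, hf₀⟩ := exists_f0 U.le U.com m hm lam hinv
  have hf₀' : ∀ l ∈ L, ∀ s, f₀ (φ s l) = f₀ l := by
    intro l hl s
    rw [hf₀ ⟨l, hl⟩, hf₀ ⟨φ s l, U.invL s l hl⟩]
    have := hS s ⟨l, hl⟩
    rw [this]
  have hA : ∀ s, ∃ a : K →* ℂˣ, (∀ k : K, f₀ (φ s k) = a k * f₀ k) ∧ ∀ l : K, (l : G) ∈ L → a l = 1 :=
    fun s => quo F₀ (comp F₀ (φ s) (U.invK s) (U.invL s)) (fun l hl => hf₀' l hl s)
  choose a ha haL using hA
  have haa : ∀ s t (k : K), a s (restrAct φ K U.invK t k) * a t k = a (s * t) k := by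
    intro s t k
    apply Units.ext
    push_cast
    have h1 := ha s (restrAct φ K U.invK t k)
    have h2 := ha t k
    have h3 := ha (s * t) k
    have h4 : f₀ (φ s ((restrAct φ K U.invK t k : K) : G)) = f₀ (φ (s * t) k) := by
      rw [map_mul]; rfl
    rw [h4, h3] at h1
    have h5 : f₀ ((restrAct φ K U.invK t k : K) : G) = a t k * f₀ k := h2
    rw [h5] at h1
    have h6 := F₀.ne_zero k.2
    apply mul_right_cancel₀ h6
    rw [h1]; ring
  -- the average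
  obtain ⟨r, hr⟩ : ∃ r : ℤ, ∀ (c : ℂˣ), c ^ L.index = 1 → (c ^ Nat.card S) ^ r = c := by
    refine ⟨Nat.gcdA (Nat.card S) L.index, fun c hc => ?_⟩
    have h1 := Nat.gcd_eq_gcd_ab (Nat.card S) L.index
    rw [U.cop.gcd_eq_one] at h1
    rw [← zpow_natCast, ← zpow_mul]
    have h2 : (Nat.card S : ℤ) * Nat.gcdA (Nat.card S) L.index =
        1 - (L.index : ℤ) * Nat.gcdB (Nat.card S) L.index := by
      push_cast at h1; linarith
    rw [h2, zpow_sub, zpow_one, zpow_mul, zpow_natCast, hc, one_zpow, inv_one, mul_one]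
  let A : K →* ℂˣ := (∏ s : S, a s) ^ r
  have hAk : ∀ k, A k = (∏ s : S, a s k) ^ r := by
    intro k
    show ((∏ s : S, a s) ^ r) k = _
    rw [MonoidHom.zpow_apply, MonoidHom.finsetProd_apply]
  have hAL : ∀ l : K, (l : G) ∈ L → A l = 1 := by
    intro l hl
    rw [hAk, Finset.prod_eq_one fun s _ => haL s l hl, one_zpow]
  have hAinv : ∀ t (k : K), A (restrAct φ K U.invK t k) * a t k = A k := by
    intro t k
    rw [hAk, hAk]
    have h1 : ∏ s : S, a s (restrAct φ K U.invK t k) = (∏ s : S, a s k) * (a t k ^ Nat.card S)⁻¹ := by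
      rw [eq_mul_inv_iff_mul_eq]
      have h2 : a t k ^ Nat.card S = ∏ s : S, a t k := by
        rw [Finset.prod_const, Finset.card_univ, Nat.card_eq_fintype_card]
      rw [h2, ← Finset.prod_mul_distrib]
      refine Fintype.prod_equiv (Equiv.mulRight t) _ _ (fun s => ?_)
      show _ = a (s * t) k
      exact haa s t k
    rw [h1, mul_zpow, inv_zpow, hr _ (pow_L U k (a t) (haL t)), inv_mul_cancel_right]
  set f : G → ℂ := fun x => if hx : x ∈ K then (A ⟨x, hx⟩ : ℂ) * f₀ x else 0 with hfdef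
  have F : TwExt K L m f := twist F₀ A hAL
  have hfK : ∀ (x : G) (hx : x ∈ K), f x = A ⟨x, hx⟩ * f₀ x := fun x hx => dif_pos hx
  have hfL : ∀ l : L, f l = lam l := by
    intro l
    rw [hfK l (U.le l.2), hAL _ l.2, Units.val_one, one_mul, hf₀]
  have hfS : ∀ s, ∀ k ∈ K, f (φ s k) = f k := by
    intro s k hk
    rw [hfK k hk, hfK _ (U.invK s k hk), ha s ⟨k, hk⟩, ← hAinv s ⟨k, hk⟩, Units.val_mul]
    have : (⟨φ s k, U.invK s k hk⟩ : K) = restrAct φ K U.invK s ⟨k, hk⟩ := rfl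
    rw [this]; ring
  refine ⟨f, F, hfL, hfS, ?_⟩
  intro h hh k hk
  obtain ⟨c, hc, hcL⟩ := quo F (comp F (MulAut.conj h) (fun k hk => hK.conj_mem k hk h)
    (fun l hl => hL.conj_mem l hl h)) (fun l hl => F.inv h l hl)
  have hc1 : c = 1 := by
    apply U.HK c hcL
    intro s x
    apply Units.ext
    have h1 : f (h * φ s x * h⁻¹) = c (restrAct φ K U.invK s x) * f (φ s x) :=
      hc (restrAct φ K U.invK s x)
    have h2 : f (h * x * h⁻¹) = c x * f x := hc x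
    rw [hfS s x x.2] at h1
    have h3 : f (h * φ s x * h⁻¹) = f (h * x * h⁻¹) := by
      rw [← hfS s (h * x * h⁻¹) (hK.conj_mem _ x.2 h)]
      rw [map_mul, map_mul, map_inv]
      have h4 := U.cen h hh s
      have h5 : h * φ s (x : G) * h⁻¹ =
          (φ s h * h⁻¹)⁻¹ * (φ s h * φ s (x : G) * (φ s h)⁻¹) * (φ s h * h⁻¹)⁻¹⁻¹ := by group
      rw [h5]
      exact F.conj_L (hK.conj_mem _ (U.invK s x x.2) _) (L.inv_mem h4)
    rw [h3, h2] at h1
    exact (mul_right_cancel₀ (F.ne_zero x.2) h1).symm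
  have h1 : f (h * k * h⁻¹) = c ⟨k, hk⟩ * f k := hc ⟨k, hk⟩
  rw [h1, hc1]
  show ((1 : ℂˣ) : ℂ) * f k = f k
  rw [Units.val_one, one_mul]

end main

end H77.OddF
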