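import Cfsg.Agent.Lib.H77.OddF

/-!
# The linear case of the odd correspondence (helper77)
-/

set_option autoImplicit false
set_option linter.unusedSectionVars false
set_option linter.unusedVariables false
set_option linter.style.haveILetI false
open Cfsg H18 H18.CharBasic H18.CharOrtho H18.CharInd H18.CharQuot H31.Clifford
open H77.GlaubP H77.CopChain
open scoped ComplexConjugate commutatorElement

namespace H77.OddG

open H77.OddA H77.OddB H77.OddC H77.OddD H77.OddE H77.OddF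

universe u v

section gl
variable {G : Type u} [Group G] [Fintype G] {S : Type v} [Group S] [Finite S] (φ : S →* MulAut G)
  (N : Subgroup G) [hN : N.Normal] [Fintype N]

/-- an invariant character has an invariant constituent (coprime action) -/
theorem exists_inv_const (hNφ : ∀ s, ∀ k ∈ N, φ s k ∈ N) (hcop : (Nat.card S).Coprime N.index)
    (hsolv : Group.IsSolvable (G ⧸ N)) {χ : G → ℂ} (hχ : IsIrrCharacter G χ) (hinv : Inv φ χ) :
    ∃ ν : IrrCharacter N, Inv (restrAct φ N hNφ) ν.1 ∧ classInner (fun n : N => χ n) ν.1 ≠ 0 := by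
  classical
  obtain ⟨ν₀, hν₀, hne⟩ := exists_constituent_restrict N hχ
  let x : IrrCharacter N := ⟨ν₀, hν₀⟩
  let fS := H77.GlPerm.permS (restrAct φ N hNφ)
  let fK := H77.GlPerm.permS (MulAut.conjNormal : G →* MulAut N)
  have hfK : ∀ (g : G) (χ : IrrCharacter N) (n : N), (fK g χ).1 n = χ.1 (MulAut.conjNormal g⁻¹ n) :=
    fun g χ n => rfl
  have hfS : ∀ (s : S) (χ : IrrCharacter N) (n : N), (fS s χ).1 n = χ.1 (restrAct φ N hNφ s⁻¹ n) :=
    fun g χ n => rfl
  obtain ⟨k, hk⟩ := H77.GlPerm.glaub fS fK (by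
      intro s g
      refine ⟨φ s g, ?_⟩
      apply Equiv.ext
      intro χ
      apply Subtype.ext
      funext n
      rw [Equiv.Perm.mul_apply, Equiv.Perm.mul_apply, ← map_inv, hfS, hfK, hfS, hfK, inv_inv]
      refine congrArg χ.1 (Subtype.ext ?_)
      rw [restrAct_coe, MulAut.conjNormal_apply, MulAut.conjNormal_apply, restrAct_coe]
      rw [map_mul, map_mul, act_act_inv]
      simp) (by
      have h1 : Nat.card fS.range ∣ (⊥ : Subgroup S).index :=
        H77.GlPerm.card_range_dvd fS ⊥ bot_le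
      rw [Subgroup.index_bot] at h1
      have h2 : Nat.card fK.range ∣ N.index := by
        apply H77.GlPerm.card_range_dvd fK N
        intro g hg
        rw [MonoidHom.mem_ker]
        apply Equiv.ext
        intro χ
        apply Subtype.ext
        funext n
        rw [hfK]
        have h3 := isClassFunction_of_isIrr χ.2 n (⟨g, hg⟩ : N)⁻¹
        rw [Equiv.Perm.one_apply]
        rw [← h3]
        congr 1
      exact (hcop.coprime_dvd_left h1).coprime_dvd_right h2) (by
      right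
      apply H77.GlPerm.solvable_range fK N _ hsolv
      intro g hg
      rw [MonoidHom.mem_ker]
      apply Equiv.ext
      intro χ
      apply Subtype.ext
      funext n
      rw [hfK]
      have h3 := isClassFunction_of_isIrr χ.2 n (⟨g, hg⟩ : N)⁻¹
      rw [Equiv.Perm.one_apply]
      rw [← h3]
      congr 1) x (by
      intro s
      have h1 : classInner (fun n : N => χ n) (fS s x).1 ≠ 0 := by
        have h2 := classInner_mulEquiv (restrAct φ N hNφ s⁻¹) (fun n : N => χ n) ν₀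
        have h3 : (fun g => (fun n : N => χ n) ((restrAct φ N hNφ s⁻¹) g)) = fun n : N => χ n := by
          funext n
          exact hinv s⁻¹ n
        rw [h3] at h2
        have h4 : (fS s x).1 = fun g => ν₀ ((restrAct φ N hNφ s⁻¹) g) := rfl
        rw [h4, h2]
        exact hne
      obtain ⟨g, hg⟩ := constituents_conj N hχ hν₀ (fS s x).2 hne h1
      refine ⟨g⁻¹, ?_⟩
      apply Subtype.ext
      funext n
      rw [hfK, hg, inv_inv]
      rfl)
  refine ⟨fK k x, (H77.GlPerm.fixed_iff _ _).1 hk, ?_⟩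
  have h1 : (fK k x).1 = conjFunN N k⁻¹ ν₀ := rfl
  rw [h1, inner_restrict_cj N k⁻¹ (isClassFunction_of_isIrr hχ)]
  exact hne

end gl

section main
variable {G : Type u} [Group G] [Fintype G] {S : Type v} [Group S] [Finite S] {φ : S →* MulAut G}
  {K L H : Subgroup G} [hK : K.Normal] [hL : L.Normal] (U : Setup φ K L H)
include U

theorem over_mu {m : ℕ} {f : G → ℂ} (F : TwExt K L m f) (hS : ∀ s, ∀ k ∈ K, f (φ s k) = f k)
    (hfH : ∀ h ∈ H, ∀ x ∈ K, f (h * x * h⁻¹) = f x) (hsolv : Group.IsSolvable G)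
    {η : G → ℂ} (hη : IsIrrCharacter G η) (hinv : Inv φ η) (hηL : ∀ l ∈ L, η l = η 1 * f l) :
    ∀ u, Rad K f u → η u = η 1 * f u := by
  classical
  set Z := radSub F with hZ
  letI : Fintype Z := Fintype.ofFinite _
  have hZφ : ∀ s, ∀ u ∈ Z, φ s u ∈ Z := by
    intro s u hu
    refine ⟨U.invK s u hu.1, fun y hy => ?_⟩
    have h1 : ⁅φ s u, y⁆ = φ s ⁅u, φ s⁻¹ y⁆ := by
      rw [map_commutatorElement, act_act_inv]
    have hy' : φ s⁻¹ y ∈ K := U.invK _ y hy
    rw [h1, hS _ _ (F.le (F.com _ hu.1 _ hy')), hu.2 _ hy']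
  have hZL : Z.index ∣ L.index := Subgroup.index_dvd_of_le (le_radSub F)
  have hsq : Group.IsSolvable (G ⧸ Z) := by
    haveI := hsolv
    exact Group.isSolvable_of_surjective (QuotientGroup.mk'_surjective Z)
  obtain ⟨ν, hν1, hν2⟩ := exists_inv_const φ Z hZφ (U.cop.coprime_dvd_right hZL) hsq hη hinv
  set μ : Z → ℂ := fun u => (radHom F u : ℂ) with hμ
  have hμirr : IsIrrCharacter Z μ := isIrrCharacter_of_hom _
  have hμinv : inertia Z μ = ⊤ := by
    rw [eq_top_iff]
    intro g _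
    rw [mem_inertia_iff]
    intro u
    exact inv_rad F H U.sup hfH g u.2
  set LZ := L.subgroupOf Z with hLZ
  letI : Fintype LZ := Fintype.ofFinite _
  let lamZ : LZ → ℂ := fun l => μ l
  have hlamirr : IsIrrCharacter LZ lamZ := isIrrCharacter_of_hom ((radHom F).comp LZ.subtype)
  have hlaminv : inertia LZ lamZ = ⊤ := by
    rw [eq_top_iff]
    intro g _
    rw [mem_inertia_iff]
    intro l
    exact F.inv (g : G) _ l.2
  -- `ν` restricted to `L`
  have hνL : classInner (fun l : LZ => ν.1 l) lamZ ≠ 0 := by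
    obtain ⟨θ, hθ, hθne⟩ := exists_constituent_restrict LZ ν.2
    have h1 := H77.SubChar.restrict_trans Z.subtype LZ.subtype (isCharacter_of_isIrr hη) ν.2
      (isCharacter_of_isIrr hθ) hν2 hθne
    have h2 : (fun b : LZ => η (Z.subtype (LZ.subtype b))) = η 1 • lamZ := by
      funext b
      exact hηL _ b.2
    rw [h2, CharOrtho.inner_smul_left] at h1
    have h3 : classInner lamZ θ ≠ 0 := right_ne_zero_of_mul h1
    have h4 : lamZ = θ := by
      by_contra hne
      exact h3 (inner_irr_ne hlamirr hθ hne)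
    rw [h4]; exact hθne
  have hνL2 := H77.OverInv.restrict_of_inv LZ ν.2 hlamirr hlaminv hνL
  have hab : ∀ a b : Z ⧸ LZ, a * b = b * a := by
    intro a b
    obtain ⟨a, rfl⟩ := QuotientGroup.mk_surjective a
    obtain ⟨b, rfl⟩ := QuotientGroup.mk_surjective b
    rw [← QuotientGroup.mk_mul, ← QuotientGroup.mk_mul, QuotientGroup.eq]
    rw [Subgroup.mem_subgroupOf]
    have h1 := U.com (b : G)⁻¹ (K.inv_mem b.2.1) (a : G)⁻¹ (K.inv_mem a.2.1)
    have h2 : (((a * b)⁻¹ * (b * a) : Z) : G) = ⁅(b : G)⁻¹, (a : G)⁻¹⁆ := by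
      simp only [commutatorElement_def]
      push_cast
      group
    rw [h2]; exact h1
  obtain ⟨l, hl⟩ := H77.GlPerm.exists_linear LZ hab (χ := ν) (ψ := ⟨μ, hμirr⟩) (by
    rw [hνL2, CharOrtho.inner_smul_right]
    refine mul_ne_zero ((map_ne_zero _).2 hνL) ?_
    have : (fun n : LZ => (⟨μ, hμirr⟩ : IrrCharacter Z).1 n) = lamZ := rfl
    rw [this, inner_irr_self hlamirr]
    exact one_ne_zero)
  have hlv : ∀ z : Z, ν.1 z = l (z : Z ⧸ LZ) * μ z := by
    intro z
    rw [← hl]; rfl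
  have hl1 : l.comp (QuotientGroup.mk' LZ) = 1 := by
    apply HK_sub U Z (le_radSub F) (radSub_le F) hZφ
    · intro x hx
      show l (x : Z ⧸ LZ) = 1
      rw [(QuotientGroup.eq_one_iff x).2 hx, map_one]
    · intro s z
      apply Units.ext
      show (l ((restrAct φ Z hZφ s z : Z) : Z ⧸ LZ) : ℂ) = l (z : Z ⧸ LZ)
      have h1 := hlv z
      have h2 := hlv (restrAct φ Z hZφ s z)
      rw [hν1 s z, h1] at h2
      have h3 : μ (restrAct φ Z hZφ s z) = μ z := hS s z z.2.1
      rw [h3] at h2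
      exact (mul_right_cancel₀ (F.ne_zero z.2.1) h2).symm
  have hνμ : ν.1 = μ := by
    funext z
    rw [hlv]
    have h1 : l (z : Z ⧸ LZ) = 1 := DFunLike.congr_fun hl1 z
    rw [h1, Units.val_one, one_mul]
  rw [hνμ] at hν2
  have h1 := H77.OverInv.restrict_of_inv Z hη hμirr hμinv hν2
  intro u hu
  have h2 := congrFun h1 ⟨u, hu⟩
  have h3 := congrFun h1 1
  simp only [Pi.smul_apply, smul_eq_mul] at h2 h3
  have h4 : μ 1 = 1 := F.one
  rw [h4, mul_one] at h3
  have h5 : η 1 = classInner (fun u : Z => η u) μ := h3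
  rw [h5]; exact h2

theorem invH (s : S) (h : G) (hh : h ∈ H) : φ s h ∈ H := by
  have h1 := H.mul_mem (U.leH (U.cen h hh s)) hh
  rwa [inv_mul_cancel_right] at h1

/-- odd multiplicity -/
def OddM {A : Type u} [Group A] [Fintype A] (χ ψ : A → ℂ) : Prop :=
  ∃ n : ℕ, Odd n ∧ classInner χ ψ = n

theorem linear_main [Fintype H] (hsolv : Group.IsSolvable G)
    (lam : L →* ℂˣ) (hinv : ∀ (g : G) (l : L), lam ⟨g * l * g⁻¹, hL.conj_mem l l.2 g⟩ = lam l)
    (hS : ∀ (s : S) (l : L), lam ⟨φ s l, U.invL s l l.2⟩ = lam l) :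
    (∀ η : IrrCharacter G, Inv φ η.1 → (∀ l : L, η.1 l = η.1 1 * lam l) →
      ∃ ψ : IrrCharacter H, ∀ ψ' : IrrCharacter H, OddM (fun h : H => η.1 h) ψ'.1 ↔ ψ' = ψ) ∧
    (∀ η η' : IrrCharacter G, Inv φ η.1 → (∀ l : L, η.1 l = η.1 1 * lam l) →
      Inv φ η'.1 → (∀ l : L, η'.1 l = η'.1 1 * lam l) → ∀ ψ : IrrCharacter H,
      OddM (fun h : H => η.1 h) ψ.1 → OddM (fun h : H => η'.1 h) ψ.1 → η = η') ∧
    (∀ ψ : IrrCharacter H, (∀ s, ∀ (h : G) (hh : h ∈ H), ψ.1 ⟨φ s h, invH U s h hh⟩ = ψ.1 ⟨h, hh⟩) →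
      (∀ l : L, ψ.1 ⟨l, U.leH l.2⟩ = ψ.1 1 * lam l) →
      ∃ η : IrrCharacter G, Inv φ η.1 ∧ (∀ l : L, η.1 l = η.1 1 * lam l) ∧
        OddM (fun h : H => η.1 h) ψ.1) := by
  classical
  letI : Fintype K := Fintype.ofFinite _
  obtain ⟨m, hm⟩ := U.odd
  obtain ⟨f, F, hfl, hfS, hfH⟩ := exists_f U m hm.symm lam hinv hS
  refine ⟨?_, ?_, ?_⟩
  · intro η hη hηL
    have h1 := over_mu U F hfS hfH hsolv η.2 hη (fun l hl => by
      rw [hfl ⟨l, hl⟩]; exact hηL ⟨l, hl⟩)
    obtain ⟨ψ, hψ, _⟩ := exists_psi H F U.odd U.sup hfH η.2 h1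
    exact ⟨ψ, hψ⟩
  · intro η η' hη hηL hη' hηL' ψ h1 h2
    have h3 := over_mu U F hfS hfH hsolv η.2 hη (fun l hl => by
      rw [hfl ⟨l, hl⟩]; exact hηL ⟨l, hl⟩)
    have h4 := over_mu U F hfS hfH hsolv η'.2 hη' (fun l hl => by
      rw [hfl ⟨l, hl⟩]; exact hηL' ⟨l, hl⟩)
    exact Subtype.ext (psi_inj H F U.odd U.sup hfH η.2 η'.2 h3 h4 ψ h1 h2)
  · intro ψ hψ hψL
    obtain ⟨η, hη, hodd⟩ := exists_eta F H U.odd U.sup hfH U.leH (inf_le U) ψ.2 (fun l hl => by
      rw [hfl ⟨l, hl⟩]; exact hψL ⟨l, hl⟩)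
    refine ⟨η, ?_, fun l => ?_, hodd⟩
    · intro s g
      -- compare `η` with its transform
      have hη' : IsIrrCharacter G (fun g => η.1 (φ s g)) :=
        isIrrCharacter_comp ((φ s : MulAut G) : G →* G) (φ s).surjective η.2
      have h1 : ∀ u, Rad K f u → (fun g => η.1 (φ s g)) u = (fun g => η.1 (φ s g)) 1 * f u := by
        intro u hu
        have h2 : Rad K f (φ s u) := by
          refine ⟨U.invK s u hu.1, fun y hy => ?_⟩
          have h1 : ⁅φ s u, y⁆ = φ s ⁅u, φ s⁻¹ y⁆ := by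
            rw [map_commutatorElement, act_act_inv]
          have hy' : φ s⁻¹ y ∈ K := U.invK _ y hy
          rw [h1, hfS _ _ (F.le (F.com _ hu.1 _ hy')), hu.2 _ hy']
        show η.1 (φ s u) = η.1 (φ s 1) * f u
        rw [hη _ h2, map_one, hfS s u hu.1]
      let e : H ≃* H := restrAct φ H (invH U) s
      have h2 : OddM (fun h : H => η.1 (φ s h)) ψ.1 := by
        obtain ⟨n, hn, hn'⟩ := hodd
        refine ⟨n, hn, ?_⟩
        have h3 := classInner_mulEquiv e (fun h : H => η.1 h) ψ.1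
        have h4 : (fun g => ψ.1 (e g)) = ψ.1 := by
          funext h
          exact hψ s h h.2
        rw [h4] at h3
        rw [← hn', ← h3]; rfl
      have h3 := psi_inj H F U.odd U.sup hfH hη' η.2 h1 hη ψ h2 hodd
      exact congrFun h3 g
    · have h1 := hη l (le_radSub F l.2)
      rw [h1, hfl]

end main

end H77.OddG
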