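import Cfsg.Agent.Lib.H77.OddG
import Cfsg.Agent.Lib.H77.InvOver

/-!
# Transport along a cover in which an invariant character extends (helper77)
-/

set_option autoImplicit false
set_option linter.unusedSectionVars false
set_option linter.unusedVariables false
set_option linter.style.haveILetI false
open Cfsg H18 H18.CharBasic H18.CharOrtho H18.CharInd H18.CharQuot H31.Clifford
open H77.GlaubP H77.CopChain
open scoped ComplexConjugate commutatorElement

namespace H77.OddH

universe u v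

/-- constituents of a character on elements acting as scalars -/
theorem scal {A : Type u} [Group A] [Fintype A] {χ ζ : A → ℂ} (hχ : IsCharacter A χ)
    (hζ : IsIrrCharacter A ζ) (hne : classInner χ ζ ≠ 0) {x : A} {c : ℂ} (hc : ‖c‖ = 1)
    (hx : χ x = χ 1 * c) : ζ x = ζ 1 * c := by
  have hr := isCharacter_sub_constituent hχ hζ hne
  have hζc := isCharacter_of_isIrr hζ
  have h1 := char_norm_le hζc x
  have h2 := char_norm_le hr x
  obtain ⟨a, ha⟩ := exists_degree hζc
  obtain ⟨b, hb⟩ := exists_degree hr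
  have hcc : c * conj c = 1 := by
    rw [Complex.mul_conj, Complex.normSq_eq_norm_sq, hc]; norm_num
  have h3 : conj c * ζ x + conj c * (χ - ζ) x = (a : ℂ) + b := by
    rw [← ha, ← hb, Pi.sub_apply, Pi.sub_apply, hx]
    linear_combination (χ 1) * hcc
  have h4 := congrArg Complex.re h3
  have h5 : (conj c * ζ x).re ≤ ‖conj c * ζ x‖ := Complex.re_le_norm _
  have h6 : (conj c * (χ - ζ) x).re ≤ ‖conj c * (χ - ζ) x‖ := Complex.re_le_norm _
  have h7 : ‖conj c‖ = 1 := by rw [Complex.norm_conj, hc]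
  rw [norm_mul, h7, one_mul] at h5 h6
  rw [ha] at h1
  rw [hb] at h2
  simp only [Complex.natCast_re, Complex.add_re] at h1 h2 h4
  have h8 : (conj c * ζ x).re = a := by linarith
  have h9 : ‖conj c * ζ x‖ = a := by
    rw [norm_mul, h7, one_mul]; linarith
  have h10 : conj c * ζ x = a := by
    have h11 : ‖conj c * ζ x‖ ^ 2 = (conj c * ζ x).re ^ 2 + (conj c * ζ x).im ^ 2 := by
      rw [← Complex.normSq_eq_norm_sq, Complex.normSq_apply]; ring
    rw [h9, h8] at h11
    have h12 : (conj c * ζ x).im = 0 := by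
      have : (conj c * ζ x).im ^ 2 = 0 := by linarith
      exact pow_eq_zero_iff two_ne_zero |>.1 this
    apply Complex.ext
    · rw [h8]; simp
    · rw [h12]; simp
  calc ζ x = (c * conj c) * ζ x := by rw [hcc, one_mul]
    _ = c * (conj c * ζ x) := by ring
    _ = ζ 1 * c := by rw [h10, ha]; ring

/-- data for the transport -/
structure Cov {A B : Type u} [Group A] [Group B] (p : A →* B) (N LA : Subgroup A) (LB : Subgroup B)
    (β lam : A → ℂ) (θ : LB → ℂ) : Prop where
  surj : Function.Surjective p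
  hL : ∀ x, x ∈ LA ↔ p x ∈ LB
  hN : N ≤ LA
  nN : N.Normal
  hβ : IsIrrCharacter A β
  hβN : IsIrrCharacter N (fun n : N => β n)
  hθ : ∀ (x : A) (hx : p x ∈ LB), θ ⟨p x, hx⟩ = lam x * β x
  lamN : ∀ x ∈ N, lam x = 1
  lamM : ∀ x ∈ LA, ∀ n ∈ N, lam (x * n) = lam x
  lamU : ∀ x ∈ LA, ‖lam x‖ = 1

section cov
variable {A B : Type u} [Group A] [Group B] [Fintype A] [Fintype B] {p : A →* B}
  {N LA : Subgroup A} {LB : Subgroup B} {β lam : A → ℂ} {θ : LB → ℂ}
  (C : Cov p N LA LB β lam θ)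
include C

theorem lam_one : lam 1 = 1 := C.lamN 1 N.one_mem

theorem theta_one : θ 1 = β 1 := by
  have h1 : p 1 ∈ LB := by rw [map_one]; exact LB.one_mem
  have h2 := C.hθ 1 h1
  rw [lam_one C, one_mul] at h2
  rw [← h2]
  congr 1
  apply Subtype.ext
  show (1 : B) = p 1
  rw [map_one]

theorem up {χ : B → ℂ} (hχ : IsIrrCharacter B χ) {c : ℂ} (hc : ∀ l : LB, χ l = c * θ l) :
    ∃ η : IrrCharacter A, (∀ a, χ (p a) = η.1 a * β a) ∧ (∀ n ∈ N, ∀ a, η.1 (a * n) = η.1 a) ∧
      ∀ x ∈ LA, η.1 x = η.1 1 * lam x := by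
  classical
  haveI := C.nN
  letI := Fintype.ofFinite N
  letI := Fintype.ofFinite LA
  have hχp : IsIrrCharacter A (fun a => χ (p a)) := isIrrCharacter_comp p C.surj hχ
  have hc0 : c ≠ 0 := by
    rintro rfl
    have h1 := hc 1
    rw [zero_mul] at h1
    exact irr_one_ne_zero hχ h1
  have h1 : (fun n : N => χ (p n)) = c • (fun n : N => β n) := by
    funext n
    have h2 := hc ⟨p n, (C.hL _).1 (C.hN n.2)⟩
    rw [C.hθ n, C.lamN n n.2, one_mul] at h2
    exact h2
  obtain ⟨η, hη, hηN, hηβ⟩ := H83.Gallagher.exists_eq_mul C.hβ N C.hβN hχp (by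
    rw [h1, CharOrtho.inner_smul_left, inner_irr_self C.hβN, mul_one]
    exact hc0)
  have hηc := isCharacter_of_isIrr hη
  have hinv : ∀ n ∈ N, ∀ a, η (a * n) = η a := fun n hn a => char_mul_right hηc (hηN n hn) a
  refine ⟨⟨η, hη⟩, fun a => congrFun hηβ a, hinv, ?_⟩
  -- restrict to `LA`
  set NL := N.subgroupOf LA with hNL
  haveI : NL.Normal := inferInstance
  let e : NL ≃* N := Subgroup.subgroupOfEquivOfLe C.hN
  have hβL : IsIrrCharacter LA (fun x : LA => β x) := by
    refine H77.InvOver.irr_of_restrict NL.subtype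
      (isCharacter_restrict LA (isCharacter_of_isIrr C.hβ)) ?_
    exact (isIrrCharacter_mulEquiv e).1 C.hβN
  have hβNL : IsIrrCharacter NL (fun n : NL => (fun x : LA => β x) n) :=
    (isIrrCharacter_mulEquiv e).1 C.hβN
  have key := H83.Gallagher.mul_inj hβL NL hβNL (β := fun x : LA => η x)
    (γ := fun x : LA => c * lam x) (fun g n hn => hinv _ hn _) (fun g n hn => by
      show c * lam ((g : A) * n) = _
      rw [C.lamM (g : A) g.2 (n : A) hn]) (fun x => by
      have h2 := congrFun hηβ (x : A)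
      have h3 := hc ⟨p x, (C.hL _).1 x.2⟩
      rw [C.hθ (x : A)] at h3
      have h4 : χ (p x) = η x * β x := h2
      have h5 : χ (p (x : A)) = c * (lam x * β x) := h3
      rw [← h4, h5, mul_assoc])
  have h1' : η 1 = c := by
    have := congrFun key 1
    have h2 : η 1 = c * lam 1 := this
    rw [h2, lam_one C, mul_one]
  intro x hx
  have := congrFun key ⟨x, hx⟩
  have h2 : η x = c * lam x := this
  show η x = η 1 * lam x
  rw [h2, ← h1']

theorem down {η : A → ℂ} (hη : IsIrrCharacter A η) (hηL : ∀ x ∈ LA, η x = η 1 * lam x) :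
    ∃ χ : IrrCharacter B, (∀ a, χ.1 (p a) = η a * β a) ∧ ∀ l : LB, χ.1 l = η 1 * θ l := by
  classical
  haveI := C.nN
  have hηN : ∀ n ∈ N, η n = η 1 := by
    intro n hn
    rw [hηL n (C.hN hn), C.lamN n hn, mul_one]
  have hirr := H83.Gallagher.isIrr_mul C.hβ N C.hβN hη hηN
  obtain ⟨χ, hχ, hχp⟩ := H77.InvOver.deflate_surj p C.surj hirr (by
    intro k hk
    have hk' : p k ∈ LB := by rw [(MonoidHom.mem_ker).1 hk]; exact LB.one_mem
    have hkL : k ∈ LA := (C.hL k).2 hk'
    show η k * β k = η 1 * β 1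
    rw [hηL k hkL, mul_assoc, ← C.hθ k hk', ← theta_one C]
    congr 2
    apply Subtype.ext
    exact (MonoidHom.mem_ker).1 hk)
  refine ⟨⟨χ, hχ⟩, hχp, fun l => ?_⟩
  obtain ⟨x, hx⟩ := C.surj (l : B)
  have hxL : p x ∈ LB := hx ▸ l.2
  have h1 := hχp x
  rw [hηL x ((C.hL x).2 hxL), mul_assoc, ← C.hθ x hxL] at h1
  have h2 : (⟨p x, hxL⟩ : LB) = l := Subtype.ext hx
  rw [h2, hx] at h1
  exact h1

theorem inner_cov {χ χ' : B → ℂ} {η η' : A → ℂ} (h : ∀ a, χ (p a) = η a * β a)
    (h' : ∀ a, χ' (p a) = η' a * β a) (hN : ∀ n ∈ N, ∀ a, η (a * n) = η a)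
    (hN' : ∀ n ∈ N, ∀ a, η' (a * n) = η' a) : classInner χ χ' = classInner η η' := by
  rw [← H79.Ovr.inner_comp_surj C.surj χ χ']
  rw [show (fun b => χ (p b)) = fun a => η a * β a from funext h,
    show (fun b => χ' (p b)) = fun a => η' a * β a from funext h']
  exact H83.Gallagher.inner_mul_mul C.hβ N C.hβN (fun g n hn => hN n hn g) (fun g n hn => hN' n hn g)

theorem inj_cov {η η' : A → ℂ} (h : ∀ a, η a * β a = η' a * β a)
    (hN : ∀ n ∈ N, ∀ a, η (a * n) = η a) (hN' : ∀ n ∈ N, ∀ a, η' (a * n) = η' a) : η = η' :=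
  H83.Gallagher.mul_inj C.hβ N C.hβN (fun g n hn => hN n hn g) (fun g n hn => hN' n hn g) h

end cov

end H77.OddH
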