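import Cfsg.Agent.Lib.H77.OddH

/-!
# Transport along a cover, II (helper77)
-/

set_option autoImplicit false
set_option linter.unusedSectionVars false
set_option linter.unusedVariables false
set_option linter.style.haveILetI false
open Cfsg H18 H18.CharBasic H18.CharOrtho H18.CharInd H18.CharQuot H31.Clifford
open H77.GlaubP H77.CopChain
open scoped ComplexConjugate commutatorElement

namespace H77.OddI

open H77.OddE H77.OddG H77.OddH

universe u v

/-- restriction of a homomorphism to preimages -/
def pH {A B : Type u} [Group A] [Group B] (p : A →* B) (H : Subgroup B) : H.comap p →* H where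
  toFun x := ⟨p x, x.2⟩
  map_one' := Subtype.ext (map_one p)
  map_mul' a b := Subtype.ext (map_mul p _ _)

theorem pH_coe {A B : Type u} [Group A] [Group B] (p : A →* B) (H : Subgroup B) (x : H.comap p) :
    ((pH p H x : H) : B) = p x := rfl

theorem pH_surj {A B : Type u} [Group A] [Group B] (p : A →* B) (hp : Function.Surjective p)
    (H : Subgroup B) : Function.Surjective (pH p H) := by
  intro h
  obtain ⟨a, ha⟩ := hp (h : B)
  exact ⟨⟨a, by rw [Subgroup.mem_comap, ha]; exact h.2⟩, Subtype.ext ha⟩

theorem Cov.res {A B : Type u} [Group A] [Group B] [Finite A] {p : A →* B}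
    {N LA : Subgroup A} {LB : Subgroup B} {β lam : A → ℂ} {θ : LB → ℂ}
    (C : Cov p N LA LB β lam θ) (H : Subgroup B) (hH : LB ≤ H) :
    Cov (pH p H) (N.subgroupOf (H.comap p)) (LA.subgroupOf (H.comap p)) (LB.subgroupOf H)
      (fun a => β a) (fun a => lam a) (fun x => θ ⟨(x : H), x.2⟩) := by
  have hNH : N ≤ H.comap p := fun n hn => hH ((C.hL n).1 (C.hN hn))
  let e : N.subgroupOf (H.comap p) ≃* N := Subgroup.subgroupOfEquivOfLe hNH
  have hirr : IsIrrCharacter (N.subgroupOf (H.comap p)) (fun n => β ((n : H.comap p) : A)) :=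
    (isIrrCharacter_mulEquiv e).1 C.hβN
  haveI := C.nN
  refine ⟨pH_surj p C.surj H, ?_, ?_, inferInstance, ?_, hirr, ?_, ?_, ?_, ?_⟩
  · intro x
    rw [Subgroup.mem_subgroupOf, Subgroup.mem_subgroupOf, pH_coe]
    exact C.hL x
  · intro x hx
    exact C.hN hx
  · exact H77.InvOver.irr_of_restrict (N.subgroupOf (H.comap p)).subtype
      (isCharacter_restrict _ (isCharacter_of_isIrr C.hβ)) hirr
  · intro x hx
    exact C.hθ x hx
  · intro x hx
    exact C.lamN x hx
  · intro x hx n hn
    exact C.lamM x hx n hn
  · intro x hx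
    exact C.lamU x hx

theorem Setup.comap {G G' : Type u} [Group G] [Group G'] [Finite G'] [Finite G] {S : Type v} [Group S]
    {φ : S →* MulAut G} {K L H : Subgroup G} (U : Setup φ K L H) (p : G' →* G)
    (hp : Function.Surjective p) (ψ : S →* MulAut G') (hψ : ∀ s x, p (ψ s x) = φ s (p x)) :
    Setup ψ (K.comap p) (L.comap p) (H.comap p) where
  le := Subgroup.comap_mono U.le
  leH := Subgroup.comap_mono U.leH
  com x hx y hy := by
    rw [Subgroup.mem_comap, map_commutatorElement]
    exact U.com _ hx _ hy
  invK s k hk := by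
    rw [Subgroup.mem_comap, hψ]
    exact U.invK s _ hk
  invL s k hk := by
    rw [Subgroup.mem_comap, hψ]
    exact U.invL s _ hk
  cop := by
    rw [Subgroup.index_comap_of_surjective L hp]
    exact U.cop
  odd := by
    rw [Subgroup.index_comap_of_surjective L hp]
    exact U.odd
  sup := by
    rw [Subgroup.comap_sup_eq _ _ _ hp, U.sup, Subgroup.comap_top]
  cen h hh s := by
    rw [Subgroup.mem_comap, map_mul, map_inv, hψ]
    exact U.cen _ hh s
  HK a ha ha' := by
    have hsurj := pH_surj p hp K
    have hker : (pH p K).ker ≤ a.ker := by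
      intro x hx
      rw [MonoidHom.mem_ker]
      apply ha
      rw [Subgroup.mem_comap]
      have h1 : ((pH p K x : K) : G) = 1 := by rw [(MonoidHom.mem_ker).1 hx]; rfl
      rw [pH_coe] at h1
      rw [h1]; exact L.one_mem
    let b : K →* ℂˣ := (pH p K).liftOfRightInverse _ (Function.rightInverse_surjInv hsurj) ⟨a, hker⟩
    have hb : ∀ x, b (pH p K x) = a x := fun x =>
      (pH p K).liftOfRightInverse_comp_apply _ (Function.rightInverse_surjInv hsurj) ⟨a, hker⟩ x
    have hb1 : b = 1 := by
      apply U.HK
      · intro l hl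
        obtain ⟨x, rfl⟩ := hsurj l
        rw [hb]
        exact ha x hl
      · intro s k
        obtain ⟨x, rfl⟩ := hsurj k
        have h1 : restrAct φ K U.invK s (pH p K x) = pH p K (restrAct ψ (K.comap p) (by
            intro s k hk
            rw [Subgroup.mem_comap, hψ]
            exact U.invK s _ hk) s x) := by
          apply Subtype.ext
          rw [restrAct_coe, pH_coe, pH_coe, restrAct_coe, hψ]
        rw [h1, hb, hb]
        exact ha' s x
    ext x
    rw [← hb, hb1]; rfl

end H77.OddI
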