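import Cfsg.Agent.Lib.H77.OddI

/-!
# The equivariant cover of an invariant character (helper77)
-/

set_option autoImplicit false
set_option linter.unusedSectionVars false
set_option linter.unusedVariables false
set_option linter.style.haveILetI false
open Cfsg H18 H18.CharBasic H18.CharOrtho H18.CharInd H18.CharQuot H31.Clifford
open H77.GlaubP H77.CopChain
open scoped ComplexConjugate commutatorElement

namespace H77.OddJ

open H77.OddE H77.OddG H77.OddH H77.OddI

universe u

theorem sd_left {G : Type u} [Group G] {S : Type u} [Group S] (φ : S →* MulAut G)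
    (j x : G ⋊[φ] S) (h : x.right = 1) :
    (j * x * j⁻¹).left = j.left * φ j.right x.left * j.left⁻¹ := by
  simp [SemidirectProduct.mul_left, SemidirectProduct.mul_right, SemidirectProduct.inv_left, h]

theorem sd_right {G : Type u} [Group G] {S : Type u} [Group S] (φ : S →* MulAut G)
    (j x : G ⋊[φ] S) (h : x.right = 1) : (j * x * j⁻¹).right = 1 := by
  simp [SemidirectProduct.mul_right, SemidirectProduct.inv_right, h]

open Classical in
theorem exists_equiv_cover {G : Type u} [Group G] [Finite G] {S : Type u} [Group S] [Finite S]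
    (φ : S →* MulAut G) (L : Subgroup G) [hL : L.Normal] (hLφ : ∀ s, ∀ k ∈ L, φ s k ∈ L)
    (θ : IrrCharacter L) (hG : ∀ (g : G) (l : L), θ.1 ⟨g * l * g⁻¹, hL.conj_mem l l.2 g⟩ = θ.1 l)
    (hS : Inv (restrAct φ L hLφ) θ.1) :
    ∃ (A : Type u) (_ : Group A) (_ : Finite A) (p : A →* G) (N : Subgroup A) (β : A → ℂ)
      (lam : L.comap p →* ℂˣ) (ψ : S →* MulAut A),
      Cov p N (L.comap p) L β (fun x => if hx : x ∈ L.comap p then (lam ⟨x, hx⟩ : ℂ) else 0) θ.1 ∧
      (∀ s x, p (ψ s x) = φ s (p x)) ∧ (∀ s x, β (ψ s x) = β x) ∧ (∀ s, ∀ n ∈ N, ψ s n ∈ N) ∧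
      (∀ s (x : L.comap p) (h : ψ s x ∈ L.comap p), lam ⟨ψ s x, h⟩ = lam x) ∧
      (∀ (a : A) (x : L.comap p) (h : a * x * a⁻¹ ∈ L.comap p), lam ⟨a * x * a⁻¹, h⟩ = lam x) ∧
      (∀ k ∈ p.ker, ∀ x, k * x = x * k) := by
  -- the semidirect product
  let J := G ⋊[φ] S
  haveI : Finite J := Finite.of_equiv (G × S) SemidirectProduct.equivProd.symm
  let NJ : Subgroup J := L.map SemidirectProduct.inl
  have hNJ : ∀ x : J, x ∈ NJ ↔ x.left ∈ L ∧ x.right = 1 := by
    intro x
    constructor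
    · rintro ⟨l, hl, rfl⟩
      exact ⟨hl, rfl⟩
    · rintro ⟨h1, h2⟩
      refine ⟨x.left, h1, ?_⟩
      ext
      · rfl
      · exact h2.symm
  haveI : NJ.Normal := by
    constructor
    rintro x hx j
    rw [hNJ] at hx ⊢
    obtain ⟨h1, h2⟩ := hx
    constructor
    · rw [sd_left φ j x h2]
      exact hL.conj_mem _ (hLφ _ _ h1) _
    · exact sd_right φ j x h2
  have hconj_left : ∀ (j x : J), x.right = 1 → (j * x * j⁻¹).left = j.left * φ j.right x.left * j.left⁻¹ := by
    intro j x h2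
    exact sd_left φ j x h2
  let eJ : NJ ≃* L :=
    { toFun := fun x => ⟨x.1.left, ((hNJ _).1 x.2).1⟩
      invFun := fun l => ⟨SemidirectProduct.inl (l : G), ⟨l, l.2, rfl⟩⟩
      left_inv := fun x => by
        apply Subtype.ext
        ext
        · rfl
        · exact ((hNJ _).1 x.2).2.symm
      right_inv := fun l => rfl
      map_mul' := fun x y => by
        apply Subtype.ext
        show (x.1 * y.1).left = x.1.left * y.1.left
        rw [SemidirectProduct.mul_left, ((hNJ _).1 x.2).2, map_one]; rfl }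
  have heJ : ∀ x : NJ, ((eJ x : L) : G) = x.1.left := fun x => rfl
  let θJ : NJ → ℂ := fun x => θ.1 (eJ x)
  have hθJ : IsIrrCharacter NJ θJ := (isIrrCharacter_mulEquiv eJ).1 θ.2
  have hcj : ∀ (j : J) (x : NJ) (hx : j * x * j⁻¹ ∈ NJ), θJ ⟨j * x * j⁻¹, hx⟩ = θJ x := by
    intro j x hx
    have h1 : eJ ⟨j * x * j⁻¹, hx⟩ = ⟨j.left * (restrAct φ L hLφ j.right (eJ x)) * j.left⁻¹,
        hL.conj_mem _ (restrAct φ L hLφ j.right (eJ x)).2 _⟩ := by
      apply Subtype.ext
      rw [heJ]
      exact hconj_left j x ((hNJ _).1 x.2).2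
    show θ.1 (eJ _) = θ.1 (eJ x)
    rw [h1, hG, hS]
  obtain ⟨Γ, _, _, π, M, hM, e, β, hπ, hπM, hβ, hβM, hker, -⟩ :=
    H19.CharExt.exists_cover hθJ (fun j x => hcj j x _)
  letI := Fintype.ofFinite Γ
  -- the group `A`
  let A : Subgroup Γ := (SemidirectProduct.rightHom.comp π).ker
  have hA : ∀ x : Γ, x ∈ A ↔ (π x).right = 1 := fun x => Iff.rfl
  let p : A →* G :=
    { toFun := fun x => (π x).left
      map_one' := by
        show (π 1).left = 1
        rw [map_one]; rfl
      map_mul' := fun x y => by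
        show (π (x * y)).left = _
        rw [map_mul, SemidirectProduct.mul_left, (hA x).1 x.2, map_one]; rfl }
  have hp : ∀ x : A, π x = SemidirectProduct.inl (p x) := by
    intro x
    ext
    · rfl
    · exact (hA x).1 x.2
  have hpsurj : Function.Surjective p := by
    intro g
    obtain ⟨x, hx⟩ := hπ (SemidirectProduct.inl g)
    refine ⟨⟨x, ?_⟩, ?_⟩
    · rw [hA, hx]; rfl
    · show (π x).left = g
      rw [hx]; rfl
  have hMA : M ≤ A := by
    intro m hm
    rw [hA, hπM ⟨m, hm⟩]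
    exact ((hNJ _).1 (e ⟨m, hm⟩).2).2
  let N : Subgroup A := M.subgroupOf A
  haveI : N.Normal := inferInstance
  haveI hAn : A.Normal := inferInstance
  have hpN : ∀ n ∈ N, p n ∈ L := by
    intro n hn
    have h1 := ((hNJ _).1 (e ⟨n, hn⟩).2).1
    rw [← hπM ⟨n, hn⟩] at h1
    exact h1
  have hpLJ : ∀ x : A, p x ∈ L → π x ∈ NJ := by
    intro x hx
    rw [hNJ]
    exact ⟨hx, (hA x).1 x.2⟩
  -- conjugation
  have hpconj : ∀ (γ : Γ) (x : A), p (MulAut.conjNormal γ x) =
      (π γ).left * φ (π γ).right (p x) * (π γ).left⁻¹ := by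
    intro γ x
    show (π ((MulAut.conjNormal γ x : A) : Γ)).left = _
    rw [MulAut.conjNormal_apply, map_mul, map_mul, map_inv, hconj_left _ _ ((hA x).1 x.2)]
    rfl
  have hconjL : ∀ (γ : Γ) (x : A), p x ∈ L → p (MulAut.conjNormal γ x) ∈ L := by
    intro γ x hx
    rw [hpconj]
    exact hL.conj_mem _ (hLφ _ _ hx) _
  -- lifts
  have hlift : ∀ s : S, ∃ γ : Γ, π γ = SemidirectProduct.inr s := fun s => hπ _
  choose σ hσ using hlift
  have hcent : ∀ k ∈ π.ker, (MulAut.conjNormal k : MulAut A) = 1 := by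
    intro k hk
    ext x
    rw [MulAut.conjNormal_apply, hker k hk, mul_inv_cancel_right]; rfl
  let ψ : S →* MulAut A :=
    { toFun := fun s => MulAut.conjNormal (σ s)
      map_one' := by
        apply hcent
        rw [MonoidHom.mem_ker, hσ, map_one]
      map_mul' := fun s t => by
        have h1 : (σ s * σ t)⁻¹ * σ (s * t) ∈ π.ker := by
          rw [MonoidHom.mem_ker, map_mul, map_inv, map_mul, hσ, hσ, hσ, map_mul, inv_mul_cancel]
        have h2 := hcent _ h1
        rw [map_mul, map_inv, map_mul] at h2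
        exact (inv_mul_eq_one.1 h2).symm }
  have hψ : ∀ s, ψ s = MulAut.conjNormal (σ s) := fun s => rfl
  -- `β` on `A`
  have hβMirr : IsIrrCharacter M (fun x : M => β x) := by
    have h1 : (fun x : M => β x) = fun x => θJ (e x) := funext hβM
    rw [h1]
    exact (isIrrCharacter_mulEquiv e).1 hθJ
  let eN : N ≃* M := Subgroup.subgroupOfEquivOfLe hMA
  have hβN : IsIrrCharacter N (fun n : N => β ((n : A) : Γ)) := (isIrrCharacter_mulEquiv eN).1 hβMirr
  have hβA : IsIrrCharacter A (fun x : A => β x) :=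
    H77.InvOver.irr_of_restrict N.subtype (isCharacter_restrict A (isCharacter_of_isIrr hβ)) hβN
  letI := Fintype.ofFinite A
  set LA := L.comap p with hLA
  letI := Fintype.ofFinite LA
  have hNLA : N ≤ LA := fun n hn => hpN n hn
  let NL : Subgroup LA := N.subgroupOf LA
  letI := Fintype.ofFinite NL
  haveI : NL.Normal := inferInstance
  let eNL : NL ≃* N := Subgroup.subgroupOfEquivOfLe hNLA
  have hβNL : IsIrrCharacter NL (fun n : NL => β (((n : LA) : A) : Γ)) :=
    (isIrrCharacter_mulEquiv eNL).1 hβN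
  have hβLA : IsIrrCharacter LA (fun x : LA => β ((x : A) : Γ)) :=
    H77.InvOver.irr_of_restrict NL.subtype (isCharacter_restrict LA (isCharacter_of_isIrr hβA)) hβNL
  -- `θ ∘ p` on `LA`
  let θL : LA → ℂ := fun x => θ.1 (pH p L x)
  have hθL : IsIrrCharacter LA θL := isIrrCharacter_comp (pH p L) (pH_surj p hpsurj L) θ.2
  have hθJL : ∀ x : LA, θL x = θJ ⟨π x, hpLJ x x.2⟩ := by
    intro x
    show θ.1 _ = θ.1 _
    congr 1
  have hθN : ∀ n : NL, θL n = β (((n : LA) : A) : Γ) := by
    intro n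
    rw [hθJL]
    have hm : (((n : LA) : A) : Γ) ∈ M := n.2
    have h1 := hβM ⟨_, hm⟩
    rw [h1]
    congr 1
    apply Subtype.ext
    exact hπM ⟨_, hm⟩
  obtain ⟨η₀, hη₀, hη₀N, hη₀β⟩ := H83.Gallagher.exists_eq_mul hβLA NL hβNL hθL (by
    have h1 : (fun n : NL => θL n) = fun n : NL => β (((n : LA) : A) : Γ) := funext hθN
    rw [h1, inner_irr_self hβNL]
    exact one_ne_zero)
  have hη1 : η₀ 1 = 1 := by
    have h1 := congrFun hη₀β 1
    have h2 := hθN 1
    have h3 : β (((((1 : NL) : LA) : A)) : Γ) ≠ 0 := irr_one_ne_zero (G := NL) hβNL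
    have h4 : θL 1 = η₀ 1 * β ((((1 : LA)) : A) : Γ) := h1
    have h5 : θL 1 = β (((((1 : NL) : LA) : A)) : Γ) := h2
    rw [h4] at h5
    have h6 : β ((((1 : LA)) : A) : Γ) = β (((((1 : NL) : LA) : A)) : Γ) := rfl
    rw [h6] at h5
    exact mul_right_cancel₀ h3 (h5.trans (one_mul _).symm)
  obtain ⟨lam, hlam⟩ := exists_hom_of_degree_one (isCharacter_of_isIrr hη₀) hη1
  have hlam' : ∀ x : LA, η₀ x = lam x := fun x => by rw [hlam]
  have hθlam : ∀ x : LA, θL x = lam x * β ((x : A) : Γ) := by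
    intro x
    have h1 := congrFun hη₀β x
    rw [← hlam']; exact h1
  have hlamN : ∀ x : LA, (x : A) ∈ N → lam x = 1 := by
    intro x hx
    apply Units.ext
    rw [← hlam' x, hη₀N x hx, hη1]; rfl
  -- conjugation invariance of `lam`
  have hβcl := isClassFunction_of_isIrr hβ
  have hlamconj : ∀ (γ : Γ) (x : LA) (h : (MulAut.conjNormal γ (x : A) : A) ∈ LA),
      lam ⟨MulAut.conjNormal γ (x : A), h⟩ = lam x := by
    intro γ
    let τ : LA →* LA :=
      { toFun := fun x => ⟨MulAut.conjNormal γ (x : A), hconjL γ x x.2⟩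
        map_one' := Subtype.ext (map_one _)
        map_mul' := fun x y => Subtype.ext (map_mul _ _ _) }
    have hτN : ∀ x : LA, (x : A) ∈ N → ((τ x : LA) : A) ∈ N := by
      intro x hx
      show ((MulAut.conjNormal γ (x : A) : A) : Γ) ∈ M
      rw [MulAut.conjNormal_apply]
      exact hM.conj_mem _ hx γ
    have key := H83.Gallagher.mul_inj hβLA NL hβNL (β := fun x : LA => (lam (τ x) : ℂ))
      (γ := fun x : LA => (lam x : ℂ)) (fun g n hn => by
        show ((lam (τ (g * n)) : ℂˣ) : ℂ) = lam (τ g)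
        rw [map_mul, map_mul, hlamN (τ n) (hτN n hn), mul_one]) (fun g n hn => by
        show ((lam (g * n) : ℂˣ) : ℂ) = lam g
        rw [map_mul, hlamN n hn, mul_one]) (fun x => by
        have h1 := hθlam (τ x)
        have h2 := hθlam x
        have h3 : β (((τ x : LA) : A) : Γ) = β ((x : A) : Γ) := by
          show β ((MulAut.conjNormal γ (x : A) : A) : Γ) = _
          rw [MulAut.conjNormal_apply]
          exact hβcl _ _
        rw [h3] at h1
        have h4 : θL (τ x) = θL x := by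
          rw [hθJL, hθJL]
          have h5 := hcj (π γ) ⟨π x, hpLJ x x.2⟩ (by
            rw [← map_mul, ← map_inv, ← map_mul]
            have := hpLJ (τ x) (τ x).2
            have h6 : (((τ x : LA) : A) : Γ) = γ * x * γ⁻¹ := MulAut.conjNormal_apply _ _
            rw [h6] at this
            exact this)
          rw [← h5]
          congr 1
          apply Subtype.ext
          have h6 : (((τ x : LA) : A) : Γ) = γ * x * γ⁻¹ := MulAut.conjNormal_apply _ _
          show π (((τ x : LA) : A) : Γ) = π γ * π x * (π γ)⁻¹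
          rw [h6, map_mul, map_mul, map_inv]
        rw [← h1, ← h2, h4])
    intro x h
    apply Units.ext
    exact congrFun key x
  have hlamtot : ∀ (x : A) (hx : x ∈ LA), (if hx : x ∈ LA then (lam ⟨x, hx⟩ : ℂ) else 0) = lam ⟨x, hx⟩ :=
    fun x hx => dif_pos hx
  refine ⟨A, inferInstance, inferInstance, p, N, fun x : A => β x, lam, ψ, ?_, ?_, ?_, ?_, ?_, ?_, ?_⟩
  · refine ⟨hpsurj, fun x => Iff.rfl, hNLA, inferInstance, hβA, hβN, ?_, ?_, ?_, ?_⟩
    · intro x hx
      show θ.1 _ = (if hx : x ∈ LA then (lam ⟨x, hx⟩ : ℂ) else 0) * β x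
      rw [hlamtot x hx]
      exact hθlam ⟨x, hx⟩
    · intro x hx
      show (if hx : x ∈ LA then (lam ⟨x, hx⟩ : ℂ) else 0) = 1
      rw [hlamtot x (hNLA hx), hlamN ⟨x, hNLA hx⟩ hx, Units.val_one]
    · intro x hx n hn
      show (if hx : x * n ∈ LA then (lam ⟨x * n, hx⟩ : ℂ) else 0) =
        (if hx : x ∈ LA then (lam ⟨x, hx⟩ : ℂ) else 0)
      rw [hlamtot x hx, hlamtot (x * n) (LA.mul_mem hx (hNLA hn))]
      have h1 : (⟨x * n, LA.mul_mem hx (hNLA hn)⟩ : LA) = ⟨x, hx⟩ * ⟨n, hNLA hn⟩ := rfl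
      rw [h1, map_mul, hlamN ⟨n, hNLA hn⟩ hn, mul_one]
    · intro x hx
      show ‖(if hx : x ∈ LA then (lam ⟨x, hx⟩ : ℂ) else 0)‖ = 1
      rw [hlamtot x hx]
      exact hom_norm_one lam _
  · intro s x
    show p (MulAut.conjNormal (σ s) x) = _
    rw [hpconj, hσ]
    simp
  · intro s x
    show β ((MulAut.conjNormal (σ s) x : A) : Γ) = β x
    rw [MulAut.conjNormal_apply]
    exact hβcl _ _
  · intro s n hn
    show ((MulAut.conjNormal (σ s) n : A) : Γ) ∈ M
    rw [MulAut.conjNormal_apply]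
    exact hM.conj_mem _ hn _
  · intro s x h
    exact hlamconj (σ s) x h
  · intro a x h
    have h1 : (MulAut.conjNormal (a : Γ) (x : A) : A) = a * x * a⁻¹ := by
      apply Subtype.ext
      rw [MulAut.conjNormal_apply]; rfl
    have h2 := hlamconj (a : Γ) x (by rw [h1]; exact h)
    rw [← h2]
    congr 1
  · intro k hk x
    have h1 : π (k : Γ) = 1 := by
      rw [hp k, (MonoidHom.mem_ker).1 hk, map_one]
    exact Subtype.ext (hker (k : Γ) h1 x)

end H77.OddJ
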