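import Cfsg.Agent.Lib.H77.OddJ

/-!
# The odd correspondence over an invariant character (helper77)
-/

set_option autoImplicit false
set_option linter.unusedSectionVars false
set_option linter.unusedVariables false
set_option linter.style.haveILetI false
open Cfsg H18 H18.CharBasic H18.CharOrtho H18.CharInd H18.CharQuot H31.Clifford
open H77.GlaubP H77.CopChain
open scoped ComplexConjugate commutatorElement

namespace H77.OddK

open H77.OddE H77.OddG H77.OddH H77.OddI H77.OddJ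

universe u

section main
variable {G : Type u} [Group G] [Fintype G] {S : Type u} [Group S] [Finite S] {φ : S →* MulAut G}
  {K L H : Subgroup G} [hK : K.Normal] [hL : L.Normal] [Fintype L] [Fintype H] (U : Setup φ K L H)
include U

/-- invariance of a function on `H` -/
def InvH (ψ : H → ℂ) : Prop := ∀ s, ∀ (h : G) (hh : h ∈ H), ψ ⟨φ s h, invH U s h hh⟩ = ψ ⟨h, hh⟩

/-- restriction to `L` over `H` -/
theorem over_H {θ : IrrCharacter L}
    (hG : ∀ (g : G) (l : L), θ.1 ⟨g * l * g⁻¹, hL.conj_mem l l.2 g⟩ = θ.1 l)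
    {ψ : H → ℂ} (hψ : IsIrrCharacter H ψ)
    (h : classInner (fun l : L => ψ ⟨l, U.leH l.2⟩) θ.1 ≠ 0) :
    ∃ c : ℂ, ∀ l : L, ψ ⟨l, U.leH l.2⟩ = c * θ.1 l := by
  classical
  set LH := L.subgroupOf H with hLH
  letI : Fintype LH := Fintype.ofFinite _
  let e : LH ≃* L := Subgroup.subgroupOfEquivOfLe U.leH
  let θ' : LH → ℂ := fun x => θ.1 (e x)
  have hθ' : IsIrrCharacter LH θ' := (isIrrCharacter_mulEquiv e).1 θ.2
  have hinv : inertia LH θ' = ⊤ := by
    rw [eq_top_iff]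
    intro g _
    rw [mem_inertia_iff]
    intro l
    exact hG (g : G) (e l)
  have h1 : classInner (fun n : LH => ψ n) θ' ≠ 0 := by
    have h2 := classInner_mulEquiv e (fun l : L => ψ ⟨l, U.leH l.2⟩) θ.1
    have h3 : (fun g => (fun l : L => ψ ⟨l, U.leH l.2⟩) (e g)) = fun n : LH => ψ n := rfl
    rw [h3] at h2
    rw [h2]; exact h
  have h2 := H77.OverInv.restrict_of_inv LH hψ hθ' hinv h1
  refine ⟨classInner (fun n : LH => ψ n) θ', fun l => ?_⟩
  have h3 := congrFun h2 (e.symm l)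
  have h4 : θ' (e.symm l) = θ.1 l := by
    show θ.1 (e (e.symm l)) = _
    rw [MulEquiv.apply_symm_apply]
  rw [Pi.smul_apply, smul_eq_mul, h4] at h3
  exact h3

theorem over_G {θ : IrrCharacter L}
    (hG : ∀ (g : G) (l : L), θ.1 ⟨g * l * g⁻¹, hL.conj_mem l l.2 g⟩ = θ.1 l)
    {χ : G → ℂ} (hχ : IsIrrCharacter G χ) (h : classInner (fun l : L => χ l) θ.1 ≠ 0) :
    ∃ c : ℂ, ∀ l : L, χ l = c * θ.1 l := by
  have hinv : inertia L θ.1 = ⊤ := by
    rw [eq_top_iff]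
    intro g _
    rw [mem_inertia_iff]
    intro l
    exact hG g l
  have h2 := H77.OverInv.restrict_of_inv L hχ θ.2 hinv h
  exact ⟨_, fun l => congrFun h2 l⟩

/-- a constituent of the restriction to `H` lies over `θ` -/
theorem const_over {θ : IrrCharacter L} {χ : G → ℂ} (hχ : IsIrrCharacter G χ) {c : ℂ}
    (hc : ∀ l : L, χ l = c * θ.1 l) {ψ : H → ℂ} (hψ : IsIrrCharacter H ψ)
    (h : classInner (fun x : H => χ x) ψ ≠ 0) :
    classInner (fun l : L => ψ ⟨l, U.leH l.2⟩) θ.1 ≠ 0 := by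
  classical
  set LH := L.subgroupOf H with hLH
  letI : Fintype LH := Fintype.ofFinite _
  let e : LH ≃* L := Subgroup.subgroupOfEquivOfLe U.leH
  have hψL : IsCharacter L (fun l : L => ψ ⟨l, U.leH l.2⟩) :=
    isCharacter_comp (Subgroup.inclusion U.leH) (isCharacter_of_isIrr hψ)
  obtain ⟨ζ, hζ, hne⟩ := exists_constituent hψL (by
    intro h0
    have h1 := congrFun h0 1
    exact irr_one_ne_zero hψ h1)
  have h1 := H77.SubChar.restrict_trans H.subtype (Subgroup.inclusion U.leH)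
    (isCharacter_of_isIrr hχ) hψ (isCharacter_of_isIrr hζ) h hne
  have h2 : (fun b : L => χ (H.subtype (Subgroup.inclusion U.leH b))) = c • θ.1 := by
    funext l; exact hc l
  rw [h2, CharOrtho.inner_smul_left] at h1
  have h3 : classInner θ.1 ζ ≠ 0 := right_ne_zero_of_mul h1
  have h4 : θ.1 = ζ := by
    by_contra hne'
    exact h3 (inner_irr_ne θ.2 hζ hne')
  rw [h4]; exact hne

theorem inv_main (hsolv : Group.IsSolvable G) (θ : IrrCharacter L)
    (hG : ∀ (g : G) (l : L), θ.1 ⟨g * l * g⁻¹, hL.conj_mem l l.2 g⟩ = θ.1 l)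
    (hS : Inv (restrAct φ L U.invL) θ.1) :
    (∀ χ : IrrCharacter G, Inv φ χ.1 → classInner (fun l : L => χ.1 l) θ.1 ≠ 0 →
      ∃ ψ : IrrCharacter H, ∀ ψ' : IrrCharacter H, OddM (fun h : H => χ.1 h) ψ'.1 ↔ ψ' = ψ) ∧
    (∀ χ χ' : IrrCharacter G, Inv φ χ.1 → classInner (fun l : L => χ.1 l) θ.1 ≠ 0 →
      Inv φ χ'.1 → classInner (fun l : L => χ'.1 l) θ.1 ≠ 0 → ∀ ψ : IrrCharacter H,
      OddM (fun h : H => χ.1 h) ψ.1 → OddM (fun h : H => χ'.1 h) ψ.1 → χ = χ') ∧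
    (∀ ψ : IrrCharacter H, (∀ s, ∀ (h : G) (hh : h ∈ H), ψ.1 ⟨φ s h, invH U s h hh⟩ = ψ.1 ⟨h, hh⟩) →
      classInner (fun l : L => ψ.1 ⟨l, U.leH l.2⟩) θ.1 ≠ 0 →
      ∃ χ : IrrCharacter G, Inv φ χ.1 ∧ classInner (fun l : L => χ.1 l) θ.1 ≠ 0 ∧
        OddM (fun h : H => χ.1 h) ψ.1) := by
  classical
  obtain ⟨A, _, _, p, N, β, lam, φA, C, hpφ, hβφ, hNφ, hlamφ, hlamA, hker⟩ :=
    exists_equiv_cover φ L U.invL θ hG hS
  letI := Fintype.ofFinite A
  have hpsurj := C.surj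
  have UA : Setup φA (K.comap p) (L.comap p) (H.comap p) := Setup.comap U p hpsurj φA hpφ
  letI : Fintype (H.comap p) := Fintype.ofFinite _
  haveI : (K.comap p).Normal := inferInstance
  haveI : (L.comap p).Normal := inferInstance
  have hsolvA : Group.IsSolvable A := by
    haveI := hsolv
    haveI : Group.IsSolvable p.ker := by
      apply Group.isSolvable_of_comm
      intro a b
      exact Subtype.ext (hker a a.2 b)
    exact Group.isSolvable_of_ker_le_range p.ker.subtype p (by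
      rw [Subgroup.range_subtype])
  obtain ⟨hA1, hA2, hA3⟩ := linear_main UA hsolvA lam (fun g l => hlamA g l _)
    (fun s l => hlamφ s l _)
  have CH := Cov.res C H U.leH
  set lamT : A → ℂ := fun x => if hx : x ∈ L.comap p then (lam ⟨x, hx⟩ : ℂ) else 0 with hlamT
  have hlamT' : ∀ x : L.comap p, lamT x = lam x := fun x => dif_pos x.2
  -- the two levels
  have upG : ∀ χ : IrrCharacter G, Inv φ χ.1 → classInner (fun l : L => χ.1 l) θ.1 ≠ 0 →
      ∃ η : IrrCharacter A, (∀ a, χ.1 (p a) = η.1 a * β a) ∧ (∀ n ∈ N, ∀ a, η.1 (a * n) = η.1 a) ∧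
        (∀ l : L.comap p, η.1 l = η.1 1 * lam l) ∧ Inv φA η.1 := by
    intro χ hχ hχθ
    obtain ⟨c, hc⟩ := over_G U hG χ.2 hχθ
    obtain ⟨η, h1, h2, h3⟩ := up C χ.2 hc
    refine ⟨η, h1, h2, fun l => by rw [h3 l l.2, hlamT'], fun s x => ?_⟩
    have key := inj_cov C (η := fun x => η.1 (φA s x)) (η' := η.1) (fun a => by
      have h4 := h1 (φA s a)
      rw [hβφ, hpφ, hχ, h1] at h4
      exact h4.symm) (fun n hn a => by
      show η.1 (φA s (a * n)) = _
      rw [map_mul]; exact h2 _ (hNφ s n hn) _) h2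
    exact congrFun key x
  have upH : ∀ ψ : IrrCharacter H, classInner (fun l : L => ψ.1 ⟨l, U.leH l.2⟩) θ.1 ≠ 0 →
      ∃ η : IrrCharacter (H.comap p), (∀ a, ψ.1 (pH p H a) = η.1 a * β a) ∧
        (∀ n ∈ N.subgroupOf (H.comap p), ∀ a, η.1 (a * n) = η.1 a) ∧
        (∀ (l : A) (hl : l ∈ L.comap p), η.1 ⟨l, UA.leH hl⟩ = η.1 1 * lam ⟨l, hl⟩) := by
    intro ψ hψ
    obtain ⟨c, hc⟩ := over_H U hG ψ.2 hψ
    obtain ⟨η, h1, h2, h3⟩ := up CH ψ.2 (c := c) (fun l => hc ⟨(l : H), l.2⟩)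
    refine ⟨η, h1, h2, fun l hl => ?_⟩
    have h4 := h3 ⟨l, UA.leH hl⟩ hl
    rw [h4]
    show η.1 1 * lamT l = _
    rw [hlamT' ⟨l, hl⟩]
  have restN : ∀ η : IrrCharacter A, (∀ n ∈ N, ∀ a, η.1 (a * n) = η.1 a) →
      ∀ n ∈ N.subgroupOf (H.comap p), ∀ a : H.comap p, η.1 ((a * n : H.comap p) : A) = η.1 a := by
    intro η h n hn a
    exact h _ hn _
  -- over λ for constituents
  have overlam : ∀ η : IrrCharacter A, (∀ l : L.comap p, η.1 l = η.1 1 * lam l) →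
      ∀ ζ : IrrCharacter (H.comap p), classInner (fun h : H.comap p => η.1 h) ζ.1 ≠ 0 →
      ∀ (l : A) (hl : l ∈ L.comap p), ζ.1 ⟨l, UA.leH hl⟩ = ζ.1 1 * lam ⟨l, hl⟩ := by
    intro η h ζ hζ l hl
    exact scal (isCharacter_restrict _ (isCharacter_of_isIrr η.2)) ζ.2 hζ (hom_norm_one lam _)
      (h ⟨l, hl⟩)
  have odd_ne : ∀ {B : Type u} [Group B] [Fintype B] {χ ψ : B → ℂ}, OddM χ ψ → classInner χ ψ ≠ 0 := by
    rintro B _ _ χ ψ ⟨n, hn, hn'⟩
    rw [hn']
    rintro h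
    have : n = 0 := by exact_mod_cast h
    rw [this] at hn
    exact absurd hn (by decide)
  have innerEq : ∀ (χ : IrrCharacter G) (η : IrrCharacter A) (ψ : IrrCharacter H)
      (ζ : IrrCharacter (H.comap p)), (∀ a, χ.1 (p a) = η.1 a * β a) →
      (∀ n ∈ N, ∀ a, η.1 (a * n) = η.1 a) → (∀ a, ψ.1 (pH p H a) = ζ.1 a * β a) →
      (∀ n ∈ N.subgroupOf (H.comap p), ∀ a, ζ.1 (a * n) = ζ.1 a) →
      classInner (fun h : H => χ.1 h) ψ.1 = classInner (fun h : H.comap p => η.1 h) ζ.1 := by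
    intro χ η ψ ζ h1 h2 h3 h4
    exact inner_cov CH (χ := fun h : H => χ.1 h) (η := fun h : H.comap p => η.1 h)
      (fun a => h1 a) h3 (restN η h2) h4
  refine ⟨?_, ?_, ?_⟩
  · intro χ hχ hχθ
    obtain ⟨η, h1, h2, h3, h4⟩ := upG χ hχ hχθ
    obtain ⟨ζ, hζ⟩ := hA1 η h4 h3
    have hζne := odd_ne ((hζ ζ).2 rfl)
    have hζL := overlam η h3 ζ hζne
    obtain ⟨ψ, hψ1, hψ2⟩ := down CH ζ.2 (fun x hx => by
      show ζ.1 x = ζ.1 1 * lamT x
      rw [hlamT' ⟨x, hx⟩]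
      exact hζL x hx)
    have hζN : ∀ n ∈ N.subgroupOf (H.comap p), ∀ a, ζ.1 (a * n) = ζ.1 a := by
      intro n hn a
      apply char_mul_right (isCharacter_of_isIrr ζ.2)
      have h5 := hζL n (C.hN hn)
      have h6 : lam ⟨n, C.hN hn⟩ = 1 := by
        apply Units.ext
        have := C.lamN n hn
        rw [← hlamT' ⟨n, C.hN hn⟩]
        exact this
      rw [h6, Units.val_one, mul_one] at h5
      exact h5
    obtain ⟨c, hc⟩ := over_G U hG χ.2 hχθ
    refine ⟨ψ, fun ψ' => ⟨fun hodd => ?_, ?_⟩⟩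
    · have h5 := const_over U χ.2 hc ψ'.2 (odd_ne hodd)
      obtain ⟨ζ', h6, h7, h8⟩ := upH ψ' h5
      have h9 : OddM (fun h : H.comap p => η.1 h) ζ'.1 := by
        obtain ⟨n, hn, hn'⟩ := hodd
        exact ⟨n, hn, by rw [← innerEq χ η ψ' ζ' h1 h2 h6 h7]; exact hn'⟩
      have h10 := (hζ ζ').1 h9
      subst h10
      apply Subtype.ext
      funext h
      obtain ⟨a, rfl⟩ := pH_surj p hpsurj H h
      rw [h6, hψ1]
    · rintro rfl
      obtain ⟨n, hn, hn'⟩ := (hζ ζ).2 rfl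
      exact ⟨n, hn, by rw [innerEq χ η _ ζ h1 h2 hψ1 hζN]; exact hn'⟩
  · intro χ χ' hχ hχθ hχ' hχθ' ψ ho ho'
    obtain ⟨η, h1, h2, h3, h4⟩ := upG χ hχ hχθ
    obtain ⟨η', h1', h2', h3', h4'⟩ := upG χ' hχ' hχθ'
    obtain ⟨c, hc⟩ := over_G U hG χ.2 hχθ
    have h5 := const_over U χ.2 hc ψ.2 (odd_ne ho)
    obtain ⟨ζ, h6, h7, h8⟩ := upH ψ h5
    have h9 : OddM (fun h : H.comap p => η.1 h) ζ.1 := by
      obtain ⟨n, hn, hn'⟩ := ho
      exact ⟨n, hn, by rw [← innerEq χ η ψ ζ h1 h2 h6 h7]; exact hn'⟩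
    have h9' : OddM (fun h : H.comap p => η'.1 h) ζ.1 := by
      obtain ⟨n, hn, hn'⟩ := ho'
      exact ⟨n, hn, by rw [← innerEq χ' η' ψ ζ h1' h2' h6 h7]; exact hn'⟩
    have h10 := hA2 η η' h4 h3 h4' h3' ζ h9 h9'
    subst h10
    apply Subtype.ext
    funext g
    obtain ⟨a, rfl⟩ := hpsurj g
    rw [h1, h1']
  · intro ψ hψ hψθ
    obtain ⟨ζ, h6, h7, h8⟩ := upH ψ hψθ
    have hζinv : ∀ s, ∀ (h : A) (hh : h ∈ H.comap p), ζ.1 ⟨φA s h, invH UA s h hh⟩ = ζ.1 ⟨h, hh⟩ := by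
      intro s
      let τ : H.comap p → H.comap p := fun h => ⟨φA s h, invH UA s h h.2⟩
      have key := inj_cov CH (η := fun x => ζ.1 (τ x)) (η' := ζ.1) (fun a => by
        have h9 := h6 (τ a)
        have h10 : β ((τ a : H.comap p) : A) = β (a : A) := hβφ s a
        have h11 : ψ.1 (pH p H (τ a)) = ψ.1 (pH p H a) := by
          have h12 := hψ s (p (a : A)) a.2
          rw [show pH p H a = ⟨p (a : A), a.2⟩ from rfl, ← h12]
          exact congrArg ψ.1 (Subtype.ext (hpφ s a))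
        rw [h10, h11, h6] at h9
        exact h9.symm) (fun n hn a => by
        show ζ.1 (τ (a * n)) = ζ.1 (τ a)
        have h9 : τ (a * n) = τ a * τ n := by
          apply Subtype.ext
          show φA s ((a : A) * n) = _
          rw [map_mul]; rfl
        rw [h9]
        exact h7 _ (hNφ s n hn) _) h7
      intro h hh
      exact congrFun key ⟨h, hh⟩
    obtain ⟨η, h9, h10, h11⟩ := hA3 ζ hζinv (fun l => h8 l l.2)
    obtain ⟨χ, h12, h13⟩ := down C η.2 (fun x hx => by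
      show η.1 x = η.1 1 * lamT x
      rw [hlamT' ⟨x, hx⟩]
      exact h10 ⟨x, hx⟩)
    have hηN : ∀ n ∈ N, ∀ a, η.1 (a * n) = η.1 a := by
      intro n hn a
      apply char_mul_right (isCharacter_of_isIrr η.2)
      have h5 := h10 ⟨n, C.hN hn⟩
      have h6 : lam ⟨n, C.hN hn⟩ = 1 := by
        apply Units.ext
        have := C.lamN n hn
        rw [← hlamT' ⟨n, C.hN hn⟩]
        exact this
      rw [h6, Units.val_one, mul_one] at h5
      exact h5
    refine ⟨χ, fun s g => ?_, ?_, ?_⟩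
    · obtain ⟨a, rfl⟩ := hpsurj g
      rw [← hpφ, h12, h12, h9, hβφ]
    · have h14 : (fun l : L => χ.1 l) = η.1 1 • θ.1 := by
        funext l; exact h13 l
      rw [h14, CharOrtho.inner_smul_left, inner_irr_self θ.2, mul_one]
      exact irr_one_ne_zero η.2
    · obtain ⟨n, hn, hn'⟩ := h11
      exact ⟨n, hn, by rw [innerEq χ η ψ ζ h12 hηN h6 h7]; exact hn'⟩

end main

end H77.OddK
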