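import Cfsg.Agent.Lib.H77.OddK

/-!
# The odd correspondence: Clifford reduction (helper77)
-/

set_option autoImplicit false
set_option linter.unusedSectionVars false
set_option linter.unusedVariables false
set_option linter.style.haveILetI false
open Cfsg H18 H18.CharBasic H18.CharOrtho H18.CharInd H18.CharQuot H31.Clifford
open H77.GlaubP H77.CopChain
open scoped ComplexConjugate commutatorElement

namespace H77.OddL

open H77.OddE H77.OddG H77.OddH H77.OddI H77.OddJ H77.OddK

universe u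

section
variable {G : Type u} [Group G] [Fintype G] {S : Type u} [Group S] [Finite S] {φ : S →* MulAut G}
  {K L H : Subgroup G} [hK : K.Normal] [hL : L.Normal] [Fintype L] [Fintype H] (U : Setup φ K L H)
include U

theorem conj_eq_act {θ : L → ℂ} (hS : Inv (restrAct φ L U.invL) θ) (s : S) (g : G) (l : L) :
    conjFunN L g θ (restrAct φ L U.invL s l) = conjFunN L (φ s⁻¹ g) θ l := by
  rw [cj_apply, cj_apply]
  refine Eq.trans (congrArg θ (Subtype.ext ?_)) (hS s _)
  show g * ((restrAct φ L U.invL s l : L) : G) * g⁻¹ = φ s (φ s⁻¹ g * l * (φ s⁻¹ g)⁻¹)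
  rw [restrAct_coe, map_mul (φ s), map_mul (φ s), map_inv (φ s), act_act_inv]

theorem inertia_inv {θ : L → ℂ} (hS : Inv (restrAct φ L U.invL) θ) :
    ∀ s, ∀ t ∈ inertia L θ, φ s t ∈ inertia L θ := by
  intro s t ht
  rw [mem_inertia] at ht ⊢
  funext l
  have h1 := conj_eq_act U hS s⁻¹ t l
  rw [inv_inv] at h1
  rw [← h1, ht]
  exact hS s⁻¹ l

/-- elements of `K` moving `θ` to an invariant character -/
theorem mem_T_of_inv {θ : L → ℂ} (hθ : IsClassFunction L θ) (hS : Inv (restrAct φ L U.invL) θ)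
    {k h : G} (hk : k ∈ K) (hh : h ∈ H)
    (hinv : Inv (restrAct φ L U.invL) (conjFunN L (k * h) θ)) : k ∈ inertia L θ := by
  have hLT : L ≤ inertia L θ := le_inertia L hθ
  have h1 : k ∈ K ⊓ inertia L θ := by
    refine fix U (K ⊓ inertia L θ) (le_inf U.le hLT) inf_le_left
      (fun s x hx => ⟨U.invK s x hx.1, inertia_inv U hS s x hx.2⟩) hk (fun s => ?_)
    refine ⟨K.mul_mem (U.invK s k hk) (K.inv_mem hk), ?_⟩
    have h2 : conjFunN L (φ s (k * h)) θ = conjFunN L (k * h) θ := by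
      funext l
      have h3 := conj_eq_act U hS s⁻¹ (k * h) l
      rw [inv_inv] at h3
      rw [← h3]
      exact hinv s⁻¹ l
    have h3 : φ s (k * h) * (k * h)⁻¹ ∈ inertia L θ := by
      rw [mem_inertia, ← cj_mul, h2, cj_mul, mul_inv_cancel, cj_one]
    have h4 : φ s k * k⁻¹ = (φ s (k * h) * (k * h)⁻¹) * (k * (φ s h * h⁻¹)⁻¹ * k⁻¹) := by
      rw [map_mul]; group
    rw [h4]
    exact (inertia L θ).mul_mem h3 (hLT (hL.conj_mem _ (L.inv_mem (U.cen h hh s)) k))
  exact h1.2

/-- the configuration inside the inertia group -/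
theorem setup_T {θ : L → ℂ} (hθ : IsClassFunction L θ) (hS : Inv (restrAct φ L U.invL) θ) :
    Setup (restrAct φ (inertia L θ) (inertia_inv U hS)) ((K ⊓ inertia L θ).subgroupOf (inertia L θ))
      (L.subgroupOf (inertia L θ)) ((H ⊓ inertia L θ).subgroupOf (inertia L θ)) := by
  have hLT : L ≤ inertia L θ := le_inertia L hθ
  have hle : L ≤ K ⊓ inertia L θ := le_inf U.le hLT
  set T := inertia L θ with hT
  have hidx : (L.subgroupOf T).index ∣ L.index := Subgroup.relIndex_dvd_index_of_normal L T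
  have hKT : ∀ s, ∀ x ∈ K ⊓ T, φ s x ∈ K ⊓ T :=
    fun s x hx => ⟨U.invK s x hx.1, inertia_inv U hS s x hx.2⟩
  refine
    { le := ?_, leH := ?_, com := ?_, invK := ?_, invL := ?_, cop := ?_, odd := ?_, sup := ?_,
      cen := ?_, HK := ?_ }
  · intro x hx
    exact hle hx
  · intro x hx
    exact ⟨U.leH hx, x.2⟩
  · intro x hx y hy
    exact U.com _ hx.1 _ hy.1
  · intro s k hk
    exact hKT s _ hk
  · intro s k hk
    exact U.invL s _ hk
  · exact U.cop.coprime_dvd_right hidx
  · exact Odd.of_dvd_nat U.odd hidx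
  · rw [eq_top_iff]
    intro t _
    have ht : (t : G) ∈ K ⊔ H := U.sup ▸ Subgroup.mem_top _
    rw [Subgroup.mem_sup_of_normal_left] at ht
    obtain ⟨k, hk, h, hh, he⟩ := ht
    have hkT : k ∈ T := by
      apply mem_T_of_inv U hθ hS hk hh
      rw [he]
      have : conjFunN L (t : G) θ = θ := t.2
      rw [this]; exact hS
    have hhT : h ∈ T := by
      have : h = k⁻¹ * t := by rw [← he]; group
      rw [this]; exact T.mul_mem (T.inv_mem hkT) t.2
    have h1 : t = (⟨k, hkT⟩ : T) * ⟨h, hhT⟩ := Subtype.ext he.symm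
    rw [h1]
    exact Subgroup.mul_mem_sup (show _ ∈ (K ⊓ T).subgroupOf T from ⟨hk, hkT⟩)
      (show _ ∈ (H ⊓ T).subgroupOf T from ⟨hh, hhT⟩)
  · intro h hh s
    exact U.cen _ hh.1 s
  · intro a ha ha'
    let e : (K ⊓ T).subgroupOf T ≃* (K ⊓ T : Subgroup G) := Subgroup.subgroupOfEquivOfLe inf_le_right
    have h1 : a.comp e.symm.toMonoidHom = 1 := by
      apply HK_sub U (K ⊓ T) hle inf_le_left hKT
      · intro l hl
        exact ha (e.symm l) hl
      · intro s k
        exact ha' s (e.symm k)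
    ext x
    have h2 := DFunLike.congr_fun h1 (e x)
    have h3 : a (e.symm (e x)) = 1 := h2
    rw [MulEquiv.symm_apply_apply] at h3
    rw [h3]; rfl

/-- Clifford correspondent over the inertia group -/
theorem corrG {θ : IrrCharacter L} {χ : G → ℂ} (hχ : IsIrrCharacter G χ)
    (h : classInner (fun l : L => χ l) θ.1 ≠ 0) [Fintype (inertia L θ.1)] :
    ∃ χ₀ : IrrCharacter (inertia L θ.1),
      classInner (resH (le_inertia L (isClassFunction_of_isIrr θ.2)) χ₀.1) θ.1 ≠ 0 ∧
      classInner (fun t : inertia L θ.1 => χ t) χ₀.1 ≠ 0 := by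
  have hLT := le_inertia L (isClassFunction_of_isIrr θ.2)
  obtain ⟨χ₀, h1, h2, h3⟩ := H77.SubChar.exists_between (inertia L θ.1).subtype
    (Subgroup.inclusion hLT) (isCharacter_of_isIrr hχ) (isCharacter_of_isIrr θ.2) h
  exact ⟨⟨χ₀, h1⟩, h3, h2⟩

/-- multiplicities are preserved by the Clifford correspondences -/
theorem mult_corr {θ : IrrCharacter L} [Fintype (inertia L θ.1)] {D : Type u} [Group D] [Fintype D]
    (iT : D →* inertia L θ.1) (iH : D →* H) (hcompat : ∀ d, ((iT d : inertia L θ.1) : G) = (iH d : G))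
    (iL : L →* D) (hiL : ∀ l, ((iT (iL l) : inertia L θ.1) : G) = l)
    {χ : G → ℂ} (hχ : IsIrrCharacter G χ) {χ₀ : IrrCharacter (inertia L θ.1)}
    (h1 : classInner (resH (le_inertia L (isClassFunction_of_isIrr θ.2)) χ₀.1) θ.1 ≠ 0)
    (h2 : classInner (fun t : inertia L θ.1 => χ t) χ₀.1 ≠ 0)
    {ψ₀ : D → ℂ} (hψ₀ : IsIrrCharacter D ψ₀) (hψθ : classInner (fun l : L => ψ₀ (iL l)) θ.1 ≠ 0) :
    classInner (fun d : D => χ (iH d)) ψ₀ = classInner (fun d : D => χ₀.1 (iT d)) ψ₀ := by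
  have hLT := le_inertia L (isClassFunction_of_isIrr θ.2)
  obtain ⟨h3, h4⟩ := corr_core L (inertia L θ.1) hLT θ.2 (fun g => Iff.rfl) χ₀.2 h1 hχ h2
  have hΔ := isCharacter_sub_constituent (isCharacter_restrict (inertia L θ.1) (isCharacter_of_isIrr hχ)) χ₀.2 h2
  have h5 : classInner (fun d : D => ((fun t : inertia L θ.1 => χ t) - χ₀.1) (iT d)) ψ₀ = 0 := by
    by_contra hne
    have h6 := H77.SubChar.restrict_trans iT iL hΔ hψ₀ (isCharacter_of_isIrr θ.2) hne hψθ
    apply h6
    have h7 : (fun b : L => ((fun t : inertia L θ.1 => χ t) - χ₀.1) (iT (iL b))) =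
        (fun l : L => χ l) - resH hLT χ₀.1 := by
      funext l
      have h8 : iT (iL l) = ⟨l, hLT l.2⟩ := Subtype.ext (hiL l)
      rw [h8]; rfl
    rw [h7, CharOrtho.inner_sub_left, h4, sub_self]
  have h6 : (fun d : D => χ (iH d)) =
      (fun d : D => ((fun t : inertia L θ.1 => χ t) - χ₀.1) (iT d)) + fun d : D => χ₀.1 (iT d) := by
    funext d
    show χ (iH d) = (χ ((iT d : inertia L θ.1) : G) - χ₀.1 (iT d)) + χ₀.1 (iT d)
    rw [hcompat, sub_add_cancel]
  rw [h6, CharOrtho.inner_add_left, h5, zero_add]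

end

end H77.OddL
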