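import Cfsg.Agent.Lib.H77.OddL

/-!
# The odd correspondence: Clifford reduction, II (helper77)
-/

set_option autoImplicit false
set_option linter.unusedSectionVars false
set_option linter.unusedVariables false
set_option linter.style.haveILetI false
open Cfsg H18 H18.CharBasic H18.CharOrtho H18.CharInd H18.CharQuot H31.Clifford
open H77.GlaubP H77.CopChain
open scoped ComplexConjugate commutatorElement

namespace H77.OddN

open H77.OddE H77.OddG H77.OddH H77.OddI H77.OddJ H77.OddK H77.OddL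

universe u

section
variable {G : Type u} [Group G] {L : Subgroup G} [hL : L.Normal]

/-- two models of the intersection -/
def eD (H T : Subgroup G) : (H ⊓ T).subgroupOf T ≃* T.subgroupOf H where
  toFun d := ⟨⟨((d : T) : G), d.2.1⟩, (d : T).2⟩
  invFun x := ⟨⟨((x : H) : G), x.2⟩, ⟨(x : H).2, x.2⟩⟩
  left_inv d := rfl
  right_inv x := rfl
  map_mul' a b := rfl

/-- inclusion into `H` -/
def iH (H T : Subgroup G) : (H ⊓ T).subgroupOf T →* H := (T.subgroupOf H).subtype.comp (eD H T).toMonoidHom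

theorem iH_coe (H T : Subgroup G) (d : (H ⊓ T).subgroupOf T) : ((iH H T d : H) : G) = ((d : T) : G) := rfl

/-- inclusion of `L` -/
def iL {H T : Subgroup G} (hH : L ≤ H) (hT : L ≤ T) : L →* (H ⊓ T).subgroupOf T where
  toFun l := ⟨⟨l, hT l.2⟩, ⟨hH l.2, hT l.2⟩⟩
  map_one' := rfl
  map_mul' a b := rfl

theorem hLT [Fintype G] (θ : IrrCharacter L) : L ≤ inertia L θ.1 := le_inertia L (isClassFunction_of_isIrr θ.2)

variable [Fintype G] [Fintype L] (H : Subgroup G) [Fintype H] (hH : L ≤ H) (θ : IrrCharacter L)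
  [Fintype ((H ⊓ inertia L θ.1).subgroupOf (inertia L θ.1))]

/-- over `θ`, for `H` -/
def OvH (hH : L ≤ H) (θ : IrrCharacter L) (ψ : H → ℂ) : Prop :=
  classInner (fun l : L => ψ ⟨l, hH l.2⟩) θ.1 ≠ 0

/-- over `θ`, for the intersection -/
def OvD (hH : L ≤ H) (θ : IrrCharacter L)
    (ψ : (H ⊓ inertia L θ.1).subgroupOf (inertia L θ.1) → ℂ) : Prop :=
  classInner (fun l : L => ψ (iL hH (hLT θ) l)) θ.1 ≠ 0

theorem exists_down {ψ : H → ℂ} (hψ : IsIrrCharacter H ψ) (h : OvH H hH θ ψ) :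
    ∃ ψ₀ : IrrCharacter ((H ⊓ inertia L θ.1).subgroupOf (inertia L θ.1)), OvD H hH θ ψ₀.1 ∧
      classInner (fun d => ψ (iH H (inertia L θ.1) d)) ψ₀.1 ≠ 0 := by
  obtain ⟨ψ₀, h1, h2, h3⟩ := H77.SubChar.exists_between (iH H (inertia L θ.1))
    (iL hH (hLT θ)) (isCharacter_of_isIrr hψ) (isCharacter_of_isIrr θ.2) h
  exact ⟨⟨ψ₀, h1⟩, h3, h2⟩

theorem ovH_of_ovD {ψ : H → ℂ} (hψ : IsIrrCharacter H ψ)
    {ψ₀ : (H ⊓ inertia L θ.1).subgroupOf (inertia L θ.1) → ℂ} (hψ₀ : IsIrrCharacter _ ψ₀)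
    (h : OvD H hH θ ψ₀) (h2 : classInner (fun d => ψ (iH H (inertia L θ.1) d)) ψ₀ ≠ 0) :
    OvH H hH θ ψ :=
  H77.SubChar.restrict_trans (iH H (inertia L θ.1)) (iL hH (hLT θ)) (isCharacter_of_isIrr hψ)
    hψ₀ (isCharacter_of_isIrr θ.2) h2 h

/-- `θ` on `L ≤ H` -/
def thH (θ : IrrCharacter L) : L.subgroupOf H → ℂ := fun x => θ.1 ⟨(x : H), x.2⟩

include hH in
theorem thH_irr : IsIrrCharacter (L.subgroupOf H) (thH H θ) :=
  (isIrrCharacter_mulEquiv (Subgroup.subgroupOfEquivOfLe hH)).1 θ.2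

include hH in
theorem thH_inertia (g : H) : g ∈ (inertia L θ.1).subgroupOf H ↔
    conjFunN (L.subgroupOf H) g (thH H θ) = thH H θ := by
  rw [Subgroup.mem_subgroupOf, mem_inertia]
  constructor
  · intro h
    funext x
    exact congrFun h ⟨(x : H), x.2⟩
  · intro h
    funext l
    exact congrFun h ⟨⟨l, hH l.2⟩, l.2⟩

theorem transfer {ψ₀ : (H ⊓ inertia L θ.1).subgroupOf (inertia L θ.1) → ℂ}
    (hψ₀ : IsIrrCharacter _ ψ₀) (h : OvD H hH θ ψ₀) [Fintype ((inertia L θ.1).subgroupOf H)]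
    [Fintype (L.subgroupOf H)] :
    ∃ hle : L.subgroupOf H ≤ (inertia L θ.1).subgroupOf H,
      IsIrrCharacter ((inertia L θ.1).subgroupOf H) (fun x => ψ₀ ((eD H (inertia L θ.1)).symm x)) ∧
      classInner (resH hle (fun x => ψ₀ ((eD H (inertia L θ.1)).symm x))) (thH H θ) ≠ 0 ∧
      ∀ χ : H → ℂ, classInner (fun x : (inertia L θ.1).subgroupOf H => χ x)
        (fun x => ψ₀ ((eD H (inertia L θ.1)).symm x)) =
          classInner (fun d => χ (iH H (inertia L θ.1) d)) ψ₀ := by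
  have hle : L.subgroupOf H ≤ (inertia L θ.1).subgroupOf H := fun x hx => hLT θ hx
  refine ⟨hle, (isIrrCharacter_mulEquiv (eD H (inertia L θ.1)).symm).1 hψ₀, ?_, fun χ => ?_⟩
  · have h1 := classInner_mulEquiv (Subgroup.subgroupOfEquivOfLe hH)
      (fun l : L => ψ₀ (iL hH (hLT θ) l)) θ.1
    intro h2
    apply h
    rw [← h1]
    exact h2
  · have h1 := classInner_mulEquiv (eD H (inertia L θ.1)).symm
      (fun d => χ (iH H (inertia L θ.1) d)) ψ₀
    rw [← h1]; rfl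

/-- Clifford correspondence in terms of the intersection -/
theorem corr_H {ψ₀ : (H ⊓ inertia L θ.1).subgroupOf (inertia L θ.1) → ℂ}
    (hψ₀ : IsIrrCharacter _ ψ₀) (h : OvD H hH θ ψ₀) :
    ∃ ψ : IrrCharacter H, OvH H hH θ ψ.1 ∧
      classInner (fun d => ψ.1 (iH H (inertia L θ.1) d)) ψ₀ ≠ 0 ∧
      (∀ ψ' : H → ℂ, IsIrrCharacter H ψ' →
        classInner (fun d => ψ' (iH H (inertia L θ.1) d)) ψ₀ ≠ 0 → ψ' = ψ.1) ∧
      ∀ χ : H → ℂ, IsClassFunction H χ → classInner χ ψ.1 =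
        classInner (fun d => χ (iH H (inertia L θ.1) d)) ψ₀ := by
  classical
  letI : Fintype ((inertia L θ.1).subgroupOf H) := Fintype.ofFinite _
  letI : Fintype (L.subgroupOf H) := Fintype.ofFinite _
  obtain ⟨hle, h1, h2, h3⟩ := transfer H hH θ hψ₀ h
  obtain ⟨hirr, -⟩ := corr_irr (L.subgroupOf H) ((inertia L θ.1).subgroupOf H) hle
    (thH_irr H hH θ) (thH_inertia H hH θ) h1 h2
  have h4 : ∀ χ : H → ℂ, IsClassFunction H χ →
      classInner χ (indFun ((inertia L θ.1).subgroupOf H)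
        (fun x => ψ₀ ((eD H (inertia L θ.1)).symm x))) =
        classInner (fun d => χ (iH H (inertia L θ.1) d)) ψ₀ := by
    intro χ hχ
    rw [frobenius' _ _ hχ, h3]
  have h5 : classInner (fun d => (indFun ((inertia L θ.1).subgroupOf H)
        (fun x => ψ₀ ((eD H (inertia L θ.1)).symm x))) (iH H (inertia L θ.1) d)) ψ₀ ≠ 0 := by
    rw [← h4 _ (isClassFunction_of_isIrr hirr), inner_irr_self hirr]
    exact one_ne_zero
  refine ⟨⟨_, hirr⟩, ovH_of_ovD H hH θ hirr hψ₀ h h5, h5, ?_, h4⟩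
  intro ψ' hψ' h6
  rw [← h3] at h6
  exact (corr_core (L.subgroupOf H) ((inertia L θ.1).subgroupOf H) hle
    (thH_irr H hH θ) (thH_inertia H hH θ) h1 h2 hψ' h6).1.symm

theorem corr_H_inj {ψ : H → ℂ} (hψ : IsIrrCharacter H ψ)
    {ψ₀ ψ₁ : (H ⊓ inertia L θ.1).subgroupOf (inertia L θ.1) → ℂ}
    (hψ₀ : IsIrrCharacter _ ψ₀) (h : OvD H hH θ ψ₀) (hψ₁ : IsIrrCharacter _ ψ₁)
    (h' : OvD H hH θ ψ₁) (h2 : classInner (fun d => ψ (iH H (inertia L θ.1) d)) ψ₀ ≠ 0)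
    (h2' : classInner (fun d => ψ (iH H (inertia L θ.1) d)) ψ₁ ≠ 0) : ψ₀ = ψ₁ := by
  classical
  letI : Fintype ((inertia L θ.1).subgroupOf H) := Fintype.ofFinite _
  letI : Fintype (L.subgroupOf H) := Fintype.ofFinite _
  obtain ⟨hle, h3, h4, h5⟩ := transfer H hH θ hψ₀ h
  obtain ⟨_, h3', h4', h5'⟩ := transfer H hH θ hψ₁ h'
  rw [← h5] at h2
  rw [← h5'] at h2'
  have h6 := (corr_core (L.subgroupOf H) ((inertia L θ.1).subgroupOf H) hle
    (thH_irr H hH θ) (thH_inertia H hH θ) h3 h4 hψ h2).1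
  have h7 := (corr_core (L.subgroupOf H) ((inertia L θ.1).subgroupOf H) hle
    (thH_irr H hH θ) (thH_inertia H hH θ) h3' h4' hψ h2').1
  have h8 := corr_inj (L.subgroupOf H) ((inertia L θ.1).subgroupOf H) hle
    (thH_irr H hH θ) (thH_inertia H hH θ) h3 h3' h4 h4' (h6.trans h7.symm)
  funext d
  have h9 := congrFun h8 (eD H (inertia L θ.1) d)
  simp only [MulEquiv.symm_apply_apply] at h9
  exact h9

end

end H77.OddN
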