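import Cfsg.Agent.Lib.H77.OddN

/-!
# The odd correspondence: main theorem (helper77)
-/

set_option autoImplicit false
set_option linter.unusedSectionVars false
set_option linter.unusedVariables false
set_option linter.style.haveILetI false
open Cfsg H18 H18.CharBasic H18.CharOrtho H18.CharInd H18.CharQuot H31.Clifford
open H77.GlaubP H77.CopChain
open scoped ComplexConjugate commutatorElement

namespace H77.OddP

open H77.OddE H77.OddG H77.OddH H77.OddI H77.OddJ H77.OddK H77.OddL H77.OddN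

universe u

theorem odd_ne {B : Type u} [Group B] [Fintype B] {χ ψ : B → ℂ} (h : OddM χ ψ) :
    classInner χ ψ ≠ 0 := by
  obtain ⟨n, hn, hn'⟩ := h
  rw [hn']
  intro h
  have : n = 0 := by exact_mod_cast h
  rw [this] at hn
  exact absurd hn (by decide)

section
variable {G : Type u} [Group G] [Fintype G] {S : Type u} [Group S] [Finite S] {φ : S →* MulAut G}
  {K L H : Subgroup G} [hK : K.Normal] [hL : L.Normal] [Fintype L] [Fintype H] (U : Setup φ K L H)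
include U

/-- twisting an irreducible character of `G` -/
theorem tw_irr {χ : G → ℂ} (hχ : IsIrrCharacter G χ) (s : S) : IsIrrCharacter G (fun g => χ (φ s g)) :=
  isIrrCharacter_comp ((φ s : MulAut G) : G →* G) (φ s).surjective hχ

/-- `S`-invariance of the Clifford correspondent -/
theorem corrG_inv {θ : IrrCharacter L} (hS : Inv (restrAct φ L U.invL) θ.1)
    [Fintype (inertia L θ.1)] {χ : G → ℂ} (hχ : IsIrrCharacter G χ) (hinv : Inv φ χ)
    {χ₀ : IrrCharacter (inertia L θ.1)}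
    (h1 : classInner (resH (hLT θ) χ₀.1) θ.1 ≠ 0)
    (h2 : classInner (fun t : inertia L θ.1 => χ t) χ₀.1 ≠ 0) :
    Inv (restrAct φ (inertia L θ.1) (inertia_inv U hS)) χ₀.1 := by
  intro s
  let τ := restrAct φ (inertia L θ.1) (inertia_inv U hS) s
  have h3 : IsIrrCharacter (inertia L θ.1) (fun t => χ₀.1 (τ t)) :=
    (isIrrCharacter_mulEquiv τ).1 χ₀.2
  have h4 : classInner (fun t : inertia L θ.1 => χ t) (fun t => χ₀.1 (τ t)) ≠ 0 := by
    have h5 := classInner_mulEquiv τ (fun t : inertia L θ.1 => χ t) χ₀.1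
    have h6 : (fun g => (fun t : inertia L θ.1 => χ t) (τ g)) = fun t : inertia L θ.1 => χ t := by
      funext t
      exact hinv s t
    rw [h6] at h5
    rw [h5]; exact h2
  have h5 : classInner (resH (hLT θ) (fun t => χ₀.1 (τ t))) θ.1 ≠ 0 := by
    have h6 := classInner_mulEquiv (restrAct φ L U.invL s) (resH (hLT θ) χ₀.1) θ.1
    have h7 : (fun g => θ.1 ((restrAct φ L U.invL s) g)) = θ.1 := funext (hS s)
    have h8 : (fun g => resH (hLT θ) χ₀.1 ((restrAct φ L U.invL s) g)) =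
        resH (hLT θ) (fun t => χ₀.1 (τ t)) := rfl
    rw [h7, h8] at h6
    rw [h6]; exact h1
  have h6 := (corr_core L (inertia L θ.1) (hLT θ) θ.2 (fun g => Iff.rfl) χ₀.2 h1 hχ h2).1
  have h7 := (corr_core L (inertia L θ.1) (hLT θ) θ.2 (fun g => Iff.rfl) h3 h5 hχ h4).1
  have h8 := corr_inj L (inertia L θ.1) (hLT θ) θ.2 (fun g => Iff.rfl) h3 χ₀.2 h5 h1
    (h7.trans h6.symm)
  exact fun t => congrFun h8 t

theorem over_T {θ : IrrCharacter L} (hS : Inv (restrAct φ L U.invL) θ.1)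
    (hsolv : Group.IsSolvable G) [Fintype (inertia L θ.1)]
    [Fintype ((H ⊓ inertia L θ.1).subgroupOf (inertia L θ.1))] :
    (∀ χ : IrrCharacter (inertia L θ.1),
      Inv (restrAct φ (inertia L θ.1) (inertia_inv U hS)) χ.1 →
      classInner (resH (hLT θ) χ.1) θ.1 ≠ 0 →
      ∃ ψ : IrrCharacter ((H ⊓ inertia L θ.1).subgroupOf (inertia L θ.1)), OvD H U.leH θ ψ.1 ∧
        ∀ ψ' : IrrCharacter ((H ⊓ inertia L θ.1).subgroupOf (inertia L θ.1)),
          OddM (fun h : (H ⊓ inertia L θ.1).subgroupOf (inertia L θ.1) => χ.1 h) ψ'.1 ↔ ψ' = ψ) ∧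
    (∀ χ χ' : IrrCharacter (inertia L θ.1),
      Inv (restrAct φ (inertia L θ.1) (inertia_inv U hS)) χ.1 →
      classInner (resH (hLT θ) χ.1) θ.1 ≠ 0 →
      Inv (restrAct φ (inertia L θ.1) (inertia_inv U hS)) χ'.1 →
      classInner (resH (hLT θ) χ'.1) θ.1 ≠ 0 →
      ∀ ψ : IrrCharacter ((H ⊓ inertia L θ.1).subgroupOf (inertia L θ.1)),
      OddM (fun h : (H ⊓ inertia L θ.1).subgroupOf (inertia L θ.1) => χ.1 h) ψ.1 →
      OddM (fun h : (H ⊓ inertia L θ.1).subgroupOf (inertia L θ.1) => χ'.1 h) ψ.1 → χ = χ') ∧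
    (∀ ψ : IrrCharacter ((H ⊓ inertia L θ.1).subgroupOf (inertia L θ.1)),
      (∀ s, ∀ d d' : (H ⊓ inertia L θ.1).subgroupOf (inertia L θ.1),
        ((d' : inertia L θ.1) : G) = φ s ((d : inertia L θ.1) : G) → ψ.1 d' = ψ.1 d) →
      OvD H U.leH θ ψ.1 →
      ∃ χ : IrrCharacter (inertia L θ.1),
        Inv (restrAct φ (inertia L θ.1) (inertia_inv U hS)) χ.1 ∧
        classInner (resH (hLT θ) χ.1) θ.1 ≠ 0 ∧
        OddM (fun h : (H ⊓ inertia L θ.1).subgroupOf (inertia L θ.1) => χ.1 h) ψ.1) := by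
  classical
  letI : Fintype (L.subgroupOf (inertia L θ.1)) := Fintype.ofFinite _
  haveI : ((K ⊓ inertia L θ.1).subgroupOf (inertia L θ.1)).Normal := by
    rw [Subgroup.inf_subgroupOf_right]; infer_instance
  have UT := setup_T U (isClassFunction_of_isIrr θ.2) hS
  have hsolvT : Group.IsSolvable (inertia L θ.1) := by
    haveI := hsolv
    infer_instance
  let θT : IrrCharacter (L.subgroupOf (inertia L θ.1)) :=
    ⟨thT L (inertia L θ.1) θ.1, irr_thT L (inertia L θ.1) (hLT θ) θ.2⟩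
  have hov1 : ∀ χ : inertia L θ.1 → ℂ,
      classInner (fun l : L.subgroupOf (inertia L θ.1) => χ l) θT.1 =
        classInner (resH (hLT θ) χ) θ.1 := fun χ => inner_thT L (inertia L θ.1) (hLT θ) χ θ.1
  have hov2 : ∀ ψ : (H ⊓ inertia L θ.1).subgroupOf (inertia L θ.1) → ℂ,
      classInner (fun l : L.subgroupOf (inertia L θ.1) => ψ ⟨l, UT.leH l.2⟩) θT.1 =
        classInner (fun l : L => ψ (iL U.leH (hLT θ) l)) θ.1 := by
    intro ψ
    have h1 := classInner_mulEquiv (Subgroup.subgroupOfEquivOfLe (hLT θ))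
      (fun l : L => ψ (iL U.leH (hLT θ) l)) θ.1
    rw [← h1]; rfl
  have hGT : ∀ (g : inertia L θ.1) (l : L.subgroupOf (inertia L θ.1)),
      θT.1 ⟨g * l * g⁻¹, (inferInstance : (L.subgroupOf (inertia L θ.1)).Normal).conj_mem l l.2 g⟩ =
        θT.1 l := by
    intro g l
    exact (mem_inertia_iff L).1 g.2 ⟨((l : inertia L θ.1) : G), l.2⟩
  have hST : Inv (restrAct (restrAct φ (inertia L θ.1) (inertia_inv U hS))
      (L.subgroupOf (inertia L θ.1)) UT.invL) θT.1 := by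
    intro s l
    exact hS s ⟨((l : inertia L θ.1) : G), l.2⟩
  obtain ⟨ha, hb, hc⟩ := inv_main UT hsolvT θT hGT hST
  refine ⟨?_, ?_, ?_⟩
  · intro χ h1 h2
    obtain ⟨ψ, hψ⟩ := ha χ h1 (by rw [hov1]; exact h2)
    refine ⟨ψ, ?_, hψ⟩
    obtain ⟨c, hc'⟩ := over_G UT hGT χ.2 (by rw [hov1]; exact h2)
    have h3 := const_over UT χ.2 hc' ψ.2 (odd_ne ((hψ ψ).2 rfl))
    rw [hov2] at h3
    exact h3
  · intro χ χ' h1 h2 h1' h2' ψ h3 h4
    exact hb χ χ' h1 (by rw [hov1]; exact h2) h1' (by rw [hov1]; exact h2') ψ h3 h4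
  · intro ψ h1 h2
    obtain ⟨χ, h3, h4, h5⟩ := hc ψ (by
      intro s h hh
      exact h1 s _ _ rfl) (by rw [hov2]; exact h2)
    exact ⟨χ, h3, by rw [← hov1]; exact h4, h5⟩

/-- the correspondence over a fixed invariant character -/
theorem local_main {θ : IrrCharacter L} (hS : Inv (restrAct φ L U.invL) θ.1)
    (hsolv : Group.IsSolvable G) :
    (∀ χ : IrrCharacter G, Inv φ χ.1 → classInner (fun l : L => χ.1 l) θ.1 ≠ 0 →
      ∃ ψ : IrrCharacter H, InvH U ψ.1 ∧ OvH H U.leH θ ψ.1 ∧ OddM (fun h : H => χ.1 h) ψ.1 ∧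
        ∀ ψ' : IrrCharacter H, OvH H U.leH θ ψ'.1 → OddM (fun h : H => χ.1 h) ψ'.1 → ψ' = ψ) ∧
    (∀ χ χ' : IrrCharacter G, Inv φ χ.1 → classInner (fun l : L => χ.1 l) θ.1 ≠ 0 →
      Inv φ χ'.1 → classInner (fun l : L => χ'.1 l) θ.1 ≠ 0 →
      ∀ ψ : IrrCharacter H, OvH H U.leH θ ψ.1 → OddM (fun h : H => χ.1 h) ψ.1 →
      OddM (fun h : H => χ'.1 h) ψ.1 → χ = χ') ∧
    (∀ ψ : IrrCharacter H, InvH U ψ.1 → OvH H U.leH θ ψ.1 →
      ∃ χ : IrrCharacter G, Inv φ χ.1 ∧ OddM (fun h : H => χ.1 h) ψ.1) := by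
  classical
  letI : Fintype (inertia L θ.1) := Fintype.ofFinite _
  letI : Fintype ((H ⊓ inertia L θ.1).subgroupOf (inertia L θ.1)) := Fintype.ofFinite _
  obtain ⟨ha, hb, hc⟩ := over_T U hS hsolv
  -- multiplicities
  have hm : ∀ {χ : G → ℂ} (hχ : IsIrrCharacter G χ) {χ₀ : IrrCharacter (inertia L θ.1)}
      (h1 : classInner (resH (hLT θ) χ₀.1) θ.1 ≠ 0)
      (h2 : classInner (fun t : inertia L θ.1 => χ t) χ₀.1 ≠ 0)
      {ψ₀ : (H ⊓ inertia L θ.1).subgroupOf (inertia L θ.1) → ℂ} (hψ₀ : IsIrrCharacter _ ψ₀)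
      (hψθ : OvD H U.leH θ ψ₀),
      classInner (fun d => χ (iH H (inertia L θ.1) d)) ψ₀ =
        classInner (fun d : (H ⊓ inertia L θ.1).subgroupOf (inertia L θ.1) => χ₀.1 d) ψ₀ := by
    intro χ hχ χ₀ h1 h2 ψ₀ hψ₀ hψθ
    exact mult_corr U (Subgroup.subtype _) (iH H (inertia L θ.1)) (fun d => rfl)
      (iL U.leH (hLT θ)) (fun l => rfl) hχ h1 h2 hψ₀ hψθ
  -- the general comparison
  have hcmp : ∀ {χ : G → ℂ} (hχ : IsIrrCharacter G χ) {χ₀ : IrrCharacter (inertia L θ.1)}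
      (h1 : classInner (resH (hLT θ) χ₀.1) θ.1 ≠ 0)
      (h2 : classInner (fun t : inertia L θ.1 => χ t) χ₀.1 ≠ 0) (ψ : IrrCharacter H)
      (ψ₀ : IrrCharacter ((H ⊓ inertia L θ.1).subgroupOf (inertia L θ.1)))
      (h3 : OvD H U.leH θ ψ₀.1)
      (h4 : classInner (fun d => ψ.1 (iH H (inertia L θ.1) d)) ψ₀.1 ≠ 0),
      classInner (fun h : H => χ h) ψ.1 =
        classInner (fun d : (H ⊓ inertia L θ.1).subgroupOf (inertia L θ.1) => χ₀.1 d) ψ₀.1 := by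
    intro χ hχ χ₀ h1 h2 ψ ψ₀ h3 h4
    obtain ⟨ψ', h5, h6, h7, h8⟩ := corr_H H U.leH θ ψ₀.2 h3
    have h9 := h7 ψ.1 ψ.2 h4
    have h10 : ψ = ψ' := Subtype.ext h9
    subst h10
    rw [h8 _ (isClassFunction_restrict H (isClassFunction_of_isIrr hχ)), ← hm hχ h1 h2 ψ₀.2 h3]
  refine ⟨?_, ?_, ?_⟩
  · intro χ hχ hχθ
    obtain ⟨χ₀, h1, h2⟩ := corrG U χ.2 hχθ
    have h3 := corrG_inv U hS χ.2 hχ h1 h2
    obtain ⟨ψ₀, h4, h5⟩ := ha χ₀ h3 h1
    obtain ⟨ψ, h6, h7, h8, h9⟩ := corr_H H U.leH θ ψ₀.2 h4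
    have key : ∀ ψ' : IrrCharacter H, OvH H U.leH θ ψ'.1 → OddM (fun h : H => χ.1 h) ψ'.1 → ψ' = ψ := by
      intro ψ' h10 h11
      obtain ⟨ψ₁, h12, h13⟩ := exists_down H U.leH θ ψ'.2 h10
      obtain ⟨n, hn, hn'⟩ := h11
      rw [hcmp χ.2 h1 h2 ψ' ψ₁ h12 h13] at hn'
      have h14 := (h5 ψ₁).1 ⟨n, hn, hn'⟩
      rw [h14] at h13
      exact Subtype.ext (h8 ψ'.1 ψ'.2 h13)
    have hodd : OddM (fun h : H => χ.1 h) ψ.1 := by
      obtain ⟨n, hn, hn'⟩ := (h5 ψ₀).2 rfl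
      exact ⟨n, hn, by rw [hcmp χ.2 h1 h2 ψ ψ₀ h4 h7]; exact hn'⟩
    refine ⟨ψ, ?_, h6, hodd, key⟩
    intro s h hh
    let τ : H ≃* H := restrAct φ H (invH U) s
    have h10 : IsIrrCharacter H (fun h => ψ.1 (τ h)) := (isIrrCharacter_mulEquiv τ).1 ψ.2
    have h11 := key ⟨_, h10⟩ (by
      have h12 := classInner_mulEquiv (restrAct φ L U.invL s)
        (fun l : L => ψ.1 ⟨l, U.leH l.2⟩) θ.1
      have h13 : (fun g => θ.1 ((restrAct φ L U.invL s) g)) = θ.1 := funext (hS s)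
      rw [h13] at h12
      intro h14
      apply h6
      rw [← h12]
      exact h14) (by
      obtain ⟨n, hn, hn'⟩ := hodd
      refine ⟨n, hn, ?_⟩
      have h12 := classInner_mulEquiv τ (fun h : H => χ.1 h) ψ.1
      have h13 : (fun g => (fun h : H => χ.1 h) (τ g)) = fun h : H => χ.1 h := by
        funext x
        exact hχ s x
      rw [h13] at h12
      rw [← hn', ← h12])
    exact congrFun (congrArg Subtype.val h11) ⟨h, hh⟩
  · intro χ χ' hχ hχθ hχ' hχθ' ψ hψ ho ho'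
    obtain ⟨χ₀, h1, h2⟩ := corrG U χ.2 hχθ
    have h3 := corrG_inv U hS χ.2 hχ h1 h2
    obtain ⟨χ₁, h1', h2'⟩ := corrG U χ'.2 hχθ'
    have h3' := corrG_inv U hS χ'.2 hχ' h1' h2'
    obtain ⟨ψ₀, h4, h5⟩ := exists_down H U.leH θ ψ.2 hψ
    obtain ⟨n, hn, hn'⟩ := ho
    obtain ⟨n₁, hn₁, hn₁'⟩ := ho'
    rw [hcmp χ.2 h1 h2 ψ ψ₀ h4 h5] at hn'
    rw [hcmp χ'.2 h1' h2' ψ ψ₀ h4 h5] at hn₁'
    have h6 := hb χ₀ χ₁ h3 h1 h3' h1' ψ₀ ⟨n, hn, hn'⟩ ⟨n₁, hn₁, hn₁'⟩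
    subst h6
    have h7 := (corr_core L (inertia L θ.1) (hLT θ) θ.2 (fun g => Iff.rfl) χ₀.2 h1 χ.2 h2).1
    have h8 := (corr_core L (inertia L θ.1) (hLT θ) θ.2 (fun g => Iff.rfl) χ₀.2 h1 χ'.2 h2').1
    exact Subtype.ext (h7.symm.trans h8)
  · intro ψ hψ hψθ
    obtain ⟨ψ₀, h4, h5⟩ := exists_down H U.leH θ ψ.2 hψθ
    -- invariance of `ψ₀`
    have hinvT := inertia_inv U hS
    have hD : ∀ s, ∀ d ∈ (H ⊓ inertia L θ.1).subgroupOf (inertia L θ.1),
        restrAct φ (inertia L θ.1) hinvT s d ∈ (H ⊓ inertia L θ.1).subgroupOf (inertia L θ.1) := by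
      intro s d hd
      exact ⟨invH U s _ hd.1, hinvT s _ hd.2⟩
    have h6 : ∀ s, ∀ d d' : (H ⊓ inertia L θ.1).subgroupOf (inertia L θ.1),
        ((d' : inertia L θ.1) : G) = φ s ((d : inertia L θ.1) : G) → ψ₀.1 d' = ψ₀.1 d := by
      intro s
      let τ := restrAct (restrAct φ (inertia L θ.1) hinvT) _ hD s
      have h7 : IsIrrCharacter _ (fun d => ψ₀.1 (τ d)) := (isIrrCharacter_mulEquiv τ).1 ψ₀.2
      have h8 : OvD H U.leH θ (fun d => ψ₀.1 (τ d)) := by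
        have h12 := classInner_mulEquiv (restrAct φ L U.invL s)
          (fun l : L => ψ₀.1 (iL U.leH (hLT θ) l)) θ.1
        have h13 : (fun g => θ.1 ((restrAct φ L U.invL s) g)) = θ.1 := funext (hS s)
        rw [h13] at h12
        intro h14
        apply h4
        rw [← h12]
        exact h14
      have h9 : classInner (fun d => ψ.1 (iH H (inertia L θ.1) d)) (fun d => ψ₀.1 (τ d)) ≠ 0 := by
        have h12 := classInner_mulEquiv τ (fun d => ψ.1 (iH H (inertia L θ.1) d)) ψ₀.1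
        have h13 : (fun g => (fun d => ψ.1 (iH H (inertia L θ.1) d)) (τ g)) =
            fun d => ψ.1 (iH H (inertia L θ.1) d) := by
          funext d
          exact hψ s _ (iH H (inertia L θ.1) d).2
        rw [h13] at h12
        rw [h12]; exact h5
      have h10 := corr_H_inj H U.leH θ ψ.2 h7 h8 ψ₀.2 h4 h9 h5
      intro d d' hd'
      have h11 := congrFun h10 d
      rw [← h11]
      exact congrArg ψ₀.1 (Subtype.ext (Subtype.ext hd'))
    obtain ⟨χ₀, h7, h8, h9⟩ := hc ψ₀ h6 h4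
    obtain ⟨h10, h11⟩ := corr_irr L (inertia L θ.1) (hLT θ) θ.2 (fun g => Iff.rfl) χ₀.2 h8
    have h12 : classInner (fun t : inertia L θ.1 => indFun (inertia L θ.1) χ₀.1 t) χ₀.1 ≠ 0 := by
      rw [← frobenius' _ _ (isClassFunction_of_isIrr h10), inner_irr_self h10]
      exact one_ne_zero
    refine ⟨⟨_, h10⟩, ?_, ?_⟩
    · intro s g
      have h13 := tw_irr U h10 s
      have h14 : classInner (fun t : inertia L θ.1 => indFun (inertia L θ.1) χ₀.1 (φ s t)) χ₀.1 ≠ 0 := by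
        have h15 := classInner_mulEquiv (restrAct φ (inertia L θ.1) hinvT s)
          (fun t : inertia L θ.1 => indFun (inertia L θ.1) χ₀.1 t) χ₀.1
        have h16 : (fun g => χ₀.1 ((restrAct φ (inertia L θ.1) hinvT s) g)) = χ₀.1 :=
          funext (h7 s)
        rw [h16] at h15
        intro h17
        apply h12
        rw [← h15]
        exact h17
      have h15 := (corr_core L (inertia L θ.1) (hLT θ) θ.2 (fun g => Iff.rfl) χ₀.2 h8 h13 h14).1
      exact (congrFun h15 g).symm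
    · obtain ⟨n, hn, hn'⟩ := h9
      exact ⟨n, hn, by rw [hcmp h10 h8 h12 ψ ψ₀ h4 h5]; exact hn'⟩

/-- the full correspondence -/
theorem main (hsolv : Group.IsSolvable G) :
    (∀ χ : IrrCharacter G, Inv φ χ.1 →
      ∃ ψ : IrrCharacter H, InvH U ψ.1 ∧ OddM (fun h : H => χ.1 h) ψ.1 ∧
        ∀ ψ' : IrrCharacter H, InvH U ψ'.1 → OddM (fun h : H => χ.1 h) ψ'.1 → ψ' = ψ) ∧
    (∀ χ χ' : IrrCharacter G, Inv φ χ.1 → Inv φ χ'.1 →
      ∀ ψ : IrrCharacter H, InvH U ψ.1 → OddM (fun h : H => χ.1 h) ψ.1 →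
      OddM (fun h : H => χ'.1 h) ψ.1 → χ = χ') ∧
    (∀ ψ : IrrCharacter H, InvH U ψ.1 →
      ∃ χ : IrrCharacter G, Inv φ χ.1 ∧ OddM (fun h : H => χ.1 h) ψ.1) := by
  classical
  have hsq : Group.IsSolvable (G ⧸ L) := by
    haveI := hsolv
    exact Group.isSolvable_of_surjective (QuotientGroup.mk'_surjective L)
  -- invariant constituents below `ψ`
  have hy2 : ∀ ψ : IrrCharacter H, InvH U ψ.1 → ∃ θ : IrrCharacter L,
      Inv (restrAct φ L U.invL) θ.1 ∧ OvH H U.leH θ ψ.1 := by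
    intro ψ hψ
    letI : Fintype (L.subgroupOf H) := Fintype.ofFinite _
    have hsH : Group.IsSolvable (H ⧸ L.subgroupOf H) := by
      haveI := hsolv
      exact Group.isSolvable_of_surjective (QuotientGroup.mk'_surjective (L.subgroupOf H))
    have hidx : (L.subgroupOf H).index ∣ L.index := Subgroup.relIndex_dvd_index_of_normal L H
    obtain ⟨ν, h1, h2⟩ := exists_inv_const (restrAct φ H (invH U)) (L.subgroupOf H)
      (fun s k hk => U.invL s _ hk) (U.cop.coprime_dvd_right hidx) hsH ψ.2 (fun s h => hψ s h h.2)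
    let e := Subgroup.subgroupOfEquivOfLe U.leH
    refine ⟨⟨fun l => ν.1 (e.symm l), (isIrrCharacter_mulEquiv e.symm).1 ν.2⟩, ?_, ?_⟩
    · intro s l
      exact h1 s (e.symm l)
    · have h3 := classInner_mulEquiv e.symm (fun n : L.subgroupOf H => ψ.1 n) ν.1
      intro h4
      apply h2
      rw [← h3]
      exact h4
  -- comparison
  have hy3 : ∀ χ : G → ℂ, IsIrrCharacter G χ → ∀ θ θ' : IrrCharacter L,
      Inv (restrAct φ L U.invL) θ.1 → Inv (restrAct φ L U.invL) θ'.1 →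
      classInner (fun l : L => χ l) θ.1 ≠ 0 → classInner (fun l : L => χ l) θ'.1 ≠ 0 →
      ∀ ψ : IrrCharacter H, OvH H U.leH θ' ψ.1 → OvH H U.leH θ ψ.1 := by
    intro χ hχ θ θ' hθ hθ' h1 h2 ψ hψ
    obtain ⟨g, hg⟩ := constituents_conj L hχ θ.2 θ'.2 h1 h2
    have hgm : g ∈ K ⊔ H := U.sup ▸ Subgroup.mem_top _
    rw [Subgroup.mem_sup_of_normal_left] at hgm
    obtain ⟨k, hk, h, hh, rfl⟩ := hgm
    have h3 : k ∈ inertia L θ.1 := by
      apply mem_T_of_inv U (isClassFunction_of_isIrr θ.2) hθ hk hh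
      rw [← hg]; exact hθ'
    have h4 : θ'.1 = conjFunN L h θ.1 := by
      have h5 : conjFunN L k θ.1 = θ.1 := h3
      rw [hg, ← cj_mul, h5]
    -- `ψ` is a class function on `H`
    have h5 : classInner (fun l : L => ψ.1 ⟨l, U.leH l.2⟩) (conjFunN L h θ.1) =
        classInner (fun l : L => ψ.1 ⟨l, U.leH l.2⟩) θ.1 := by
      rw [← inner_cj L h (fun l : L => ψ.1 ⟨l, U.leH l.2⟩) θ.1]
      congr 1
      funext l
      rw [cj_apply]
      exact (isClassFunction_of_isIrr ψ.2 ⟨l, U.leH l.2⟩ ⟨h, hh⟩).symm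
    unfold OvH at hψ ⊢
    rw [h4, h5] at hψ
    exact hψ
  -- `θ` under `ψ` under `χ`
  have hy4 : ∀ χ : G → ℂ, IsIrrCharacter G χ → ∀ ψ : IrrCharacter H, OddM (fun h : H => χ h) ψ.1 →
      ∀ θ : IrrCharacter L, OvH H U.leH θ ψ.1 → classInner (fun l : L => χ l) θ.1 ≠ 0 := by
    intro χ hχ ψ ho θ hθ
    exact H77.SubChar.restrict_trans H.subtype (Subgroup.inclusion U.leH)
      (isCharacter_of_isIrr hχ) ψ.2 (isCharacter_of_isIrr θ.2) (odd_ne ho) hθ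
  refine ⟨?_, ?_, ?_⟩
  · intro χ hχ
    obtain ⟨θ, hθ, hθχ⟩ := exists_inv_const φ L U.invL U.cop hsq χ.2 hχ
    obtain ⟨ha, -, -⟩ := local_main U hθ hsolv
    obtain ⟨ψ, h1, h2, h3, h4⟩ := ha χ hχ hθχ
    refine ⟨ψ, h1, h3, fun ψ' h5 h6 => ?_⟩
    obtain ⟨θ', h7, h8⟩ := hy2 ψ' h5
    exact h4 ψ' (hy3 χ.1 χ.2 θ θ' hθ h7 hθχ (hy4 χ.1 χ.2 ψ' h6 θ' h8) ψ' h8) h6
  · intro χ χ' hχ hχ' ψ hψ ho ho'
    obtain ⟨θ, h7, h8⟩ := hy2 ψ hψ
    obtain ⟨-, hb, -⟩ := local_main U h7 hsolv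
    exact hb χ χ' hχ (hy4 χ.1 χ.2 ψ ho θ h8) hχ' (hy4 χ'.1 χ'.2 ψ ho' θ h8) ψ h8 ho ho'
  · intro ψ hψ
    obtain ⟨θ, h7, h8⟩ := hy2 ψ hψ
    obtain ⟨-, -, hc⟩ := local_main U h7 hsolv
    exact hc ψ hψ h8

end

end H77.OddP
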