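import Cfsg.Agent.Lib.H77.OddP
import Cfsg.Agent.Lib.H77.CopSub
import Cfsg.Agent.Lib.H1.Coprime2

/-!
# The odd correspondence: subgroup form (helper77)
-/

set_option autoImplicit false
set_option linter.unusedSectionVars false
set_option linter.unusedVariables false
set_option linter.style.haveILetI false
open Cfsg H18 H18.CharBasic H18.CharOrtho H18.CharInd H18.CharQuot H31.Clifford
open H77.GlaubP H77.CopChain H77.CopSub
open scoped ComplexConjugate commutatorElement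

namespace H77.OddQ

open H77.OddE H77.OddG H77.OddK H77.OddP

universe u

variable {Γ : Type u} [Group Γ] [Fintype Γ] (G S : Subgroup Γ)
  (hnorm : ∀ s ∈ S, ∀ g ∈ G, s * g * s⁻¹ ∈ G) (hcop : (Nat.card G).Coprime (Nat.card S))
  (hGsolv : Group.IsSolvable G) (hodd : Odd (Nat.card G)) (C : Subgroup Γ)
  (hC : C = G ⊓ Subgroup.centralizer (S : Set Γ)) (K L H : Subgroup Γ)
  (hLK : L ≤ K) (hKG : K ≤ G) (hKn : ∀ g ∈ G, ∀ k ∈ K, g * k * g⁻¹ ∈ K)
  (hLn : ∀ g ∈ G, ∀ l ∈ L, g * l * g⁻¹ ∈ L) (hKS : ∀ s ∈ S, ∀ k ∈ K, s * k * s⁻¹ ∈ K)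
  (hLS : ∀ s ∈ S, ∀ l ∈ L, s * l * s⁻¹ ∈ L) (hab : ∀ a ∈ K, ∀ b ∈ K, a * b * a⁻¹ * b⁻¹ ∈ L)
  (hGKC : K ⊔ C = G) (hH : H = L ⊔ C)

include hnorm hcop hGsolv hodd hC hLK hKG hKn hLn hKS hLS hab hGKC hH

theorem exists_setup : ∃ K' : Subgroup G, K'.Normal ∧ (L.subgroupOf G).Normal ∧
    Setup (conjHom G S hnorm) K' (L.subgroupOf G) (H.subgroupOf G) := by
  have hKc : S ≤ Subgroup.normalizer (K : Set Γ) := H1.Coprime.le_normalizer_of_conj_mem hKS
  have hLc : S ≤ Subgroup.normalizer (L : Set Γ) := H1.Coprime.le_normalizer_of_conj_mem hLS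
  have hGK : G ≤ Subgroup.normalizer (K : Set Γ) := H1.Coprime.le_normalizer_of_conj_mem hKn
  have hGL : G ≤ Subgroup.normalizer (L : Set Γ) := H1.Coprime.le_normalizer_of_conj_mem hLn
  have hCG : C ≤ G := hC ▸ inf_le_left
  have hCcen : C ≤ Subgroup.centralizer (S : Set Γ) := hC ▸ inf_le_right
  have hCS : C ≤ Subgroup.normalizer (S : Set Γ) := hCcen.trans (Subgroup.centralizer_le_normalizer _)
  have hKsolv : Group.IsSolvable K := H1.Coprime.isSolvable_of_le hKG hGsolv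
  have hcopK : (Nat.card S).Coprime (Nat.card K) :=
    hcop.symm.coprime_dvd_right (Subgroup.card_dvd_of_le hKG)
  have h1 := H1.Coprime2.commutator_sup_centralizer S K hKc hcopK (Or.inr hKsolv)
  have h2 := H1.Coprime2.commutator_commutator_eq S K hKc hcopK (Or.inr hKsolv)
  have hKSK : ⁅K, S⁆ ≤ K := H1.Coprime2.commutator_le_left hKc
  set K₁ : Subgroup Γ := L ⊔ ⁅K, S⁆ with hK₁
  have hK₁K : K₁ ≤ K := sup_le hLK hKSK
  have hLK₁ : L ≤ K₁ := le_sup_left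
  have hGcomm : G ≤ Subgroup.normalizer ((⁅K, S⁆ : Subgroup Γ) : Set Γ) := by
    rw [← hGKC]
    exact sup_le (H1.Coprime2.le_normalizer_commutator_left K S)
      (H1.Coprime2.le_normalizer_commutator (hCG.trans hGK) hCS)
  have hGK₁ : G ≤ Subgroup.normalizer (K₁ : Set Γ) := H1.Coprime2.le_normalizer_sup hGL hGcomm
  have hSK₁ : S ≤ Subgroup.normalizer (K₁ : Set Γ) :=
    H1.Coprime2.le_normalizer_sup hLc (H1.Coprime2.le_normalizer_commutator_right K S)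
  have hK₁G : K₁ ≤ G := hK₁K.trans hKG
  have hLG : L ≤ G := hLK.trans hKG
  have hHG : H ≤ G := hH ▸ sup_le hLG hCG
  haveI nK : (K₁.subgroupOf G).Normal := (Subgroup.normal_subgroupOf_iff_le_normalizer hK₁G).2 hGK₁
  haveI nL : (L.subgroupOf G).Normal := (Subgroup.normal_subgroupOf_iff_le_normalizer hLG).2 hGL
  have hidx : (L.subgroupOf G).index ∣ Nat.card G := Subgroup.index_dvd_card _
  have hsupG : K₁ ⊔ H = G := by
    apply le_antisymm (sup_le hK₁G hHG)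
    rw [← hGKC]
    apply sup_le
    · rw [← h1]
      apply sup_le
      · exact le_sup_right.trans le_sup_left
      · refine le_trans ?_ (le_sup_right (a := K₁))
        rw [hH]
        refine le_trans ?_ (le_sup_right (a := L))
        rw [hC]
        exact inf_le_inf_right _ hKG
    · rw [hH]
      exact le_sup_right.trans le_sup_right
  refine ⟨K₁.subgroupOf G, nK, nL, ?_⟩
  refine
    { le := ?_, leH := ?_, com := ?_, invK := ?_, invL := ?_, cop := ?_, odd := ?_, sup := ?_,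
      cen := ?_, HK := ?_ }
  · intro x hx
    exact hLK₁ hx
  · intro x hx
    rw [Subgroup.mem_subgroupOf, hH]
    exact Subgroup.mem_sup_left hx
  · intro x hx y hy
    exact hab _ (hK₁K hx) _ (hK₁K hy)
  · intro s k hk
    exact (Subgroup.mem_normalizer_iff.1 (hSK₁ s.2) k).1 hk
  · intro s k hk
    exact hLS s s.2 k hk
  · exact hcop.symm.coprime_dvd_right hidx
  · exact Odd.of_dvd_nat hodd hidx
  · rw [← Subgroup.subgroupOf_sup hK₁G hHG, hsupG, Subgroup.subgroupOf_self]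
  · intro h hh s
    rw [Subgroup.mem_subgroupOf, hH] at hh
    have h3 : (h : Γ) ∈ L ⊔ C := hh
    have h4 := Subgroup.coe_mul_of_right_le_normalizer_left L C (hCG.trans hGL)
    have h5 : (h : Γ) ∈ ((L ⊔ C : Subgroup Γ) : Set Γ) := h3
    rw [h4] at h5
    obtain ⟨l, hl, c, hc, he⟩ := Set.mem_mul.1 h5
    have h6 : ((conjHom G S hnorm s h * h⁻¹ : G) : Γ) = s * h * (s : Γ)⁻¹ * (h : Γ)⁻¹ := rfl
    rw [Subgroup.mem_subgroupOf, h6, ← he]
    have h7 : (s : Γ) * c = c * s := Subgroup.mem_centralizer_iff.1 (hCcen hc) s s.2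
    have h8 : (s : Γ) * (l * c) * (s : Γ)⁻¹ * (l * c)⁻¹ = (s * l * (s : Γ)⁻¹) * l⁻¹ := by
      calc (s : Γ) * (l * c) * (s : Γ)⁻¹ * (l * c)⁻¹
          = s * l * (c * (s : Γ)⁻¹) * (l * c)⁻¹ := by group
        _ = s * l * ((s : Γ)⁻¹ * c) * (l * c)⁻¹ := by
            have : c * (s : Γ)⁻¹ = (s : Γ)⁻¹ * c := by
              rw [mul_inv_eq_iff_eq_mul, mul_assoc, ← h7, inv_mul_cancel_left]
            rw [this]
        _ = _ := by group
    rw [h8]
    exact L.mul_mem (hLS s s.2 l hl) (L.inv_mem hl)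
  · intro a ha ha'
    let W : Subgroup Γ := (a.ker.map (K₁.subgroupOf G).subtype).map G.subtype
    have hW : ∀ (y : Γ) (hy : y ∈ K₁), a ⟨⟨y, hK₁G hy⟩, hy⟩ = 1 → y ∈ W := by
      intro y hy h
      exact ⟨⟨y, hK₁G hy⟩, ⟨⟨⟨y, hK₁G hy⟩, hy⟩, h, rfl⟩, rfl⟩
    have hLW : L ≤ W := by
      intro l hl
      exact hW l (hLK₁ hl) (ha _ hl)
    have hSW : ⁅⁅K, S⁆, S⁆ ≤ W := by
      rw [Subgroup.commutator_le]
      intro x hx s hs
      have hxK : x ∈ K₁ := le_sup_right (a := L) hx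
      have h3 : s * x * s⁻¹ ∈ K₁ := (Subgroup.mem_normalizer_iff.1 (hSK₁ hs) x).1 hxK
      have h4 : ⁅x, s⁆ = x * (s * x * s⁻¹)⁻¹ := by rw [commutatorElement_def]; group
      have h5 : ⁅x, s⁆ ∈ K₁ := by rw [h4]; exact K₁.mul_mem hxK (K₁.inv_mem h3)
      apply hW _ h5
      have h6 := ha' ⟨s, hs⟩ ⟨⟨x, hK₁G hxK⟩, hxK⟩
      have h7 : (⟨⟨⁅x, s⁆, hK₁G h5⟩, h5⟩ : K₁.subgroupOf G) =
          ⟨⟨x, hK₁G hxK⟩, hxK⟩ * (⟨⟨s * x * s⁻¹, hK₁G h3⟩, h3⟩ : K₁.subgroupOf G)⁻¹ := by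
        apply Subtype.ext
        apply Subtype.ext
        exact h4
      rw [h7, map_mul, map_inv, mul_inv_eq_one, ← h6]
      rfl
    have hKW : K₁ ≤ W := by
      rw [hK₁, ← h2]
      exact sup_le hLW hSW
    ext x
    obtain ⟨_, ⟨y, hy, rfl⟩, he⟩ := hKW x.2
    have h3 : y = x := Subtype.ext (Subtype.ext he)
    rw [← h3, (MonoidHom.mem_ker).1 hy]
    rfl

end H77.OddQ
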