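import Cfsg.Agent.Lib.H77.SchurBound

/-!
# Schur's bound for p-rational characters, general groups (helper77)
-/

set_option autoImplicit false
set_option linter.style.haveILetI false
set_option linter.unusedSectionVars false
set_option linter.unusedVariables false
open Cfsg

namespace H77.SchurBound

open H18 H18.CharBasic H18.CharOrtho H18.CharInd H18.CharQuot H77.GalIdx

universe u

/-- p-rational in terms of automorphisms: fixed by all automorphisms fixing the roots of unity of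
order prime to `p` (`m` a bound for the orders) -/
def PRat (p : ℕ) {X : Type u} (χ : X → ℂ) : Prop :=
  ∀ σ : ℂ ≃+* ℂ, (∀ (m : ℕ) (z : ℂ), ¬ p ∣ m → z ^ m = 1 → σ z = z) → ∀ x, σ (χ x) = χ x

theorem prat_of_mem {p r : ℕ} (hr : 0 < r) (hpr : ¬ p ∣ r) {X : Type u} {χ : X → ℂ}
    (h : ∀ g, χ g ∈ IntermediateField.adjoin ℚ
      ({Complex.exp (2 * Real.pi * Complex.I / r)} : Set ℂ)) : PRat p χ := by
  intro σ hσ x
  apply H84.FixField.fix_adjoin σ _ _ (h x)
  rintro _ rfl
  exact hσ r _ hpr (Complex.isPrimitiveRoot_exp r hr.ne').pow_eq_one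

/-- restrict of a p-rational character to a `p`-subgroup is rational -/
theorem rational_of_prat {p : ℕ} (hp : p.Prime) {G : Type u} [Group G] [Finite G] {χ : G → ℂ}
    (hχ : IsCharacter G χ) {r : ℕ} (hr : 0 < r) (hpr : ¬ p ∣ r)
    (h : ∀ g, χ g ∈ IntermediateField.adjoin ℚ
      ({Complex.exp (2 * Real.pi * Complex.I / r)} : Set ℂ)) (P : Subgroup G) {a : ℕ}
    (hP : Nat.card P = p ^ a) (σ : ℂ ≃+* ℂ) (g : P) : σ (χ g) = χ g := by
  have hcop : Nat.Coprime (p ^ a) r := Nat.Coprime.pow_left a ((Nat.Prime.coprime_iff_not_dvd hp).2 hpr)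
  have hn : p ^ a * r ≠ 0 := Nat.mul_ne_zero (pow_ne_zero a hp.ne_zero) hr.ne'
  obtain ⟨k, hk, hσ⟩ := H84.FixField.exists_pow hn σ
  obtain ⟨k', hk1, hk2⟩ := Nat.chineseRemainder hcop k 1
  have hk' : Nat.Coprime k' (p ^ a * r) := by
    rw [Nat.coprime_mul_iff_right] at hk ⊢
    constructor
    · exact (Nat.ModEq.gcd_eq hk1).trans hk.1
    · have := Nat.ModEq.gcd_eq hk2
      rw [Nat.gcd_one_left] at this
      exact this
  obtain ⟨τ, hτ⟩ := H78.Galois.exists_ringEquiv hn hk'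
  have hcr : IsCharacter P (fun x : P => χ x) := isCharacter_restrict P hχ
  have hd : Nat.card P ∣ p ^ a * r := by rw [hP]; exact Dvd.intro _ rfl
  have h1 : σ (χ g) = χ ((g ^ k : P) : G) :=
    H78.Galois.char_map_eq_pow (σ := (σ : ℂ →+* ℂ)) hd hσ hcr g
  have h2 : τ (χ g) = χ ((g ^ k' : P) : G) :=
    H78.Galois.char_map_eq_pow (σ := (τ : ℂ →+* ℂ)) hd hτ hcr g
  have h3 : g ^ k = g ^ k' := by
    rw [pow_eq_pow_iff_modEq]
    exact (hk1.symm).of_dvd (by rw [← hP]; exact orderOf_dvd_natCard g)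
  have h4 : τ (χ g) = χ g := by
    apply H84.FixField.fix_adjoin τ _ _ (h g)
    rintro _ rfl
    have hz := (Complex.isPrimitiveRoot_exp r hr.ne').pow_eq_one
    set z := Complex.exp (2 * Real.pi * Complex.I / r) with hzd
    have hz2 : z ^ (p ^ a * r) = 1 := by rw [mul_comm (p ^ a) r, pow_mul, hz, one_pow]
    have h6 : k' % r = 1 % r := hk2
    rw [hτ _ hz2, pow_eq_pow_mod k' hz, h6, ← pow_eq_pow_mod 1 hz, pow_one]
  rw [h1, h3, ← h2, h4]

/-- S4488 -/
theorem schur {p : ℕ} (hp : p.Prime) {G : Type u} [Group G] [Finite G] {χ : G → ℂ}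
    (hχ : IsCharacter G χ) (hfaith : ∀ g, χ g = χ 1 → g = 1) {r : ℕ} (hr : 0 < r) (hpr : ¬ p ∣ r)
    (h : ∀ g, χ g ∈ IntermediateField.adjoin ℚ
      ({Complex.exp (2 * Real.pi * Complex.I / r)} : Set ℂ)) {n : ℕ} (hn : χ 1 = n) :
    (Nat.card G).factorization p ≤ S p n := by
  classical
  haveI : Fact p.Prime := ⟨hp⟩
  obtain ⟨P⟩ : Nonempty (Sylow p G) := inferInstance
  letI := Fintype.ofFinite P
  have hP := P.card_eq_multiplicity
  refine pbound hp n P _ hP (fun x : P => χ x) (isCharacter_restrict (P : Subgroup G) hχ) ?_ ?_ hn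
  · intro g hg
    exact Subtype.ext (hfaith _ hg)
  · intro σ g
    exact rational_of_prat hp hχ hr hpr h (P : Subgroup G) hP σ g

end H77.SchurBound
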