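import Cfsg.Agent.Lib.H77.Canon
import Cfsg.Agent.Lib.H77.SchurBound2

/-!
# Extension of invariant characters of normal p'-subgroups, rational on p-elements (helper77)
-/

set_option autoImplicit false
set_option linter.style.haveILetI false
set_option linter.unusedSectionVars false
set_option linter.unusedVariables false
open Cfsg

namespace H77.PRatExt

open H18 H18.CharBasic H18.CharOrtho H18.CharInd H18.CharQuot H31.Clifford H77.SchurBound

universe u

/-- rationality of canonical extensions on `p`-elements -/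
theorem rational_canon {p : ℕ} (hp : p.Prime) {Γ : Type u} [Group Γ] [Finite Γ] (G : Subgroup Γ)
    [hG : G.Normal] (hcop : (Nat.card G).Coprime p) {m : ℕ} (hidx : G.index = p ^ m) {χ : Γ → ℂ}
    (hχ : IsIrrCharacter Γ χ) (hirr : IsIrrCharacter G (fun g : G => χ g))
    (hd : detOrder χ ∣ Nat.card G) (σ : ℂ ≃+* ℂ) {z : Γ} {j : ℕ} (hz : z ^ p ^ j = 1) :
    σ (χ z) = χ z := by
  have hcop' : (Nat.card G).Coprime G.index := by rw [hidx]; exact hcop.pow_right m
  have hcard : Nat.card Γ = Nat.card G * p ^ m := by rw [← hidx, Subgroup.card_mul_index]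
  have hn : Nat.card Γ ≠ 0 := Nat.card_pos.ne'
  obtain ⟨k, hk, hσ⟩ := H84.FixField.exists_pow hn σ
  have hc2 : (Nat.card G).Coprime (p ^ m) := hcop.pow_right m
  obtain ⟨k', hk1, hk2⟩ := Nat.chineseRemainder hc2 1 k
  have hk' : Nat.Coprime k' (Nat.card Γ) := by
    rw [hcard, Nat.coprime_mul_iff_right] at hk ⊢
    constructor
    · have := Nat.ModEq.gcd_eq hk1
      rw [Nat.gcd_one_left] at this
      exact this
    · exact (Nat.ModEq.gcd_eq hk2).trans hk.2
  have h1 : σ (χ z) = χ (z ^ k) :=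
    H78.Galois.char_map_eq_pow (σ := (σ : ℂ →+* ℂ)) dvd_rfl hσ (isCharacter_of_isIrr hχ) z
  have h2 := H77.Canon.canon_pow G hcop' hχ hirr (hcop'.coprime_dvd_left hd) hk1 hk' z
  have hord : orderOf z ∣ p ^ m := by
    have h3 : orderOf z ∣ p ^ j := orderOf_dvd_of_pow_eq_one hz
    have h4 : orderOf z ∣ Nat.card G * p ^ m := by rw [← hcard]; exact orderOf_dvd_natCard z
    have h5 : (orderOf z).Coprime (Nat.card G) := (hcop.symm.pow_left j).coprime_dvd_left h3
    exact h5.dvd_of_dvd_mul_left h4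
  have h3 : z ^ k = z ^ k' := by
    rw [pow_eq_pow_iff_modEq]
    exact (hk2.symm).of_dvd hord
  rw [h1, h3, h2]

section main

variable {p : ℕ} (hp : p.Prime) {X : Type u} [Group X] [Fintype X] (Q : Subgroup X) [hQ : Q.Normal]
  [Fintype Q] (hcop : (Nat.card Q).Coprime p) {m : ℕ} (hidx : Q.index = p ^ m)
include hp hcop hidx

/-- the orbit sum extends -/
theorem exists_orb {θ : Q → ℂ} (hθ : IsIrrCharacter Q θ) :
    ∃ β : X → ℂ, IsCharacter X β ∧ (∀ q : Q, β q = ∑ φ ∈ orb Q θ, φ q) ∧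
      ∀ (σ : ℂ ≃+* ℂ) (x : X) (j : ℕ), x ^ p ^ j = 1 → σ (β x) = β x := by
  classical
  let T := inertia Q θ
  letI := Fintype.ofFinite T
  have hQT : Q ≤ T := le_inertia Q (isClassFunction_of_isIrr hθ)
  have hirr := irr_thT Q T hQT hθ
  have hcardeq : Nat.card (Q.subgroupOf T) = Nat.card Q :=
    Nat.card_congr (Subgroup.subgroupOfEquivOfLe hQT).toEquiv
  obtain ⟨m', _, hm'⟩ : ∃ m' ≤ m, (Q.subgroupOf T).index = p ^ m' := by
    apply (Nat.dvd_prime_pow hp).1
    rw [← hidx]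
    exact Subgroup.relIndex_dvd_index_of_le hQT
  have hc : (Nat.card (Q.subgroupOf T)).Coprime (Q.subgroupOf T).index := by
    rw [hcardeq, hm']; exact hcop.pow_right m'
  obtain ⟨χ, hχ1, hχ2⟩ := H77.Canon.canon_exists (Q.subgroupOf T) hc ⟨_, hirr⟩ (by
    intro x n
    have h1 : conjFunN Q (x : X) θ = θ := x.2
    exact congrFun h1 ⟨(n : T), Subgroup.mem_subgroupOf.mp n.2⟩)
  have hχr : IsIrrCharacter (Q.subgroupOf T) (fun g : Q.subgroupOf T => χ.1 g) := by
    have h1 : (fun g : Q.subgroupOf T => χ.1 g) = thT Q T θ := funext hχ1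
    rw [h1]; exact hirr
  refine ⟨indFun T χ.1, isCharacter_ind T (isCharacter_of_isIrr χ.2), ?_, ?_⟩
  · intro q
    have hT0 : (Nat.card T : ℂ) ≠ 0 := by exact_mod_cast Nat.card_pos.ne'
    rw [indFun_apply']
    have h1 : ∀ x : X, extendByZero T χ.1 (x * q * x⁻¹) = conjFunN Q x θ q := by
      intro x
      have h2 : x * (q : X) * x⁻¹ ∈ Q := hQ.conj_mem q q.2 x
      rw [ext_mem T _ (hQT h2)]
      exact hχ1 ⟨⟨x * q * x⁻¹, hQT h2⟩, Subgroup.mem_subgroupOf.mpr h2⟩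
    rw [Finset.sum_congr rfl fun x _ => h1 x, sum_conj_eq Q θ (fun φ => φ q), nsmul_eq_mul,
      inv_mul_cancel_left₀ hT0]
  · intro σ x j hx
    rw [indFun_apply, map_mul, map_inv₀, map_natCast, map_sum]
    congr 1
    refine Finset.sum_congr rfl fun y _ => ?_
    by_cases hy : y⁻¹ * x * y ∈ T
    · rw [ext_mem T _ hy]
      apply rational_canon hp (Q.subgroupOf T) (by rw [hcardeq]; exact hcop) hm' χ.2 hχr hχ2 σ (j := j)
      apply Subtype.ext
      show (y⁻¹ * x * y) ^ p ^ j = 1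
      have h1 := conj_pow (i := p ^ j) (a := y⁻¹) (b := x)
      rw [inv_inv] at h1
      rw [h1, hx]; group
    · rw [ext_notMem T _ hy, map_zero]

/-- extension of invariant characters, rational on `p`-elements -/
theorem exists_ext : ∀ (d : ℕ) (α : Q → ℂ), IsCharacter Q α → (∀ x : X, conjFunN Q x α = α) →
    α 1 = d → ∃ β : X → ℂ, IsCharacter X β ∧ (∀ q : Q, β q = α q) ∧
      ∀ (σ : ℂ ≃+* ℂ) (x : X) (j : ℕ), x ^ p ^ j = 1 → σ (β x) = β x := by
  intro d
  induction d using Nat.strong_induction_on with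
  | _ d ih =>
  intro α hα hinv hd
  classical
  by_cases h0 : α = 0
  · refine ⟨0, ⟨0, 1, ?_⟩, ?_, ?_⟩
    · funext g
      simp [Representation.character]
    · intro q; rw [h0]; rfl
    · intro σ x j _
      exact map_zero σ
  obtain ⟨θ, hθ, hne⟩ := exists_constituent hα h0
  have hcls := isClassFunction_of_isCharacter hα
  have hT : ∀ φ ∈ orb Q θ, IsIrrCharacter Q φ ∧ classInner α φ ≠ 0 := by
    intro φ hφ
    refine ⟨irr_of_mem_orb Q hθ hφ, ?_⟩
    obtain ⟨x, rfl⟩ := (mem_orb Q).1 hφ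
    rw [← hinv x, inner_cj]
    exact hne
  have hsub := isCharacter_sub_sum hα (orb Q θ) hT
  obtain ⟨d', hd'⟩ := exists_degree hsub
  obtain ⟨β₁, hβ₁, hβ₁Q, hβ₁σ⟩ := exists_orb hp Q hcop hidx hθ
  obtain ⟨f, hf0, hf⟩ := exists_degree_pos hθ
  have hlt : d' < d := by
    have h1 : (∑ φ ∈ orb Q θ, φ) 1 = (((orb Q θ).card * f : ℕ) : ℂ) := by
      rw [Finset.sum_apply, Finset.sum_congr rfl (g := fun _ => (f : ℂ)), Finset.sum_const,
        nsmul_eq_mul]
      · push_cast; ring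
      · intro φ hφ
        obtain ⟨x, rfl⟩ := (mem_orb Q).1 hφ
        rw [cj_at_one, hf]
    have h2 : α 1 = (α - ∑ φ ∈ orb Q θ, φ) 1 + (∑ φ ∈ orb Q θ, φ) 1 := by
      rw [Pi.sub_apply, sub_add_cancel]
    rw [hd, hd', h1] at h2
    have h3 : d = d' + (orb Q θ).card * f := by exact_mod_cast h2
    have h4 : 0 < (orb Q θ).card := Finset.card_pos.2 ⟨θ, self_mem_orb Q θ⟩
    have := Nat.mul_pos h4 hf0
    omega
  have hinv' : ∀ x : X, conjFunN Q x (α - ∑ φ ∈ orb Q θ, φ) = α - ∑ φ ∈ orb Q θ, φ := by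
    intro x
    have h1 : conjFunN Q x (∑ φ ∈ orb Q θ, φ) = ∑ φ ∈ orb Q θ, φ := by
      rw [cj_sum]
      refine Finset.sum_bij (fun φ _ => conjFunN Q x φ) ?_ ?_ ?_ ?_
      · intro φ hφ
        obtain ⟨y, rfl⟩ := (mem_orb Q).1 hφ
        exact (mem_orb Q).2 ⟨y * x, cj_mul Q y x θ⟩
      · intro φ _ φ' _ h
        exact cj_inj Q x h
      · intro φ hφ
        obtain ⟨y, rfl⟩ := (mem_orb Q).1 hφ
        refine ⟨conjFunN Q (y * x⁻¹) θ, (mem_orb Q).2 ⟨_, rfl⟩, ?_⟩
        rw [cj_mul, inv_mul_cancel_right]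
      · intro φ _; rfl
    have h2 : conjFunN Q x (α - ∑ φ ∈ orb Q θ, φ) =
        conjFunN Q x α - conjFunN Q x (∑ φ ∈ orb Q θ, φ) := rfl
    rw [h2, h1, hinv]
  obtain ⟨β₂, hβ₂, hβ₂Q, hβ₂σ⟩ := ih d' hlt _ hsub hinv' hd'
  refine ⟨β₂ + β₁, isCharacter_add hβ₂ hβ₁, ?_, ?_⟩
  · intro q
    rw [Pi.add_apply, hβ₂Q, hβ₁Q, Pi.sub_apply, Finset.sum_apply, sub_add_cancel]
  · intro σ x j hx
    rw [Pi.add_apply, map_add, hβ₂σ σ x j hx, hβ₁σ σ x j hx]

end main

end H77.PRatExt
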