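import Cfsg.Agent.Lib.H77.BlkReg
import Cfsg.Agent.Lib.H77.RegGen

/-!
# Real 2-blocks of full defect are principal (helper77)
-/

set_option autoImplicit false
set_option linter.unusedSectionVars false
set_option linter.unusedVariables false
set_option linter.style.haveILetI false
open Cfsg H18 H20.Loc H20.GA H20.Blk H20.Orth H20.Defect H20.Height H77.BlkReg
open scoped ComplexConjugate

namespace H77.Real2

universe u
variable {G : Type u} [Group G] [Finite G] {M : Ideal AlgInt}

/-- complex conjugate character -/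
noncomputable def cc (χ : IrrCharacter G) : IrrCharacter G := ⟨fun g => conj ((χ : G → ℂ) g), isIrr_conj χ.2⟩

theorem cc_apply (χ : IrrCharacter G) (g : G) : (cc χ : G → ℂ) g = conj ((χ : G → ℂ) g) := rfl

theorem cc_apply' (χ : IrrCharacter G) (g : G) : (cc χ : G → ℂ) g = (χ : G → ℂ) g⁻¹ := by
  rw [cc_apply, H18.CharBasic.char_inv (irr_char χ)]

theorem cc_cc (χ : IrrCharacter G) : cc (cc χ) = χ := by
  apply Subtype.ext; funext g; simp [cc_apply]

theorem centralizer_inv (g : G) :
    Subgroup.centralizer ({g⁻¹} : Set G) = Subgroup.centralizer ({g} : Set G) := by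
  ext x
  rw [Subgroup.mem_centralizer_singleton_iff, Subgroup.mem_centralizer_singleton_iff]
  constructor
  · intro h
    have := congrArg (fun y => g * y * g) h
    simpa [mul_assoc] using this.symm
  · intro h
    have := congrArg (fun y => g⁻¹ * y * g⁻¹) h
    simpa [mul_assoc] using this.symm

theorem centralChar_inv (χ : IrrCharacter G) (g : G) :
    centralChar (χ : G → ℂ) g⁻¹ = centralChar (cc χ : G → ℂ) g := by
  rw [centralChar, centralChar, centralizer_inv, cc_apply', cc_apply', inv_one]

theorem sameBlock_cc {χ ψ : IrrCharacter G} (h : SameBlock M (χ : G → ℂ) (ψ : G → ℂ)) :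
    SameBlock M (cc χ : G → ℂ) (cc ψ : G → ℂ) := by
  intro g
  rw [← centralChar_inv, ← centralChar_inv]
  exact h _

theorem blockCoeff_inv {B : Set (IrrCharacter G)} (hreal : ∀ χ ∈ B, cc χ ∈ B) (g : G) :
    blockCoeff B g⁻¹ = blockCoeff B g := by
  classical
  letI := Fintype.ofFinite (IrrCharacter G)
  rw [blockCoeff_eq_sum, blockCoeff_eq_sum]
  congr 1
  let E : IrrCharacter G ≃ IrrCharacter G := ⟨cc, cc, cc_cc, cc_cc⟩
  refine Fintype.sum_equiv E _ _ fun χ => ?_
  have h1 : (E χ ∈ B) ↔ χ ∈ B := ⟨fun h => by have := hreal _ h; rwa [show cc (E χ) = χ from cc_cc χ] at this,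
    fun h => hreal _ h⟩
  rw [if_congr h1 rfl rfl]
  have h2 : (E χ : G → ℂ) = (cc χ : G → ℂ) := rfl
  rw [h2, cc_apply', cc_apply', inv_one]

/-- inverse class -/
theorem isConj_inv {g h : G} (hc : IsConj g h) : IsConj g⁻¹ h⁻¹ := by
  obtain ⟨c, hc⟩ := isConj_iff.1 hc
  exact isConj_iff.2 ⟨c, by rw [← hc]; group⟩

theorem key (hM : IsPModular 2 M) {B B' : Set (IrrCharacter G)} (hB : IsPBlock M B)
    (hB' : IsPBlock M B') (hr : ∀ χ ∈ B, cc χ ∈ B) (hr' : ∀ χ ∈ B', cc χ ∈ B')
    {ψ : IrrCharacter G} (hψ : ψ ∈ B') (hodd : ¬ 2 ∣ charDegree (ψ : G → ℂ)) :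
    MemLocalIdeal M (omega ψ (eB B) - blockCoeff B 1) := by
  classical
  haveI := pm_isPrime hM
  haveI : M.IsMaximal := hM.2.1
  haveI : CharP (ResF M) 2 := charP_resF hM
  letI := Fintype.ofFinite (ConjClasses G)
  -- inverse on classes
  let inv' : ConjClasses G → ConjClasses G := fun C => ConjClasses.mk (C.out)⁻¹
  have hmk : ∀ C : ConjClasses G, ConjClasses.mk C.out = C := fun C => Quotient.out_eq C
  have hinvmk : ∀ g : G, inv' (ConjClasses.mk g) = ConjClasses.mk g⁻¹ := by
    intro g
    apply ConjClasses.mk_eq_mk_iff_isConj.2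
    apply isConj_inv
    exact ConjClasses.mk_eq_mk_iff_isConj.1 (hmk _)
  have hinvinv : ∀ C, inv' (inv' C) = C := by
    intro C
    obtain ⟨g, rfl⟩ := ConjClasses.mk_surjective C
    exact (congrArg inv' (hinvmk g)).trans ((hinvmk g⁻¹).trans (by rw [inv_inv]))
  -- the terms
  let F : ConjClasses G → ResF M := fun C =>
    redFun M (zc (eB B) C.out * centralChar (ψ : G → ℂ) C.out)
  have hmem : ∀ C : ConjClasses G, MemLocalRing M (zc (eB B) C.out * centralChar (ψ : G → ℂ) C.out) :=
    fun C => locR_mul (eB_mem hB _) (centralChar_memR ψ _)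
  have hclass : ∀ (g : G), MemLocalIdeal M
      (zc (eB B) g⁻¹ * centralChar (ψ : G → ℂ) g⁻¹ - zc (eB B) g * centralChar (ψ : G → ℂ) g) := by
    intro g
    rw [zc_eB, zc_eB, blockCoeff_inv hr, ← mul_sub, centralChar_inv]
    exact locI_mul_left (blockCoeff_memR hB g) (isPBlock_sameBlock hB' (hr' ψ hψ) hψ g)
  have hFinv : ∀ C, F (inv' C) = F C := by
    intro C
    obtain ⟨g, rfl⟩ := ConjClasses.mk_surjective C
    have hval : ∀ h : G, F (ConjClasses.mk h) = redFun M (zc (eB B) h * centralChar (ψ : G → ℂ) h) := by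
      intro h
      have h1 : IsConj (ConjClasses.mk h).out h := ConjClasses.mk_eq_mk_iff_isConj.1 (hmk _)
      simp only [F]
      rw [zc_conj _ h1, ← omega_cls, ← omega_cls, cls_congr h1]
    rw [hinvmk, hval, hval]
    rw [redFun_eq_iff (locR_mul (eB_mem hB _) (centralChar_memR ψ _))
      (locR_mul (eB_mem hB _) (centralChar_memR ψ _))]
    exact hclass g
  -- real classes contribute nothing
  have hreal0 : ∀ C : ConjClasses G, C ≠ ConjClasses.mk 1 → inv' C = C → F C = 0 := by
    intro C hC1 hCinv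
    simp only [F]
    rw [redFun_eq_zero_iff (hmem C)]
    by_contra hno
    set g := C.out with hg
    have hreg : ¬ 2 ∣ orderOf g := by
      intro h
      apply hno
      rw [zc_eB, blockCoeff_eq_zero hM (isUnion_of_isPBlock hB) h, zero_mul]
      exact locI_zero
    have hunit : ¬ MemLocalIdeal M (centralChar (ψ : G → ℂ) g) :=
      fun h => hno (locI_mul_left (eB_mem hB _) h)
    have hidx := index_le_degree hM ψ hunit
    have hodd' : (charDegree (ψ : G → ℂ)).factorization 2 = 0 :=
      Nat.factorization_eq_zero_of_not_dvd hodd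
    have hi0 : (Subgroup.centralizer ({g} : Set G)).index ≠ 0 := Subgroup.index_ne_zero_of_finite
    have hidx2 : ¬ 2 ∣ (Subgroup.centralizer ({g} : Set G)).index := by
      intro h
      have := (Nat.prime_two.dvd_iff_one_le_factorization hi0).1 h
      omega
    -- the class has odd size and is closed under inversion
    letI : Fintype {h : G // IsConj g h} := Fintype.ofFinite _
    have hgi : IsConj g g⁻¹ := by
      have h1 : ConjClasses.mk g⁻¹ = ConjClasses.mk g := by
        rw [hg, hmk]; exact hCinv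
      exact (ConjClasses.mk_eq_mk_iff_isConj.1 h1).symm
    let ι : {h : G // IsConj g h} → {h : G // IsConj g h} := fun h => ⟨(h : G)⁻¹, hgi.trans (isConj_inv h.2)⟩
    have hι : Function.Involutive ι := fun h => Subtype.ext (inv_inv _)
    have hcard : ¬ 2 ∣ Fintype.card {h : G // IsConj g h} := by
      rw [← Nat.card_eq_fintype_card, card_conj_eq]
      exact hidx2
    have hfix : ∃ h : {h : G // IsConj g h}, ι h = h := by
      by_contra! hno'
      apply hcard
      have h1 : ∑ _h : {h : G // IsConj g h}, (1 : ZMod 2) = 0 := by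
        apply Finset.sum_involution (fun h _ => ι h)
        · intro h _; exact CharTwo.add_self_eq_zero _
        · intro h _ _; exact hno' h
        · intro h _; exact Finset.mem_univ _
        · intro h _; exact hι h
      rw [Finset.sum_const, Finset.card_univ, nsmul_eq_mul, mul_one] at h1
      exact (ZMod.natCast_eq_zero_iff _ _).1 h1
    obtain ⟨h, hh⟩ := hfix
    have h2 : (h : G)⁻¹ = h := congrArg Subtype.val hh
    have h3 : (h : G) ^ 2 = 1 := by rw [pow_two]; nth_rw 1 [← h2]; exact inv_mul_cancel _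
    have h4 : orderOf (h : G) = orderOf g := by
      obtain ⟨c, hc⟩ := isConj_iff.1 h.2
      rw [← hc, orderOf_conj]
    have h5 : orderOf g ∣ 2 := by rw [← h4]; exact orderOf_dvd_of_pow_eq_one h3
    have h6 : orderOf g = 1 := (Nat.dvd_prime Nat.prime_two).1 h5 |>.resolve_right (fun h => hreg (by rw [h]))
    apply hC1
    rw [← out_eq_one_iff]
    exact orderOf_eq_one_iff.1 h6
  -- the sum
  have hsum : redFun M (omega ψ (eB B)) = ∑ C : ConjClasses G, F C := by
    conv_lhs => rw [eq_sum_cls (eB B), map_sum]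
    rw [redFun_sum]
    · refine Finset.sum_congr rfl fun C _ => ?_
      rw [map_smul, smul_eq_mul, omega_cls]
    · intro C _
      rw [map_smul, smul_eq_mul, omega_cls]
      exact hmem C
  have hrest : ∑ C ∈ Finset.univ.erase (ConjClasses.mk (1 : G)), F C = 0 := by
    apply Finset.sum_involution (fun C _ => inv' C)
    · intro C _
      rw [hFinv]
      exact CharTwo.add_self_eq_zero _
    · intro C hC hne hCi
      exact hne (hreal0 C (Finset.mem_erase.1 hC).1 hCi)
    · intro C hC
      rw [Finset.mem_erase] at hC ⊢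
      refine ⟨fun h => hC.1 ?_, Finset.mem_univ _⟩
      have := congrArg inv' h
      rw [hinvinv, hinvmk, inv_one] at this
      exact this
    · intro C _
      exact hinvinv C
  have h1 : redFun M (omega ψ (eB B)) = redFun M (blockCoeff B 1) := by
    rw [hsum, ← Finset.add_sum_erase _ _ (Finset.mem_univ (ConjClasses.mk (1 : G))), hrest, add_zero]
    have h2 : (ConjClasses.mk (1 : G)).out = 1 := (out_eq_one_iff _).2 rfl
    simp only [F]
    rw [h2, centralChar_one, mul_one]
    rfl
  rwa [redFun_eq_iff (omega_mem ψ (eB_mem hB)) (blockCoeff_memR hB 1)] at h1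

/-- two real 2-blocks containing characters of odd degree coincide. -/
theorem eq_of_real (hM : IsPModular 2 M) {B B' : Set (IrrCharacter G)} (hB : IsPBlock M B)
    (hB' : IsPBlock M B') (hr : ∀ χ ∈ B, cc χ ∈ B) (hr' : ∀ χ ∈ B', cc χ ∈ B')
    {χ ψ : IrrCharacter G} (hχ : χ ∈ B) (hχo : ¬ 2 ∣ charDegree (χ : G → ℂ))
    (hψ : ψ ∈ B') (hodd : ¬ 2 ∣ charDegree (ψ : G → ℂ)) : B = B' := by
  haveI := pm_isPrime hM
  have h1 := key hM hB hB hr hr hχ hχo
  have h2 := key hM hB hB' hr hr' hψ hodd
  rw [omega_eB_mem hχ] at h1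
  by_cases h3 : ψ ∈ B
  · exact isPBlock_eq_of_mem hB hB' h3 hψ
  · rw [omega_eB_notMem h3] at h2
    have h4 := locI_sub h1 h2
    exact absurd (by simpa using h4) (not_locI_one (M := M))

end H77.Real2
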