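import Cfsg.Agent.Lib.H77.Real2

/-!
# Counting real characters of odd degree (helper77)
-/

set_option autoImplicit false
set_option linter.unusedSectionVars false
set_option linter.unusedVariables false
set_option linter.style.haveILetI false
open Cfsg H18 H20.Loc H20.GA H20.Blk H20.Orth H20.Defect H20.Height H77.BlkReg H77.Real2
open scoped ComplexConjugate

namespace H77.Real2b

universe u
variable {G : Type u} [Group G] [Finite G] {M : Ideal AlgInt}

/-- the principal character -/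
noncomputable def one (G : Type u) [Group G] : IrrCharacter G :=
  ⟨fun _ => 1, H18.CharBasic.isIrrCharacter_one⟩

theorem isPBlock_principal : IsPBlock M (principalBlock M G) := ⟨one G, rfl⟩

theorem one_mem_principal [M.IsPrime] : one G ∈ principalBlock M G := mem_blockOf_self (one G)

theorem cc_one : cc (one G) = one G := by
  apply Subtype.ext
  funext g
  rw [cc_apply]
  simp [one]

theorem real_of_mem [M.IsPrime] {B : Set (IrrCharacter G)} (hB : IsPBlock M B) {χ : IrrCharacter G}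
    (hχ : χ ∈ B) (h : cc χ = χ) : ∀ ψ ∈ B, cc ψ ∈ B := by
  intro ψ hψ
  rw [isPBlock_mem_iff hB hχ]
  have h1 := sameBlock_cc (isPBlock_sameBlock hB hχ hψ)
  rwa [h] at h1

theorem cc_eq_self {χ : IrrCharacter G} (h : ∀ g : G, ((χ : G → ℂ) g).im = 0) : cc χ = χ := by
  apply Subtype.ext
  funext g
  rw [cc_apply]
  exact Complex.conj_eq_iff_im.2 (h g)

theorem charDegree_one' : charDegree (one G : G → ℂ) = 1 := charDegree_one

theorem mem_principal_of_real (hM : IsPModular 2 M) {χ : IrrCharacter G}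
    (h : ∀ g : G, ((χ : G → ℂ) g).im = 0) (hodd : Odd (charDegree (χ : G → ℂ))) :
    χ ∈ principalBlock M G := by
  haveI := pm_isPrime hM
  have h1 := eq_of_real hM (isPBlock_blockOf χ) (isPBlock_principal (M := M))
    (real_of_mem (isPBlock_blockOf χ) (mem_blockOf_self χ) (cc_eq_self h))
    (real_of_mem isPBlock_principal one_mem_principal cc_one)
    (mem_blockOf_self χ) (fun hd => (Nat.not_even_iff_odd.2 hodd) (even_iff_two_dvd.2 hd))
    (one_mem_principal (M := M)) (by rw [charDegree_one']; norm_num)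
  rw [← h1]
  exact mem_blockOf_self χ

theorem card_le (hM : IsPModular 2 M) :
    Nat.card {χ : IrrCharacter G // (∀ g : G, ((χ : G → ℂ) g).im = 0) ∧
      Odd (charDegree (χ : G → ℂ))} ≤ 2 ^ (2 * (Nat.card G).factorization 2) := by
  classical
  haveI := pm_isPrime hM
  letI := Fintype.ofFinite G
  letI := Fintype.ofFinite (IrrCharacter G)
  set a := (Nat.card G).factorization 2 with ha
  have hcl : IsClassFunction G (reg 2 (fun _ : G => (1 : ℂ))) := reg_class (fun _ _ => rfl)
  have hint : ∀ ψ : IrrCharacter G, ∃ m : ℤ,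
      (2 : ℂ) ^ a * classInner (reg 2 (fun _ : G => (1 : ℂ))) (ψ : G → ℂ) = m := by
    intro ψ
    obtain ⟨k, hk⟩ := H77.RegGen.inner_reg_int (G := G) Nat.prime_two
      (H18.CharBasic.isCharacter_one (G := G)) (irr_char ψ)
    exact ⟨k, by rw [← hk, Nat.cast_ofNat]⟩
  choose m hm using hint
  have hne : ∀ ψ : IrrCharacter G, (∀ g : G, ((ψ : G → ℂ) g).im = 0) →
      Odd (charDegree (ψ : G → ℂ)) → m ψ ≠ 0 := by
    intro ψ hr hodd h0
    have hψ := mem_principal_of_real hM hr hodd
    have hv0 : (charDegree (ψ : G → ℂ)).factorization 2 = 0 :=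
      Nat.factorization_eq_zero_of_not_dvd
        (fun hd => (Nat.not_even_iff_odd.2 hodd) (even_iff_two_dvd.2 hd))
    have hh : blockHeight 2 (principalBlock M G) (ψ : G → ℂ) = 0 := by
      rw [blockHeight, hv0, Nat.zero_sub]
    have hQ := Q_unit_of_height_zero hM isPBlock_principal (one_mem_principal (M := M)) hψ hh
    apply hQ
    rw [Q_eq]
    have h1 : classInner (reg 2 (one G : G → ℂ)) (ψ : G → ℂ) = 0 := by
      have h2 := hm ψ
      rw [h0, Int.cast_zero] at h2
      exact (mul_eq_zero.1 h2).resolve_left (pow_ne_zero _ two_ne_zero)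
    rw [h1, mul_zero]
    exact locI_zero
  have hnorm := H18.CharOrtho.norm_eq_sum hcl
  have hle : (∑ χ : IrrCharacter G,
      ‖classInner (reg 2 (fun _ : G => (1 : ℂ))) (χ : G → ℂ)‖ ^ 2 : ℝ) ≤ 1 := by
    have h1 : ((∑ χ : IrrCharacter G,
      ‖classInner (reg 2 (fun _ : G => (1 : ℂ))) (χ : G → ℂ)‖ ^ 2 : ℝ) : ℂ) =
        (((Nat.card G : ℝ)⁻¹ * ∑ g : G, (if 2 ∣ orderOf g then (0 : ℝ) else 1) : ℝ) : ℂ) := by
      rw [← hnorm, classInner]
      push_cast
      congr 1
      refine Finset.sum_congr rfl fun g _ => ?_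
      by_cases hg : 2 ∣ orderOf g
      · rw [reg_not hg, if_pos hg]; simp
      · rw [reg_of hg, if_neg hg]; simp
    have h2 := Complex.ofReal_injective h1
    rw [h2]
    have hG : (0 : ℝ) < Nat.card G := by exact_mod_cast Nat.card_pos (α := G)
    rw [inv_mul_le_iff₀ hG, mul_one]
    calc ∑ g : G, (if 2 ∣ orderOf g then (0 : ℝ) else 1) ≤ ∑ g : G, (1 : ℝ) := by
          refine Finset.sum_le_sum fun g _ => ?_
          split_ifs <;> norm_num
      _ = Nat.card G := by simp [Nat.card_eq_fintype_card]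
  have hsum : (∑ χ : IrrCharacter G, ((m χ : ℝ)) ^ 2) ≤ 2 ^ (2 * a) := by
    have h1 : ∀ χ : IrrCharacter G, ((m χ : ℝ)) ^ 2 = 2 ^ (2 * a) *
        ‖classInner (reg 2 (fun _ : G => (1 : ℂ))) (χ : G → ℂ)‖ ^ 2 := by
      intro χ
      have h2 : ‖((m χ : ℂ))‖ = 2 ^ a *
          ‖classInner (reg 2 (fun _ : G => (1 : ℂ))) (χ : G → ℂ)‖ := by
        rw [← hm χ, norm_mul, norm_pow]
        norm_num
      have h3 : ((m χ : ℝ)) ^ 2 = ‖((m χ : ℂ))‖ ^ 2 := by
        rw [Complex.norm_intCast, sq_abs]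
      rw [h3, h2, mul_pow, ← pow_mul, mul_comm a 2]
    simp_rw [h1]
    rw [← Finset.mul_sum]
    exact mul_le_of_le_one_right (by positivity) hle
  letI : Fintype {χ : IrrCharacter G // (∀ g : G, ((χ : G → ℂ) g).im = 0) ∧
      Odd (charDegree (χ : G → ℂ))} := Fintype.ofFinite _
  have hfin : (Nat.card {χ : IrrCharacter G // (∀ g : G, ((χ : G → ℂ) g).im = 0) ∧
      Odd (charDegree (χ : G → ℂ))} : ℝ) ≤ ∑ χ : IrrCharacter G, ((m χ : ℝ)) ^ 2 := by
    rw [Nat.card_eq_fintype_card, Fintype.card_subtype]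
    set S : Finset (IrrCharacter G) := Finset.univ.filter
      (fun χ : IrrCharacter G => (∀ g : G, ((χ : G → ℂ) g).im = 0) ∧
        Odd (charDegree (χ : G → ℂ))) with hS
    have e1 : (S.card : ℝ) = ∑ χ ∈ S, (1 : ℝ) := by simp
    have e2 : ∑ χ ∈ S, (1 : ℝ) ≤ ∑ χ ∈ S, ((m χ : ℝ)) ^ 2 := by
      refine Finset.sum_le_sum fun χ hχ => ?_
      have h1 := (Finset.mem_filter.1 hχ).2
      have h2 := hne χ h1.1 h1.2
      have h3 : (1 : ℤ) ≤ (m χ) ^ 2 := by
        have := sq_pos_of_ne_zero h2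
        omega
      exact_mod_cast h3
    have e3 : ∑ χ ∈ S, ((m χ : ℝ)) ^ 2 ≤ ∑ χ : IrrCharacter G, ((m χ : ℝ)) ^ 2 := by
      refine Finset.sum_le_sum_of_subset_of_nonneg (Finset.filter_subset _ _) ?_
      intro χ _ _
      positivity
    rw [e1]
    exact e2.trans e3
  exact_mod_cast hfin.trans hsum

end H77.Real2b
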