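import Cfsg.Agent.Lib.H77.PQuot
import Cfsg.Agent.Lib.H77.SubChar
import Cfsg.Agent.Lib.H77.FSCount
import Cfsg.Agent.Lib.H77.Degree
import Cfsg.Agent.Lib.H4.TwoTrans
import Cfsg.Agent.Lib.H18.CharQuot

/-!
# Groups all of whose degrees are smaller than p (H77.SmallDeg)
-/

set_option autoImplicit false
set_option linter.style.haveILetI false
set_option linter.unusedSectionVars false
open Cfsg

namespace H77.SmallDeg

open H18.CharBasic H18.CharOrtho H18.CharInd H18.CharQuot H77.PQuot
open scoped ComplexConjugate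

universe u

variable {G : Type u} [Group G] [Finite G]

/-- If the degrees are smaller than `p`, the `p`-subgroups are abelian. -/
theorem abelian_of_lt {p : ℕ} [hp : Fact p.Prime] (hb : ∀ χ : IrrCharacter G, charDegree (χ : G → ℂ) < p)
    (P : Subgroup G) (hP : IsPGroup p P) : ∀ x ∈ P, ∀ y ∈ P, x * y = y * x := by
  classical
  letI := Fintype.ofFinite G
  letI := Fintype.ofFinite P
  haveI : Finite (IrrCharacter P) := instFiniteIrr
  letI := Fintype.ofFinite (IrrCharacter P)
  intro x hx y hy
  have key : ∀ χ : IrrCharacter G, (χ : G → ℂ) (x * y * x⁻¹ * y⁻¹) = (χ : G → ℂ) 1 := by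
    intro χ
    have hres := isCharacter_restrict P (isCharacter_of_isIrr χ.2)
    have h1 := H4.CharOrth.classFunction_eq_sum (isClassFunction_of_isCharacter hres)
    let c : P := ⟨x, hx⟩ * ⟨y, hy⟩ * (⟨x, hx⟩ : P)⁻¹ * (⟨y, hy⟩ : P)⁻¹
    have h2 := congrFun h1 c
    have h3 := congrFun h1 1
    rw [Finset.sum_apply] at h2 h3
    have h4 : ∀ ψ : IrrCharacter P, (classInner (fun x : P => χ.1 x) ψ.1 • ψ.1) c =
        (classInner (fun x : P => χ.1 x) ψ.1 • ψ.1) 1 := by
      intro ψ
      rw [Pi.smul_apply, Pi.smul_apply]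
      by_cases h0 : classInner (fun x : P => χ.1 x) ψ.1 = 0
      · rw [h0, zero_smul, zero_smul]
      · congr 1
        have h5 : charDegree ψ.1 ≤ charDegree χ.1 :=
          H77.SubChar.degree_le hres ψ.2 h0 (cast_irr χ).symm (cast_irr ψ).symm
        have h6 : charDegree ψ.1 < p := lt_of_le_of_lt h5 (hb χ)
        have h7 : charDegree ψ.1 ∣ Nat.card P := H77.Degree.degree_dvd_card ψ.2 (cast_irr ψ).symm
        obtain ⟨n, hn⟩ := (IsPGroup.iff_card (p := p)).1 hP
        rw [hn, Nat.dvd_prime_pow hp.out] at h7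
        obtain ⟨k, -, hk⟩ := h7
        have h8 : k = 0 := by
          by_contra hk0
          have : p ≤ p ^ k := Nat.le_self_pow hk0 p
          omega
        rw [h8, pow_zero] at hk
        obtain ⟨f, hf⟩ := exists_hom_of_degree_one (isCharacter_of_isIrr ψ.2)
          (by rw [← cast_irr ψ, hk, Nat.cast_one])
        rw [hf]
        change ((f c : ℂˣ) : ℂ) = ((f 1 : ℂˣ) : ℂ)
        congr 1
        simp only [c, map_mul, map_inv, map_one]
        rw [mul_comm (f ⟨x, hx⟩) (f ⟨y, hy⟩)]
        group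
    have h5 : (χ : G → ℂ) (c : G) = (χ : G → ℂ) ((1 : P) : G) := by
      exact h2.trans ((Finset.sum_congr rfl fun ψ _ => h4 ψ).trans h3.symm)
    exact h5
  have h1 : IsConj (x * y * x⁻¹ * y⁻¹) 1 := (H4.CharCount.isConj_iff_irr _ _).2 key
  have h2 : x * y * x⁻¹ * y⁻¹ = 1 := isConj_one_right.1 h1.symm
  calc x * y = (x * y * x⁻¹ * y⁻¹) * (y * x) := by group
    _ = y * x := by rw [h2, one_mul]

section count

variable {p : ℕ} [hp : Fact p.Prime]

open Classical in
theorem card_orbit_ge (A B : Sylow p G) :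
    Nat.card (Sylow p G) * (if A = B then 1 else p) ≤ Nat.card (MulAction.orbit G (A, B)) := by
  classical
  have h1 : Nat.card (MulAction.orbit G (A, B)) = (MulAction.stabilizer G (A, B)).index :=
    (MulAction.index_stabilizer G (A, B)).symm ▸ (Nat.card_coe_set_eq _)
  have hle : MulAction.stabilizer G (A, B) ≤ MulAction.stabilizer G A := by
    intro g hg
    rw [MulAction.mem_stabilizer_iff] at hg ⊢
    exact congrArg Prod.fst hg
  have h2 : Nat.card (Sylow p G) = (MulAction.stabilizer G A).index := by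
    rw [MulAction.index_stabilizer, ← Nat.card_coe_set_eq, MulAction.orbit_eq_univ]
    exact (Nat.card_congr (Equiv.Set.univ _)).symm
  rw [h1, h2, ← Subgroup.relIndex_mul_index hle, mul_comm]
  apply Nat.mul_le_mul_right
  split_ifs with hAB
  · exact Nat.one_le_iff_ne_zero.2 (Subgroup.index_ne_zero_of_finite)
  · have hA : (A : Subgroup G) ≤ MulAction.stabilizer G A := by
      rw [Sylow.stabilizer_eq_normalizer]
      exact Subgroup.le_normalizer
    have h3 : (MulAction.stabilizer G (A, B)).relIndex (A : Subgroup G) ≤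
        (MulAction.stabilizer G (A, B)).relIndex (MulAction.stabilizer G A) :=
      Subgroup.relIndex_le_of_le_right hA Subgroup.index_ne_zero_of_finite
    refine le_trans ?_ h3
    have h4 : ∃ k, (MulAction.stabilizer G (A, B)).relIndex (A : Subgroup G) = p ^ k := by
      obtain ⟨n, hn⟩ := (IsPGroup.iff_card (p := p)).1 A.isPGroup'
      have h5 : (MulAction.stabilizer G (A, B)).relIndex (A : Subgroup G) ∣ Nat.card (A : Subgroup G) :=
        Subgroup.index_dvd_card _
      have hn' : Nat.card (A : Subgroup G) = p ^ n := hn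
      rw [hn', Nat.dvd_prime_pow hp.out] at h5
      obtain ⟨k, -, hk⟩ := h5
      exact ⟨k, hk⟩
    obtain ⟨k, hk⟩ := h4
    rw [hk]
    have hk0 : k ≠ 0 := by
      rintro rfl
      rw [pow_zero, Subgroup.relIndex_eq_one] at hk
      apply hAB
      have h6 : B ∈ MulAction.fixedPoints (A : Subgroup G) (Sylow p G) := by
        intro a
        have := hk a.2
        rw [MulAction.mem_stabilizer_iff] at this
        exact congrArg Prod.snd this
      have h7 := (A.isPGroup'.sylow_mem_fixedPoints_iff).1 h6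
      exact Sylow.ext (A.is_maximal' B.isPGroup' h7).symm
    exact Nat.le_self_pow hk0 p

theorem card_ge : 1 + (Nat.card (MulAction.orbitRel.Quotient G (Sylow p G × Sylow p G)) - 1) * p ≤
    Nat.card (Sylow p G) := by
  classical
  letI := Fintype.ofFinite (Sylow p G)
  letI := Fintype.ofFinite (MulAction.orbitRel.Quotient G (Sylow p G × Sylow p G))
  obtain ⟨P⟩ : Nonempty (Sylow p G) := inferInstance
  let ω0 : MulAction.orbitRel.Quotient G (Sylow p G × Sylow p G) := Quotient.mk'' (P, P)
  have h1 : Nat.card (Sylow p G × Sylow p G) =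
      ∑ ω : MulAction.orbitRel.Quotient G (Sylow p G × Sylow p G), Nat.card (MulAction.orbit G ω.out) := by
    rw [Nat.card_congr (MulAction.selfEquivSigmaOrbits G (Sylow p G × Sylow p G)), Nat.card_sigma]
  rw [Nat.card_prod] at h1
  have hn : 0 < Nat.card (Sylow p G) := Nat.card_pos
  have h2 : ∑ ω : MulAction.orbitRel.Quotient G (Sylow p G × Sylow p G),
      Nat.card (Sylow p G) * (if ω = ω0 then 1 else p) ≤ Nat.card (Sylow p G) * Nat.card (Sylow p G) := by
    rw [h1]
    refine Finset.sum_le_sum fun ω _ => ?_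
    refine le_trans ?_ (card_orbit_ge ω.out.1 ω.out.2)
    apply Nat.mul_le_mul_left
    by_cases hω : ω = ω0
    · rw [if_pos hω]
      split_ifs
      · exact le_rfl
      · exact hp.out.one_lt.le
    · rw [if_neg hω, if_neg]
      intro heq
      apply hω
      have h3 : (Quotient.mk'' (ω.out) : MulAction.orbitRel.Quotient G (Sylow p G × Sylow p G)) = ω :=
        Quotient.out_eq' ω
      rw [← h3]
      apply Quotient.sound'
      rw [MulAction.orbitRel_apply, MulAction.mem_orbit_iff]
      obtain ⟨g, hg⟩ := MulAction.exists_smul_eq G P ω.out.1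
      refine ⟨g, ?_⟩
      rw [Prod.smul_mk, hg]
      exact Prod.ext rfl heq
  have h3 : ∑ ω : MulAction.orbitRel.Quotient G (Sylow p G × Sylow p G),
      Nat.card (Sylow p G) * (if ω = ω0 then 1 else p) = Nat.card (Sylow p G) *
      (1 + (Nat.card (MulAction.orbitRel.Quotient G (Sylow p G × Sylow p G)) - 1) * p) := by
    rw [← Finset.mul_sum, ← Finset.add_sum_erase _ _ (Finset.mem_univ ω0), if_pos rfl]
    congr 2
    rw [Finset.sum_congr rfl (g := fun _ => p)]
    · rw [Finset.sum_const, Finset.card_erase_of_mem (Finset.mem_univ _), Finset.card_univ,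
        Nat.card_eq_fintype_card, smul_eq_mul]
    · intro ω hω
      rw [if_neg (Finset.mem_erase.1 hω).1]
  rw [h3] at h2
  exact Nat.le_of_mul_le_mul_left h2 hn

theorem card_le (hb : ∀ χ : IrrCharacter G, charDegree (χ : G → ℂ) < p) :
    Nat.card (Sylow p G) ≤
      1 + (Nat.card (MulAction.orbitRel.Quotient G (Sylow p G × Sylow p G)) - 1) * (p - 1) := by
  classical
  letI := Fintype.ofFinite G
  haveI : Finite (IrrCharacter G) := instFiniteIrr
  letI := Fintype.ofFinite (IrrCharacter G)
  have hπ := H4.TwoTrans.isCharacter_permChar (G := G) (Sylow p G)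
  have hnat : ∀ χ : IrrCharacter G, ∃ a : ℕ, classInner (H4.TwoTrans.permChar G (Sylow p G)) χ.1 = a :=
    fun χ => inner_char_natCast hπ (isCharacter_of_isIrr χ.2)
  choose a ha using hnat
  have h1 : a (H77.FSCount.triv G) = 1 := by
    have h2 := H4.TwoTrans.inner_permChar_one (G := G) (Sylow p G)
    have h3 : Nat.card (MulAction.orbitRel.Quotient G (Sylow p G)) = 1 := by
      rw [Nat.card_eq_one_iff_unique]
      exact ⟨(MulAction.pretransitive_iff_subsingleton_quotient G (Sylow p G)).1 inferInstance, inferInstance⟩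
    rw [h3, Nat.cast_one] at h2
    have h4 := ha (H77.FSCount.triv G)
    have h5 : ((H77.FSCount.triv G : IrrCharacter G) : G → ℂ) = 1 := rfl
    rw [h5, h2] at h4
    exact_mod_cast h4.symm
  have hsum1 : Nat.card (Sylow p G) = ∑ χ : IrrCharacter G, a χ * charDegree χ.1 := by
    have h2 := congrFun (H4.CharOrth.classFunction_eq_sum (isClassFunction_of_isCharacter hπ)) 1
    rw [Finset.sum_apply] at h2
    have h3 : H4.TwoTrans.permChar G (Sylow p G) 1 = Nat.card (Sylow p G) := by
      simp only [H4.TwoTrans.permChar]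
      congr 1
      refine Nat.card_congr ⟨fun x => x.1, fun x => ⟨x, one_smul G x⟩, fun x => rfl, fun x => rfl⟩
    rw [h3] at h2
    have h4 : ((Nat.card (Sylow p G) : ℕ) : ℂ) = ((∑ χ : IrrCharacter G, a χ * charDegree χ.1 : ℕ) : ℂ) := by
      rw [h2, Nat.cast_sum]
      refine Finset.sum_congr rfl fun χ _ => ?_
      rw [Pi.smul_apply, smul_eq_mul, ha, Nat.cast_mul, cast_irr]
    exact_mod_cast h4
  have hsum2 : Nat.card (MulAction.orbitRel.Quotient G (Sylow p G × Sylow p G)) =
      ∑ χ : IrrCharacter G, a χ * a χ := by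
    have h2 := H4.TwoTrans.inner_permChar_self (G := G) (Sylow p G)
    rw [H4.CharOrth.classInner_eq_sum (isClassFunction_of_isCharacter hπ)] at h2
    have h4 : ((Nat.card (MulAction.orbitRel.Quotient G (Sylow p G × Sylow p G)) : ℕ) : ℂ) =
        ((∑ χ : IrrCharacter G, a χ * a χ : ℕ) : ℂ) := by
      rw [← h2, Nat.cast_sum]
      refine Finset.sum_congr rfl fun χ _ => ?_
      rw [ha]; simp
    exact_mod_cast h4
  rw [hsum1, hsum2]
  rw [← Finset.add_sum_erase _ _ (Finset.mem_univ (H77.FSCount.triv G)),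
    ← Finset.add_sum_erase _ (fun χ : IrrCharacter G => a χ * a χ) (Finset.mem_univ (H77.FSCount.triv G)),
    h1, H77.FSCount.charDegree_triv, Nat.one_mul, Nat.add_sub_cancel_left, Finset.sum_mul]
  apply Nat.add_le_add_left
  refine Finset.sum_le_sum fun χ _ => ?_
  have h3 := hb χ
  have h4 : charDegree χ.1 ≤ p - 1 := by omega
  have h5 : a χ ≤ a χ * a χ := Nat.le_mul_self _
  exact Nat.mul_le_mul h5 h4

/-- all degrees `< p` implies a unique Sylow `p`-subgroup -/
theorem card_eq_one (hb : ∀ χ : IrrCharacter G, charDegree (χ : G → ℂ) < p) :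
    Nat.card (Sylow p G) = 1 := by
  have h1 := card_ge (G := G) (p := p)
  have h2 := card_le hb
  have hp1 := hp.out.one_lt
  have h3 : Nat.card (MulAction.orbitRel.Quotient G (Sylow p G × Sylow p G)) - 1 = 0 := by
    by_contra h0
    have h4 : (Nat.card (MulAction.orbitRel.Quotient G (Sylow p G × Sylow p G)) - 1) * (p - 1) <
      (Nat.card (MulAction.orbitRel.Quotient G (Sylow p G × Sylow p G)) - 1) * p :=
      Nat.mul_lt_mul_of_pos_left (by omega) (Nat.pos_of_ne_zero h0)
    omega
  rw [h3, zero_mul] at h1 h2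
  omega

theorem main (hb : ∀ χ : IrrCharacter G, charDegree (χ : G → ℂ) < p) :
    ∃ P : Subgroup G, P.Normal ∧ (∀ x ∈ P, ∀ y ∈ P, x * y = y * x) ∧ IsPGroup p P ∧ ¬ p ∣ P.index := by
  obtain ⟨P⟩ : Nonempty (Sylow p G) := inferInstance
  refine ⟨P, ?_, abelian_of_lt hb P P.isPGroup', P.isPGroup', P.not_dvd_index⟩
  haveI : Subsingleton (Sylow p G) := (Nat.card_eq_one_iff_unique.1 (card_eq_one hb)).1
  exact P.normal_of_subsingleton

end count

end H77.SmallDeg
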