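import Cfsg.Agent.Lib.H19.Ito2
import Cfsg.Agent.Lib.H18.GoDown
import Cfsg.Agent.Lib.H77.PQuot
import Cfsg.Agent.Lib.H77.SchurBound
import Cfsg.Agent.Lib.H1.Cores

/-!
# Group theory for the prime power divisor theorem (S4467) (helper77)
-/

set_option autoImplicit false
set_option linter.style.haveILetI false
set_option linter.unusedSectionVars false
set_option linter.unusedVariables false
open Cfsg

namespace H77.SolvDeg

open scoped commutatorElement

universe u

section grp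

variable {G : Type u} [Group G] {p : ℕ}

/-- `p`-elements -/
abbrev PE (p : ℕ) {G : Type u} [Group G] (x : G) : Prop := ∃ k : ℕ, x ^ p ^ k = 1

theorem pe_conj {x : G} (h : PE p x) (g : G) : PE p (g * x * g⁻¹) := by
  obtain ⟨k, hk⟩ := h
  exact ⟨k, by rw [conj_pow, hk]; group⟩

theorem pe_inv {x : G} (h : PE p x) : PE p x⁻¹ := by
  obtain ⟨k, hk⟩ := h
  exact ⟨k, by rw [inv_pow, hk, inv_one]⟩

theorem pe_pow_mem {x : G} {N : Subgroup G} (hN : IsPGroup p N) {k : ℕ} (h : x ^ p ^ k ∈ N) :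
    PE p x := by
  obtain ⟨l, hl⟩ := hN ⟨_, h⟩
  have h1 := congrArg Subtype.val hl
  change (x ^ p ^ k) ^ p ^ l = 1 at h1
  exact ⟨k + l, by rw [pow_add, pow_mul, h1]⟩

theorem pe_mul_mem (hG : (∀ x y : G, x * y = y * x)) {x y : G} (hx : PE p x) (hy : PE p y) :
    PE p (x * y) := by
  obtain ⟨k, hk⟩ := hx
  obtain ⟨l, hl⟩ := hy
  refine ⟨k + l, ?_⟩
  rw [(show Commute x y from hG x y).mul_pow, pow_add, pow_mul, hk, one_pow, mul_comm (p ^ k),
    pow_mul, hl, one_pow, one_mul]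

theorem cp_of_comm (hG : (∀ x y : G, x * y = y * x)) : H19.Ito.CP p G :=
  fun _ _ hx hy => pe_mul_mem hG hx hy

/-- if a normal subgroup is a `p`-group and every `p`-element lies in it -/
theorem cp_of_mem {R : Subgroup G} (hR : IsPGroup p R) (h : ∀ x : G, PE p x → x ∈ R) :
    H19.Ito.CP p G := by
  intro x y hx hy
  have h1 := R.mul_mem (h x hx) (h y hy)
  obtain ⟨k, hk⟩ := hR ⟨_, h1⟩
  exact ⟨k, congrArg Subtype.val hk⟩

variable [Finite G]

/-- the separation hypothesis -/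
def Sep (p : ℕ) (G : Type u) [Group G] : Prop :=
  ∀ N : Subgroup G, N.Normal → N ≠ ⊤ → ∃ x : G, PE p x ∧ x ∉ N

theorem sep_of (h0 : ¬ H19.Ito.CP p G)
    (h1 : ∀ N : Subgroup G, N.Normal → N ≠ ⊤ → H19.Ito.CP p N) : Sep p G := by
  intro N hN hNt
  by_contra hcon
  push Not at hcon
  apply h0
  intro x y hx hy
  obtain ⟨k, hk⟩ := hx
  obtain ⟨l, hl⟩ := hy
  obtain ⟨m, hm⟩ := h1 N hN hNt ⟨x, hcon x ⟨k, hk⟩⟩ ⟨y, hcon y ⟨l, hl⟩⟩ ⟨k, Subtype.ext hk⟩
    ⟨l, Subtype.ext hl⟩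
  exact ⟨m, congrArg Subtype.val hm⟩

theorem exists_max (hp : p.Prime) [Group.IsSolvable G] [Nontrivial G] (hN : Sep p G) :
    ∃ M : Subgroup G, M.Normal ∧ IsCoatom M ∧ M.index = p := by
  have h1 := Group.IsSolvable.commutator_lt_top_of_nontrivial (G := G)
  obtain ⟨M, hM, hle⟩ := (eq_top_or_exists_le_coatom (commutator G)).resolve_left h1.ne
  have hMn : M.Normal := by
    constructor
    intro n hn g
    have h2 : g * n * g⁻¹ = ⁅g, n⁆ * n := by rw [commutatorElement_def]; group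
    rw [h2]
    exact M.mul_mem (hle (Subgroup.commutator_mem_commutator (Subgroup.mem_top g)
      (Subgroup.mem_top n))) hn
  refine ⟨M, hMn, hM, ?_⟩
  obtain ⟨x, ⟨k, hk⟩, hx⟩ := hN M hMn hM.1
  classical
  have hex : ∃ k : ℕ, x ^ p ^ k ∈ M := ⟨k, by rw [hk]; exact M.one_mem⟩
  have hm := Nat.find_spec hex
  have hm0 : Nat.find hex ≠ 0 := by
    intro h
    rw [h, pow_zero, pow_one] at hm
    exact hx hm
  obtain ⟨j, hj⟩ := Nat.exists_eq_succ_of_ne_zero hm0
  have hmin : x ^ p ^ j ∉ M := Nat.find_min hex (by omega)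
  rw [hj] at hm
  set y := x ^ p ^ j with hy
  have hyp : y ^ p ∈ M := by
    rw [hy, ← pow_mul, ← pow_succ]
    exact hm
  have hsup : M ⊔ Subgroup.zpowers y = ⊤ := by
    apply hM.2
    refine lt_of_le_of_ne le_sup_left ?_
    intro h
    apply hmin
    rw [h]
    exact (le_sup_right : Subgroup.zpowers y ≤ M ⊔ Subgroup.zpowers y) (Subgroup.mem_zpowers y)
  have hz : Subgroup.zpowers (y : G ⧸ M) = ⊤ := by
    have h3 := congrArg (Subgroup.map (QuotientGroup.mk' M)) hsup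
    rw [Subgroup.map_sup, QuotientGroup.map_mk'_self, bot_sup_eq, MonoidHom.map_zpowers,
      Subgroup.map_top_of_surjective _ (QuotientGroup.mk'_surjective M)] at h3
    exact h3
  have hord : orderOf (y : G ⧸ M) = p := by
    have : Fact p.Prime := ⟨hp⟩
    apply orderOf_eq_prime
    · rw [← QuotientGroup.mk_pow]
      exact (QuotientGroup.eq_one_iff _).2 hyp
    · intro h
      exact hmin ((QuotientGroup.eq_one_iff _).1 h)
  have h4 := Nat.card_zpowers (y : G ⧸ M)
  rw [hz, Subgroup.card_top, hord] at h4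
  exact h4

theorem mem_pCore_of {M : Subgroup G} (hM : M.Normal) (h : H19.Ito.CP p M) {x : G} (hx : x ∈ M)
    (hpx : PE p x) : x ∈ pCore p G := by
  have h1 : (H19.Ito.OS p M h).Normal := H19.Ito.OS_normal h
  exact H1.Cores.le_pCore h1 (H19.Ito.isPGroup_OS h) ⟨hx, hpx⟩

theorem pCore_le_of {M : Subgroup G} (hM : M.Normal) (hMc : IsCoatom M) (h : H19.Ito.CP p M)
    (h0 : ¬ H19.Ito.CP p G) : pCore p G ≤ M := by
  by_contra hcon
  apply h0
  have hRn : (pCore p G).Normal := inferInstance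
  have h1 : M ⊔ pCore p G = ⊤ := by
    apply hMc.2
    refine lt_of_le_of_ne le_sup_left ?_
    intro h2
    exact hcon (h2 ▸ le_sup_right)
  apply cp_of_mem (H1.Cores.isPGroup_pCore p)
  rintro x ⟨k, hk⟩
  have h2 : x ∈ M ⊔ pCore p G := h1 ▸ Subgroup.mem_top x
  obtain ⟨m, hm, r, hr, rfl⟩ := Subgroup.mem_sup_of_normal_right.1 h2
  have h3 : m ^ p ^ k ∈ pCore p G := by
    have h4 : ((m * r : G) : G ⧸ pCore p G) = (m : G ⧸ pCore p G) := by
      rw [QuotientGroup.mk_mul, (QuotientGroup.eq_one_iff r).2 hr, mul_one]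
    have h5 : ((m ^ p ^ k : G) : G ⧸ pCore p G) = 1 := by
      rw [QuotientGroup.mk_pow, ← h4, ← QuotientGroup.mk_pow, hk, QuotientGroup.mk_one]
    exact (QuotientGroup.eq_one_iff _).1 h5
  exact (pCore p G).mul_mem (mem_pCore_of hM h hm (pe_pow_mem (H1.Cores.isPGroup_pCore p) h3)) hr

/-- existence of a chief factor below `M` -/
theorem exists_chief {R M : Subgroup G} (hR : R.Normal) (hRM : R < M) :
    ∃ L : Subgroup G, L.Normal ∧ R ≤ L ∧ L < M ∧
      ∀ N : Subgroup G, N.Normal → L ≤ N → N ≤ M → N = L ∨ N = M := by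
  classical
  have hfin : Set.Finite {L : Subgroup G | L.Normal ∧ R ≤ L ∧ L < M} := Set.toFinite _
  obtain ⟨L, hL⟩ := hfin.exists_maximal ⟨R, hR, le_rfl, hRM⟩
  obtain ⟨hL1, hL2, hL3⟩ := hL.prop
  refine ⟨L, hL1, hL2, hL3, ?_⟩
  intro N hN hLN hNM
  by_cases h : N = M
  · exact Or.inr h
  · left
    have h1 : N ∈ {L : Subgroup G | L.Normal ∧ R ≤ L ∧ L < M} :=
      ⟨hN, hL2.trans hLN, lt_of_le_of_ne hNM h⟩
    exact le_antisymm (hL.le_of_ge h1 hLN) hLN

theorem commutator_le {L M : Subgroup G} [hL : L.Normal] [hM : M.Normal] [hs : Group.IsSolvable G]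
    (hLM : L < M) (hchief : ∀ N : Subgroup G, N.Normal → L ≤ N → N ≤ M → N = L ∨ N = M) :
    ⁅M, M⁆ ≤ L := by
  have h1 : (L ⊔ ⁅M, M⁆ : Subgroup G).Normal := inferInstance
  rcases hchief _ h1 le_sup_left (sup_le hLM.le (Subgroup.commutator_le_right M M)) with h | h
  · exact h ▸ le_sup_right
  · exfalso
    set f := QuotientGroup.mk' L
    have h2 : M.map f ≠ ⊥ := by
      intro h3
      rw [Subgroup.map_eq_bot_iff, QuotientGroup.ker_mk'] at h3
      exact absurd hLM (not_lt_of_ge h3)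
    have h3 := Group.IsSolvable.commutator_lt_of_ne_bot h2
    rw [← Subgroup.map_commutator] at h3
    have h4 := congrArg (Subgroup.map f) h
    rw [Subgroup.map_sup, QuotientGroup.map_mk'_self, bot_sup_eq] at h4
    exact h3.ne h4

/-- elements of `M` whose `r`-power-power lies in `L` -/
def PT (r : ℕ) (L M : Subgroup G) (h : ⁅M, M⁆ ≤ L) [hL : L.Normal] : Subgroup G where
  carrier := {x | x ∈ M ∧ ∃ k : ℕ, x ^ r ^ k ∈ L}
  one_mem' := ⟨M.one_mem, 0, by simp [L.one_mem]⟩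
  mul_mem' := by
    rintro x y ⟨hx, k, hk⟩ ⟨hy, l, hl⟩
    refine ⟨M.mul_mem hx hy, k + l, ?_⟩
    have h1 : Commute (x : G ⧸ L) (y : G ⧸ L) := by
      have h2 : ((⁅x, y⁆ : G) : G ⧸ L) = 1 :=
        (QuotientGroup.eq_one_iff _).2 (h (Subgroup.commutator_mem_commutator hx hy))
      have h3 : ⁅(x : G ⧸ L), (y : G ⧸ L)⁆ = 1 := h2
      exact commutatorElement_eq_one_iff_mul_comm.1 h3
    apply (QuotientGroup.eq_one_iff _).1
    rw [QuotientGroup.mk_pow, QuotientGroup.mk_mul, h1.mul_pow]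
    have h4 : (x : G ⧸ L) ^ r ^ k = 1 := by
      rw [← QuotientGroup.mk_pow]; exact (QuotientGroup.eq_one_iff _).2 hk
    have h5 : (y : G ⧸ L) ^ r ^ l = 1 := by
      rw [← QuotientGroup.mk_pow]; exact (QuotientGroup.eq_one_iff _).2 hl
    rw [pow_add, pow_mul, h4, one_pow, mul_comm (r ^ k), pow_mul, h5, one_pow, one_mul]
  inv_mem' := by
    rintro x ⟨hx, k, hk⟩
    exact ⟨M.inv_mem hx, k, by rw [inv_pow]; exact L.inv_mem hk⟩

theorem mem_PT {r : ℕ} {L M : Subgroup G} {h : ⁅M, M⁆ ≤ L} [hL : L.Normal] {x : G} :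
    x ∈ PT r L M h ↔ x ∈ M ∧ ∃ k : ℕ, x ^ r ^ k ∈ L := Iff.rfl

theorem PT_normal {r : ℕ} {L M : Subgroup G} {h : ⁅M, M⁆ ≤ L} [hL : L.Normal] [hM : M.Normal] :
    (PT r L M h).Normal := by
  constructor
  rintro x ⟨hx, k, hk⟩ g
  exact ⟨hM.conj_mem x hx g, k, by rw [conj_pow]; exact hL.conj_mem _ hk g⟩

theorem isPrimePow_relIndex {L M : Subgroup G} [hL : L.Normal] [hM : M.Normal] (hLM : L < M)
    (hchief : ∀ N : Subgroup G, N.Normal → L ≤ N → N ≤ M → N = L ∨ N = M)
    (hab : ⁅M, M⁆ ≤ L) : IsPrimePow (L.relIndex M) := by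
  have hLM' : (L.subgroupOf M).Normal := hL.subgroupOf M
  have h1 : L.relIndex M ≠ 1 := by
    intro h
    exact absurd hLM (not_lt_of_ge (Subgroup.relIndex_eq_one.1 h))
  set r := (L.relIndex M).minFac with hr
  have hrp : r.Prime := Nat.minFac_prime h1
  have : Fact r.Prime := ⟨hrp⟩
  have hn : (PT r L M hab).Normal := PT_normal
  have hle : L ≤ PT r L M hab := fun x hx => ⟨hLM.le hx, 0, by simpa using hx⟩
  have hle' : PT r L M hab ≤ M := fun x hx => hx.1
  have htop : PT r L M hab = M := by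
    rcases hchief _ hn hle hle' with h | h
    · exfalso
      have h2 : r ∣ Nat.card (M ⧸ L.subgroupOf M) := Nat.minFac_dvd _
      obtain ⟨y, hy⟩ := exists_prime_orderOf_dvd_card' r h2
      obtain ⟨m, rfl⟩ := QuotientGroup.mk_surjective y
      have h3 : (m : G) ∈ PT r L M hab := by
        refine ⟨m.2, 1, ?_⟩
        rw [pow_one]
        have h4 : (((m ^ r : M)) : M ⧸ L.subgroupOf M) = 1 := by
          rw [QuotientGroup.mk_pow, ← hy, pow_orderOf_eq_one]
        exact Subgroup.mem_subgroupOf.1 ((QuotientGroup.eq_one_iff _).1 h4)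
      rw [h] at h3
      have h5 : ((m : M) : M ⧸ L.subgroupOf M) = 1 :=
        (QuotientGroup.eq_one_iff _).2 (Subgroup.mem_subgroupOf.2 h3)
      rw [h5, orderOf_one] at hy
      exact hrp.one_lt.ne hy
    · exact h
  have hpg : IsPGroup r (M ⧸ L.subgroupOf M) := by
    intro q
    obtain ⟨m, rfl⟩ := QuotientGroup.mk_surjective q
    have h3 : (m : G) ∈ PT r L M hab := (SetLike.ext_iff.1 htop (m : G)).2 m.2
    obtain ⟨-, k, hk⟩ := h3
    refine ⟨k, ?_⟩
    rw [← QuotientGroup.mk_pow]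
    exact (QuotientGroup.eq_one_iff _).2 (Subgroup.mem_subgroupOf.2 hk)
  obtain ⟨k, hk⟩ := IsPGroup.iff_card.1 hpg
  have h2 : L.relIndex M = r ^ k := hk
  rw [h2]
  refine (isPrimePow_nat_iff _).2 ⟨r, k, hrp, ?_, rfl⟩
  rcases Nat.eq_zero_or_pos k with h | h
  · rw [h, pow_zero] at h2
    exact absurd h2 h1
  · exact h

theorem sup_zpowers_eq_top {M : Subgroup G} (hM : IsCoatom M) {x : G} (hx : x ∉ M) :
    M ⊔ Subgroup.zpowers x = ⊤ := by
  apply hM.2
  refine lt_of_le_of_ne le_sup_left ?_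
  intro h
  apply hx
  rw [h]
  exact (le_sup_right : Subgroup.zpowers x ≤ M ⊔ Subgroup.zpowers x) (Subgroup.mem_zpowers x)

theorem eq_top_of_le {M C : Subgroup G} (hM : IsCoatom M) {x : G} (hx : x ∉ M) (h1 : M ≤ C)
    (h2 : x ∈ C) : C = ⊤ := by
  rw [eq_top_iff, ← sup_zpowers_eq_top hM hx]
  exact sup_le h1 (Subgroup.zpowers_le.2 h2)

/-- no nontrivial central chief factor below `M` -/
theorem not_central {L M : Subgroup G} [hL : L.Normal] [hM : M.Normal] (hLM : L < M)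
    (hMc : IsCoatom M) (hS : Sep p G) (hab : ⁅M, M⁆ ≤ L)
    (hLp : ∀ m ∈ M, (∃ k : ℕ, m ^ p ^ k ∈ L) → m ∈ L)
    (hc : M ≤ (Subgroup.center (G ⧸ L)).comap (QuotientGroup.mk' L)) : False := by
  obtain ⟨x, hx, hxM⟩ := hS M hM hMc.1
  have h1 : (Subgroup.centralizer {(x : G ⧸ L)}).comap (QuotientGroup.mk' L) = ⊤ := by
    apply eq_top_of_le hMc hxM
    · intro m hm
      have h2 := Subgroup.mem_comap.1 (hc hm)
      rw [Subgroup.mem_comap, Subgroup.mem_centralizer_singleton_iff]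
      exact ((Subgroup.mem_center_iff.1 h2) _).symm
    · rw [Subgroup.mem_comap, Subgroup.mem_centralizer_singleton_iff]
      rfl
  have h2 : (Subgroup.center (G ⧸ L)).comap (QuotientGroup.mk' L) = ⊤ := by
    apply eq_top_of_le hMc hxM hc
    rw [Subgroup.mem_comap, Subgroup.mem_center_iff]
    intro g
    obtain ⟨g, rfl⟩ := QuotientGroup.mk_surjective g
    have h3 : g ∈ (Subgroup.centralizer {(x : G ⧸ L)}).comap (QuotientGroup.mk' L) :=
      h1 ▸ Subgroup.mem_top g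
    rw [Subgroup.mem_comap, Subgroup.mem_centralizer_singleton_iff] at h3
    exact h3
  have hab' : ⁅(⊤ : Subgroup G), (⊤ : Subgroup G)⁆ ≤ L := by
    rw [Subgroup.commutator_le]
    intro a _ b _
    apply (QuotientGroup.eq_one_iff _).1
    have h3 : a ∈ (Subgroup.center (G ⧸ L)).comap (QuotientGroup.mk' L) := h2 ▸ Subgroup.mem_top a
    have h4 : ⁅(a : G ⧸ L), (b : G ⧸ L)⁆ = 1 :=
      commutatorElement_eq_one_iff_mul_comm.2 ((Subgroup.mem_center_iff.1
        (Subgroup.mem_comap.1 h3)) _).symm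
    exact h4
  have hOn : (PT p L ⊤ hab').Normal := PT_normal
  have hOt : PT p L ⊤ hab' ≠ ⊤ := by
    intro h
    apply absurd hLM (not_lt_of_ge _)
    intro m hm
    exact hLp m hm (mem_PT.1 (h ▸ Subgroup.mem_top m)).2
  obtain ⟨y, ⟨k, hk⟩, hy⟩ := hS _ hOn hOt
  exact hy ⟨Subgroup.mem_top y, k, by rw [hk]; exact L.one_mem⟩

theorem card_modEq {A : Type u} [Group A] [Finite A] (hp : p.Prime) {N : Subgroup A} [N.Normal]
    {x : A} (hx : PE p x) (h : ∀ n ∈ N, x * n = n * x → n = 1) : Nat.card N ≡ 1 [MOD p] := by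
  have : Fact p.Prime := ⟨hp⟩
  have hpg : IsPGroup p (Subgroup.zpowers x) := by
    obtain ⟨k, hk⟩ := hx
    rintro ⟨y, j, rfl⟩
    refine ⟨k, Subtype.ext ?_⟩
    change (x ^ j) ^ p ^ k = 1
    rw [← zpow_natCast, ← zpow_mul, mul_comm, zpow_mul, zpow_natCast, hk, one_zpow]
  letI : MulAction (Subgroup.zpowers x) N :=
    MulAction.compHom N ((MulAut.conjNormal (H := N)).comp (Subgroup.zpowers x).subtype)
  have h1 := hpg.card_modEq_card_fixedPoints N
  have h2 : MulAction.fixedPoints (Subgroup.zpowers x) N = {1} := by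
    ext n
    simp only [Set.mem_singleton_iff, MulAction.mem_fixedPoints]
    constructor
    · intro hn
      have h3 := congrArg Subtype.val (hn ⟨x, Subgroup.mem_zpowers x⟩)
      change x * (n : A) * x⁻¹ = n at h3
      apply Subtype.ext
      exact h n n.2 (mul_inv_eq_iff_eq_mul.1 h3)
    · rintro rfl g
      exact map_one (MulAut.conjNormal (H := N) ((Subgroup.zpowers x).subtype g))
  rw [h2] at h1
  simpa using h1

theorem card_map_eq {L M : Subgroup G} [L.Normal] (hLM : L ≤ M) :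
    Nat.card (M.map (QuotientGroup.mk' L)) = L.relIndex M := by
  rw [← Subgroup.relIndex_ker, QuotientGroup.ker_mk']

theorem relIndex_modEq (hp : p.Prime) {L M : Subgroup G} [hL : L.Normal] [hM : M.Normal]
    (hLM : L < M) (hMc : IsCoatom M) (hS : Sep p G) (hab : ⁅M, M⁆ ≤ L)
    (hchief : ∀ N : Subgroup G, N.Normal → L ≤ N → N ≤ M → N = L ∨ N = M)
    (hLp : ∀ m ∈ M, (∃ k : ℕ, m ^ p ^ k ∈ L) → m ∈ L) : L.relIndex M ≡ 1 [MOD p] := by
  obtain ⟨x, hx, hxM⟩ := hS M hM hMc.1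
  have hD : (M ⊓ (Subgroup.center (G ⧸ L)).comap (QuotientGroup.mk' L) : Subgroup G).Normal :=
    inferInstance
  rcases hchief _ hD (le_inf hLM.le (by
    intro l hl
    rw [Subgroup.mem_comap, QuotientGroup.mk'_apply, (QuotientGroup.eq_one_iff l).2 hl]
    exact Subgroup.one_mem _)) inf_le_left with h | h
  · have hMn : (M.map (QuotientGroup.mk' L)).Normal :=
      hM.map _ (QuotientGroup.mk'_surjective L)
    rw [← card_map_eq hLM.le]
    have hx' : PE p (x : G ⧸ L) := by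
      obtain ⟨k, hk⟩ := hx
      exact ⟨k, by rw [← QuotientGroup.mk_pow, hk, QuotientGroup.mk_one]⟩
    apply card_modEq hp hx'
    rintro _ ⟨m, hm, rfl⟩ hcomm
    rw [QuotientGroup.mk'_apply] at hcomm ⊢
    rw [QuotientGroup.eq_one_iff, ← h]
    refine ⟨hm, ?_⟩
    have h1 : (Subgroup.centralizer {(m : G ⧸ L)}).comap (QuotientGroup.mk' L) = ⊤ := by
      apply eq_top_of_le hMc hxM
      · intro m' hm'
        rw [Subgroup.mem_comap, Subgroup.mem_centralizer_singleton_iff]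
        have h3 : ((⁅m', m⁆ : G) : G ⧸ L) = 1 :=
          (QuotientGroup.eq_one_iff _).2 (hab (Subgroup.commutator_mem_commutator hm' hm))
        have h4 : ⁅(m' : G ⧸ L), (m : G ⧸ L)⁆ = 1 := h3
        exact commutatorElement_eq_one_iff_mul_comm.1 h4
      · rw [Subgroup.mem_comap, Subgroup.mem_centralizer_singleton_iff]
        exact hcomm
    change m ∈ (Subgroup.center (G ⧸ L)).comap (QuotientGroup.mk' L)
    rw [Subgroup.mem_comap, Subgroup.mem_center_iff]
    intro g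
    obtain ⟨g, rfl⟩ := QuotientGroup.mk_surjective g
    have h3 : g ∈ (Subgroup.centralizer {(m : G ⧸ L)}).comap (QuotientGroup.mk' L) :=
      h1 ▸ Subgroup.mem_top g
    rw [Subgroup.mem_comap, Subgroup.mem_centralizer_singleton_iff] at h3
    exact h3
  · exact (not_central hLM hMc hS hab hLp (inf_eq_left.1 h)).elim

end grp

end H77.SolvDeg
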