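import Cfsg.Agent.Lib.H77.SolvDeg
import Cfsg.Agent.Lib.H77.InvOver
import Cfsg.Agent.Lib.H18.Primitive

/-!
# Prime power divisors of degrees of faithful characters of solvable groups (S4467) (helper77)
-/

set_option autoImplicit false
set_option linter.style.haveILetI false
set_option linter.unusedSectionVars false
set_option linter.unusedVariables false
open Cfsg

namespace H77.SolvDeg

open H18 H18.CharBasic H18.CharOrtho H18.CharInd H18.CharQuot H31.Clifford
open scoped commutatorElement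

universe u

/-- no prime power divisor of `n` is `0, ±1` mod `p` -/
def Bad (p n : ℕ) : Prop := ∀ q : ℕ, IsPrimePow q → q ∣ n →
  ¬ ((q : ℤ) ≡ -1 [ZMOD p] ∨ (q : ℤ) ≡ 0 [ZMOD p] ∨ (q : ℤ) ≡ 1 [ZMOD p])

theorem Bad.of_dvd {p n d : ℕ} (h : Bad p n) (hd : d ∣ n) : Bad p d :=
  fun q hq hqd => h q hq (hqd.trans hd)

theorem Bad.not_dvd {p n : ℕ} (h : Bad p n) (hp : p.Prime) : ¬ p ∣ n := by
  intro hd
  exact h p hp.isPrimePow hd (Or.inr (Or.inl (by rw [Int.modEq_zero_iff_dvd])))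

section chars

variable {G : Type u} [Group G] [Finite G] {p : ℕ}

theorem pe_pow_card (hp : p.Prime) {A : Type u} [Group A] [Finite A] {m : ℕ} (hm : Nat.card A ≤ m)
    {x : A} (hx : PE p x) : x ^ p ^ m = 1 := by
  obtain ⟨k, hk⟩ := hx
  obtain ⟨j, _, hj⟩ := (Nat.dvd_prime_pow hp).1 (orderOf_dvd_of_pow_eq_one hk)
  have h1 : p ^ j ≤ m := by
    rw [← hj]
    exact (orderOf_le_card (G := A)).trans hm
  have h2 : j < p ^ j := Nat.lt_pow_self hp.one_lt
  apply orderOf_dvd_iff_pow_eq_one.1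
  rw [hj]
  exact pow_dvd_pow p (by omega)

/-- `p`-closedness from the images in the constituents -/
theorem cp_of_quot (hp : p.Prime) {K : Type u} [Group K] [Fintype K] {f : K → ℂ}
    (hf : IsCharacter K f) (hfaith : ∀ g, f g = f 1 → g = 1)
    (h : ∀ (φ : K → ℂ) (hφ : IsIrrCharacter K φ), classInner f φ ≠ 0 →
      H19.Ito.CP p (K ⧸ kerSub φ (isCharacter_of_isIrr hφ))) : H19.Ito.CP p K := by
  intro x y ⟨k, hk⟩ ⟨l, hl⟩
  refine ⟨Nat.card K, ?_⟩
  apply hfaith
  apply H19.Ito.ker_of_constituents hf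
  intro φ hφ hne
  obtain h1 := h φ hφ hne (x : K ⧸ kerSub φ (isCharacter_of_isIrr hφ)) y
    ⟨k, by rw [← QuotientGroup.mk_pow, hk, QuotientGroup.mk_one]⟩
    ⟨l, by rw [← QuotientGroup.mk_pow, hl, QuotientGroup.mk_one]⟩
  have h2 := pe_pow_card hp (m := Nat.card K) (Nat.le_of_dvd Nat.card_pos (Subgroup.card_quotient_dvd_card _)) h1
  rw [← QuotientGroup.mk_mul, ← QuotientGroup.mk_pow, QuotientGroup.eq_one_iff] at h2
  exact h2

theorem mem_of_index {T : Subgroup G} [T.Normal] (hp : p.Prime) (hT : ¬ p ∣ T.index) {x : G}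
    (hx : PE p x) : x ∈ T := by
  obtain ⟨k, hk⟩ := hx
  have h1 : orderOf (x : G ⧸ T) ∣ p ^ k := by
    apply orderOf_dvd_of_pow_eq_one
    rw [← QuotientGroup.mk_pow, hk, QuotientGroup.mk_one]
  have h2 : orderOf (x : G ⧸ T) ∣ T.index := orderOf_dvd_natCard _
  have h3 : Nat.Coprime (p ^ k) T.index := Nat.Coprime.pow_left _ ((hp.coprime_iff_not_dvd).2 hT)
  have h4 := Nat.eq_one_of_dvd_coprimes h3 h1 h2
  exact (QuotientGroup.eq_one_iff x).1 (orderOf_eq_one_iff.1 h4)

theorem comm_of_one {χ : G → ℂ} (hχ : IsCharacter G χ) (hfaith : ∀ g, χ g = χ 1 → g = 1)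
    (h1 : χ 1 = 1) (a b : G) : a * b = b * a := by
  obtain ⟨f, rfl⟩ := exists_hom_of_degree_one hχ h1
  have h2 : ⁅a, b⁆ = 1 := by
    apply hfaith
    show ((f ⁅a, b⁆ : ℂˣ) : ℂ) = (f 1 : ℂˣ)
    rw [commutatorElement_def, map_mul, map_mul, map_mul, map_inv, map_inv, map_one,
      mul_comm (f a) (f b), mul_assoc (f b), mul_inv_cancel, mul_one, mul_inv_cancel]
  exact commutatorElement_eq_one_iff_mul_comm.1 h2

/-- the last step -/
theorem final [Fintype G] (hp : p.Prime) (hS : Sep p G) {χ : G → ℂ} (hχ : IsIrrCharacter G χ)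
    (hfaith : ∀ g, χ g = χ 1 → g = 1) {n : ℕ} (hn : χ 1 = n) (hpn : ¬ p ∣ n)
    {R L : Subgroup G} [hRn : R.Normal] [hLn : L.Normal] (hR : IsPGroup p R) (hRL : R ≤ L)
    (hχL : IsIrrCharacter L (fun x : L => χ x)) (hcomm : ∀ g : G, ∀ l ∈ L, ⁅g, l⁆ ∈ R)
    (hLR : ∀ l ∈ L, ∃ m : ℕ, ¬ p ∣ m ∧ l ^ m ∈ R) : χ 1 = 1 := by
  classical
  have : Fact p.Prime := ⟨hp⟩
  letI : Fintype R := Fintype.ofFinite _
  letI : Fintype L := Fintype.ofFinite _
  letI : Fintype (R.subgroupOf L) := Fintype.ofFinite _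
  have hRLn : (R.subgroupOf L).Normal := hRn.subgroupOf L
  have hχc := isCharacter_of_isIrr hχ
  have hcR : IsCharacter R (fun x : R => χ x) := isCharacter_restrict R hχc
  obtain ⟨lam, hlam, hne⟩ := exists_irr_inner_ne_zero (isClassFunction_of_isCharacter hcR)
    (fun h => irr_one_ne_zero hχ (congrFun h 1))
  obtain ⟨m, hm⟩ := inner_char_natCast hcR (isCharacter_of_isIrr hlam)
  obtain ⟨d, hd0, hd⟩ := exists_degree_pos hlam
  have hdeg := degree_eq R hχ hlam hne
  rw [hm, hd, hn] at hdeg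
  have hdegN : n = m * (inertia R lam).index * d := by exact_mod_cast hdeg
  -- `lam` is linear
  have hd1 : d = 1 := by
    have h1 : d ∣ Nat.card R := H77.Degree.degree_dvd_card hlam hd
    obtain ⟨a, ha⟩ := IsPGroup.iff_card.1 hR
    rw [ha] at h1
    obtain ⟨j, _, hj⟩ := (Nat.dvd_prime_pow hp).1 h1
    rcases Nat.eq_zero_or_pos j with h0 | h0
    · rw [hj, h0, pow_zero]
    · exfalso
      apply hpn
      rw [hdegN, hj]
      exact Dvd.dvd.mul_left (dvd_pow_self p h0.ne') _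
  -- the inertia group is everything
  set T := inertia R lam with hT
  have hRT : R ≤ T := le_inertia R (isClassFunction_of_isIrr hlam)
  have hconj : ∀ g : G, ∃ l ∈ L, ∃ t ∈ T, g = t * l := by
    intro g
    have h1 : classInner (fun x : R.subgroupOf L => (fun x : L => χ x) x) (thT R L lam) ≠ 0 := by
      intro h0
      exact hne ((inner_thT R L hRL (fun x : L => χ x) lam).symm.trans h0)
    have h2 : classInner (fun x : R.subgroupOf L => (fun x : L => χ x) x)
        (thT R L (conjFunN R g lam)) ≠ 0 := by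
      intro h0
      have h3 := (inner_thT R L hRL (fun x : L => χ x) (conjFunN R g lam)).symm.trans h0
      apply hne
      rw [← inner_restrict_cj R g (isClassFunction_of_isIrr hχ)]
      exact h3
    obtain ⟨l, hl⟩ := constituents_conj (R.subgroupOf L) hχL (irr_thT R L hRL hlam)
      (irr_thT R L hRL (isIrrCharacter_conjN R g hlam)) h1 h2
    rw [cj_thT] at hl
    have h3 := thT_inj R L hRL hl
    refine ⟨l, l.2, g * (l : G)⁻¹, ?_, by group⟩
    rw [hT, mem_inertia, ← cj_mul, h3, cj_mul, mul_inv_cancel, cj_one]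
  have hTn : T.Normal := by
    constructor
    intro t ht g
    obtain ⟨l, hl, t', ht', rfl⟩ := hconj g
    have h1 : l * t * l⁻¹ ∈ T := by
      have h2 : l * t * l⁻¹ = ⁅t, l⁆⁻¹ * t := by rw [commutatorElement_def]; group
      rw [h2]
      exact T.mul_mem (T.inv_mem (hRT (hcomm t l hl))) ht
    have h3 : t' * l * t * (t' * l)⁻¹ = t' * (l * t * l⁻¹) * t'⁻¹ := by group
    rw [h3]
    exact T.mul_mem (T.mul_mem ht' h1) (T.inv_mem ht')
  have hTt : T = ⊤ := by
    by_contra hne'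
    obtain ⟨x, hx, hxT⟩ := hS T hTn hne'
    apply hxT
    apply mem_of_index hp _ hx
    intro h
    apply hpn
    rw [hdegN]
    exact Dvd.dvd.mul_right (Dvd.dvd.mul_left h _) _
  -- `R` is central
  have horb : orb R lam = {lam} := by
    have h1 := card_orb R lam
    rw [← hT, hTt, Subgroup.index_top] at h1
    obtain ⟨a, ha⟩ := Finset.card_eq_one.1 h1
    have h2 := self_mem_orb R lam
    rw [ha, Finset.mem_singleton] at h2
    rw [ha, h2]
  have hres := restrict_eq R hχ hlam hne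
  rw [horb, Finset.sum_singleton, hm] at hres
  obtain ⟨f, hf⟩ := exists_hom_of_degree_one (isCharacter_of_isIrr hlam) (by rw [hd, hd1]; simp)
  have hm0 : (m : ℂ) ≠ 0 := by rw [← hm]; exact hne
  have hval : ∀ r : R, χ r = m * f r := by
    intro r
    have h1 := congrFun hres r
    rw [hf] at h1
    exact h1
  have hRc : ∀ r ∈ R, ∀ g : G, g * r = r * g := by
    intro r hr g
    have h1 : f ⟨g * r * g⁻¹, hRn.conj_mem r hr g⟩ = f ⟨r, hr⟩ := by
      have h2 : g ∈ inertia R lam := by rw [← hT, hTt]; exact Subgroup.mem_top g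
      have h3 := (mem_inertia_iff R).1 h2 ⟨r, hr⟩
      rw [hf] at h3
      exact Units.ext h3
    have h2 : g * r * g⁻¹ * r⁻¹ = 1 := by
      apply hfaith
      have h3 := hval (⟨g * r * g⁻¹, hRn.conj_mem r hr g⟩ * ⟨r, hr⟩⁻¹)
      rw [map_mul, h1, map_inv, mul_inv_cancel] at h3
      have h4 := hval 1
      rw [map_one] at h4
      exact h3.trans h4.symm
    exact mul_inv_eq_iff_eq_mul.1 (mul_inv_eq_one.1 h2)
  -- `L` is central
  have hLc : ∀ l ∈ L, ∀ g : G, g * l = l * g := by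
    intro l hl g
    obtain ⟨k, hk, hlk⟩ := hLR l hl
    set c := ⁅g, l⁆ with hc
    have hcR' : c ∈ R := hcomm g l hl
    have h1 : g * l * g⁻¹ = c * l := by rw [hc, commutatorElement_def]; group
    have h2 : g * l ^ k * g⁻¹ = c ^ k * l ^ k := by
      rw [← conj_pow, h1, (show Commute c l from (hRc c hcR' l).symm).mul_pow]
    rw [hRc _ hlk g, mul_inv_cancel_right] at h2
    have h3 : c ^ k = 1 := by
      have := h2.symm
      rwa [mul_eq_right] at this
    obtain ⟨a, ha⟩ := hR ⟨c, hcR'⟩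
    have h4 : c ^ p ^ a = 1 := congrArg Subtype.val ha
    have h5 : orderOf c ∣ Nat.gcd (p ^ a) k :=
      Nat.dvd_gcd (orderOf_dvd_of_pow_eq_one h4) (orderOf_dvd_of_pow_eq_one h3)
    have h6 : Nat.Coprime (p ^ a) k := Nat.Coprime.pow_left _ ((hp.coprime_iff_not_dvd).2 hk)
    rw [h6, Nat.dvd_one, orderOf_eq_one_iff, hc] at h5
    exact commutatorElement_eq_one_iff_mul_comm.1 h5
  exact degree_one_of_comm (fun a b => Subtype.ext (hLc b b.2 a)) hχL

/-- the induction hypothesis -/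
def IH (p m : ℕ) : Prop := ∀ (G : Type u) [Group G] [Fintype G] (χ : G → ℂ) (n : ℕ),
  Group.IsSolvable G → Nat.card G < m → IsIrrCharacter G χ → (∀ g, χ g = χ 1 → g = 1) →
    χ 1 = n → Bad p n → H19.Ito.CP p G

theorem normal_step [Fintype G] (hp : p.Prime) [Group.IsSolvable G] (ih : IH.{u} p (Nat.card G))
    {χ : G → ℂ} (hχ : IsIrrCharacter G χ) (hfaith : ∀ g, χ g = χ 1 → g = 1) {n : ℕ}
    (hn : χ 1 = n) (hbad : Bad p n) (N : Subgroup G) (hNn : N.Normal) (hN : N ≠ ⊤) :
    H19.Ito.CP p N := by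
  classical
  letI : Fintype N := Fintype.ofFinite _
  have hcN : IsCharacter N (fun x : N => χ x) := isCharacter_restrict N (isCharacter_of_isIrr hχ)
  apply cp_of_quot hp hcN (fun g hg => Subtype.ext (hfaith _ hg))
  intro φ hφ hne
  set K := kerSub φ (isCharacter_of_isIrr hφ) with hK
  letI : Fintype (N ⧸ K) := Fintype.ofFinite _
  obtain ⟨m, hm⟩ := inner_char_natCast hcN (isCharacter_of_isIrr hφ)
  obtain ⟨d, hd0, hd⟩ := exists_degree_pos hφ
  have hdeg := degree_eq N hχ hφ hne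
  rw [hm, hd, hn] at hdeg
  have hdegN : n = m * (inertia N φ).index * d := by exact_mod_cast hdeg
  have hcard : Nat.card (N ⧸ K) < Nat.card G := by
    have h1 : Nat.card (N ⧸ K) ≤ Nat.card N :=
      Nat.le_of_dvd Nat.card_pos (Subgroup.card_quotient_dvd_card _)
    have h2 : Nat.card N < Nat.card G := by
      apply lt_of_le_of_ne (Subgroup.card_le_card_group N)
      intro h
      exact hN (Subgroup.eq_top_of_card_eq N h)
    omega
  refine ih (N ⧸ K) (deflate K φ) d inferInstance hcard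
    (isIrrCharacter_deflate K hφ (fun n hn => hn)) ?_ ?_ (hbad.of_dvd (hdegN ▸ Dvd.intro_left _ rfl))
  · exact H77.SchurBound.deflate_faithful (isCharacter_of_isIrr hφ)
  · rw [H77.SchurBound.deflate_one K (isCharacter_of_isIrr hφ) (fun n hn => hn), hd]

theorem residual_le (hp : p.Prime) {M : Subgroup G} [M.Normal] (hM : M.index = p) :
    pResidual p G ≤ M := by
  rw [pResidual, Subgroup.closure_le]
  intro g hg
  have h1 : orderOf (g : G ⧸ M) ∣ orderOf g := by
    apply orderOf_dvd_of_pow_eq_one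
    rw [← QuotientGroup.mk_pow, pow_orderOf_eq_one, QuotientGroup.mk_one]
  have h2 : orderOf (g : G ⧸ M) ∣ p := hM ▸ orderOf_dvd_natCard _
  have h4 := Nat.eq_one_of_dvd_coprimes hg h1 h2
  exact (QuotientGroup.eq_one_iff g).1 (orderOf_eq_one_iff.1 h4)

theorem not_dvd_relIndex (hp : p.Prime) {R M : Subgroup G} [hRn : R.Normal] (hR : IsPGroup p R)
    (hRM : R ≤ M) (hMp : ∀ m ∈ M, PE p m → m ∈ R) : ¬ p ∣ R.relIndex M := by
  intro h
  have : Fact p.Prime := ⟨hp⟩
  have hn : (R.subgroupOf M).Normal := hRn.subgroupOf M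
  obtain ⟨y, hy⟩ := exists_prime_orderOf_dvd_card' (G := M ⧸ R.subgroupOf M) p h
  obtain ⟨m, rfl⟩ := QuotientGroup.mk_surjective y
  have h4 : (((m ^ p : M)) : M ⧸ R.subgroupOf M) = 1 := by
    rw [QuotientGroup.mk_pow, ← hy, pow_orderOf_eq_one]
  have h5 : (m : G) ^ p ∈ R := Subgroup.mem_subgroupOf.1 ((QuotientGroup.eq_one_iff _).1 h4)
  have h6 : (m : G) ∈ R := hMp m m.2 (pe_pow_mem hR (k := 1) (by rwa [pow_one]))
  have h7 : ((m : M) : M ⧸ R.subgroupOf M) = 1 :=
    (QuotientGroup.eq_one_iff _).2 (Subgroup.mem_subgroupOf.2 h6)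
  rw [h7, orderOf_one] at hy
  exact hp.one_lt.ne hy

theorem pow_relIndex_mem {R M : Subgroup G} [hRn : R.Normal] {m : G} (hm : m ∈ M) :
    m ^ R.relIndex M ∈ R := by
  have hn : (R.subgroupOf M).Normal := hRn.subgroupOf M
  have h1 : (⟨m, hm⟩ : M) ^ (R.subgroupOf M).index ∈ R.subgroupOf M :=
    Subgroup.pow_index_mem _ _
  exact Subgroup.mem_subgroupOf.1 h1

theorem mem_of_pow_mem {L M : Subgroup G} [hL : L.Normal] (hp : p.Prime)
    (h : ¬ p ∣ L.relIndex M) {m : G} (hm : m ∈ M) (hk : ∃ k : ℕ, m ^ p ^ k ∈ L) : m ∈ L := by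
  obtain ⟨k, hk⟩ := hk
  have h1 := pow_relIndex_mem (R := L) hm
  have h3 : Nat.Coprime (p ^ k) (L.relIndex M) :=
    Nat.Coprime.pow_left _ ((hp.coprime_iff_not_dvd).2 h)
  have h4 : orderOf (m : G ⧸ L) ∣ p ^ k := by
    apply orderOf_dvd_of_pow_eq_one
    rw [← QuotientGroup.mk_pow]
    exact (QuotientGroup.eq_one_iff _).2 hk
  have h5 : orderOf (m : G ⧸ L) ∣ L.relIndex M := by
    apply orderOf_dvd_of_pow_eq_one
    rw [← QuotientGroup.mk_pow]
    exact (QuotientGroup.eq_one_iff _).2 h1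
  exact (QuotientGroup.eq_one_iff m).1 (orderOf_eq_one_iff.1 (Nat.eq_one_of_dvd_coprimes h3 h4 h5))

theorem step [Fintype G] (hp : p.Prime) [Group.IsSolvable G] (ih : IH.{u} p (Nat.card G))
    {χ : G → ℂ} (hχ : IsIrrCharacter G χ) (hfaith : ∀ g, χ g = χ 1 → g = 1) {n : ℕ}
    (hn : χ 1 = n) (hbad : Bad p n) : H19.Ito.CP p G := by
  classical
  have : Fact p.Prime := ⟨hp⟩
  by_contra h0
  have hpn := hbad.not_dvd hp
  have hNS := normal_step hp ih hχ hfaith hn hbad
  have hS : Sep p G := sep_of h0 hNS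
  have hnt : Nontrivial G := by
    by_contra h
    rw [not_nontrivial_iff_subsingleton] at h
    exact h0 (cp_of_comm (fun _ _ => Subsingleton.elim _ _))
  obtain ⟨M, hMn, hMc, hMi⟩ := exists_max hp hS
  have hMcp : H19.Ito.CP p M := hNS M hMn hMc.1
  have hRM : pCore p G ≤ M := pCore_le_of hMn hMc hMcp h0
  have hMp : ∀ m ∈ M, PE p m → m ∈ pCore p G := fun m hm h => mem_pCore_of hMn hMcp hm h
  have hRp := H1.Cores.isPGroup_pCore (G := G) p
  have hRM' : pCore p G ≠ M := by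
    intro h
    apply h0
    apply cp_of_mem (R := ⊤) _ (fun x _ => Subgroup.mem_top x)
    rintro ⟨x, hx⟩
    have h1 : x ^ M.index ∈ M := Subgroup.pow_index_mem _ _
    rw [hMi, ← h] at h1
    obtain ⟨k, hk⟩ := pe_pow_mem hRp (k := 1) (by rwa [pow_one])
    exact ⟨k, Subtype.ext hk⟩
  have hRn : (pCore p G).Normal := inferInstance
  obtain ⟨L, hLn, hRL, hLM, hchief⟩ := exists_chief hRn (lt_of_le_of_ne hRM hRM')
  have hab := commutator_le hLM hchief
  have hpRM := not_dvd_relIndex hp hRp hRM hMp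
  have hpLM : ¬ p ∣ L.relIndex M := fun h =>
    hpRM (h.trans (Subgroup.relIndex_mul_relIndex _ _ _ hRL hLM.le ▸ Dvd.intro_left _ rfl))
  have hLp : ∀ m ∈ M, (∃ k : ℕ, m ^ p ^ k ∈ L) → m ∈ L := fun m hm h => mem_of_pow_mem hp hpLM hm h
  have hpp := isPrimePow_relIndex hLM hchief hab
  have hmod := relIndex_modEq hp hLM hMc hS hab hchief hLp
  have hmodZ : ((L.relIndex M : ℕ) : ℤ) ≡ 1 [ZMOD p] := by
    have := (Int.natCast_modEq_iff).2 hmod
    simpa using this
  have hχM : IsIrrCharacter M (fun x : M => χ x) :=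
    H77.PQuot.restrict_irr (residual_le hp hMi) ⟨χ, hχ⟩ (by
      rw [H77.PQuot.charDegree_eq_of hn]; exact hpn)
  have hcl := isClassFunction_of_isIrr hχ
  letI : Fintype L := Fintype.ofFinite _
  rcases H18.GoDown.going_down M L hLM hchief hab (fun x : M => χ x) hχM
    (fun g n => hcl _ _) with h1 | ⟨φ, e, hφ, h1, h2⟩ | ⟨F, hF, hFc, h1⟩
  · -- `χ` restricts irreducibly to `L`
    have hχL : IsIrrCharacter L (fun x : L => χ x) := h1
    have hx : ∀ x : G, PE p x → ∀ l ∈ L, ⁅x, l⁆ ∈ pCore p G := by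
      intro x hx l hl
      have hH : L ⊔ Subgroup.zpowers x ≠ ⊤ := by
        intro h
        apply absurd hLM (not_lt_of_ge _)
        intro m hm
        apply hLp m hm
        obtain ⟨k, hk⟩ := hx
        refine ⟨k, ?_⟩
        have h2 : m ∈ L ⊔ Subgroup.zpowers x := h ▸ Subgroup.mem_top m
        obtain ⟨a, ha, _, ⟨j, rfl⟩, rfl⟩ := Subgroup.mem_sup_of_normal_left.1 h2
        apply (QuotientGroup.eq_one_iff _).1
        rw [QuotientGroup.mk_pow, QuotientGroup.mk_mul, (QuotientGroup.eq_one_iff a).2 ha, one_mul]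
        change ((x : G ⧸ L) ^ j) ^ p ^ k = 1
        rw [← zpow_natCast, ← zpow_mul, mul_comm, zpow_mul, zpow_natCast, ← QuotientGroup.mk_pow, hk,
          QuotientGroup.mk_one, one_zpow]
      set H := L ⊔ Subgroup.zpowers x with hHdef
      have hLH : L ≤ H := le_sup_left
      have hxH : x ∈ H := (le_sup_right : Subgroup.zpowers x ≤ H) (Subgroup.mem_zpowers x)
      letI : Fintype H := Fintype.ofFinite _
      have hχH : IsIrrCharacter H (fun x : H => χ x) :=
        H77.InvOver.irr_of_restrict (Subgroup.inclusion hLH)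
          (isCharacter_restrict H (isCharacter_of_isIrr hχ)) hχL
      have hHc : Nat.card H < Nat.card G := by
        apply lt_of_le_of_ne (Subgroup.card_le_card_group H)
        intro h
        exact hH (Subgroup.eq_top_of_card_eq H h)
      have hHcp : H19.Ito.CP p H := ih H (fun x : H => χ x) n inferInstance hHc hχH
        (fun g hg => Subtype.ext (hfaith _ hg)) hn hbad
      obtain ⟨k, hk⟩ := hx
      have h2 : l * x⁻¹ * l⁻¹ ∈ H := H.mul_mem (H.mul_mem (hLH hl) (H.inv_mem hxH)) (H.inv_mem (hLH hl))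
      obtain ⟨j, hj⟩ := hHcp ⟨x, hxH⟩ ⟨l * x⁻¹ * l⁻¹, h2⟩ ⟨k, Subtype.ext hk⟩
        ⟨k, Subtype.ext (by
          change (l * x⁻¹ * l⁻¹) ^ p ^ k = 1
          rw [conj_pow, inv_pow, hk]; group)⟩
      have h3 : (x * (l * x⁻¹ * l⁻¹)) ^ p ^ j = 1 := congrArg Subtype.val hj
      have h4 : ⁅x, l⁆ = x * (l * x⁻¹ * l⁻¹) := by rw [commutatorElement_def]; group
      apply hMp _ (hLM.le _) ⟨j, by rw [h4]; exact h3⟩
      rw [commutatorElement_def]
      exact L.mul_mem (hLn.conj_mem l hl x) (L.inv_mem hl)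
    set C : Subgroup G := (Subgroup.centralizer
      ((L.map (QuotientGroup.mk' (pCore p G)) : Subgroup (G ⧸ pCore p G)) : Set (G ⧸ pCore p G))).comap
        (QuotientGroup.mk' (pCore p G)) with hC
    have hCn : C.Normal := by
      have : (L.map (QuotientGroup.mk' (pCore p G))).Normal :=
        hLn.map _ (QuotientGroup.mk'_surjective _)
      rw [hC]
      infer_instance
    have hCt : C = ⊤ := by
      by_contra hne
      obtain ⟨x, hxp, hxC⟩ := hS C hCn hne
      apply hxC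
      rw [hC, Subgroup.mem_comap, Subgroup.mem_centralizer_iff]
      rintro _ ⟨l, hl, rfl⟩
      have h2 : ⁅(x : G ⧸ pCore p G), (l : G ⧸ pCore p G)⁆ = 1 :=
        (QuotientGroup.eq_one_iff _).2 (hx x hxp l hl)
      exact (commutatorElement_eq_one_iff_mul_comm.1 h2).symm
    have hcomm : ∀ g : G, ∀ l ∈ L, ⁅g, l⁆ ∈ pCore p G := by
      intro g l hl
      have h2 : g ∈ C := hCt ▸ Subgroup.mem_top g
      rw [hC, Subgroup.mem_comap, Subgroup.mem_centralizer_iff] at h2
      have h3 := h2 _ ⟨l, hl, rfl⟩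
      apply (QuotientGroup.eq_one_iff _).1
      have h4 : ⁅(g : G ⧸ pCore p G), (l : G ⧸ pCore p G)⁆ = 1 :=
        commutatorElement_eq_one_iff_mul_comm.2 h3.symm
      exact h4
    have h2 := final hp hS hχ hfaith hn hpn hRp hRL hχL hcomm
      (fun l hl => ⟨_, hpRM, pow_relIndex_mem (hLM.le hl)⟩)
    exact h0 (cp_of_comm (comm_of_one (isCharacter_of_isIrr hχ) hfaith h2))
  · -- fully ramified
    have he : IsPrimePow e := by
      rw [← h2, isPrimePow_pow_iff two_ne_zero] at hpp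
      exact hpp
    have hen : e ∣ n := by
      obtain ⟨d, _, hd⟩ := exists_degree_pos hφ
      have h3 := congrFun h1 1
      change χ 1 = e * φ 1 at h3
      rw [hn, hd] at h3
      exact ⟨d, by exact_mod_cast h3⟩
    rw [← h2] at hmodZ
    have h3 : (p : ℤ) ∣ ((e : ℤ) - 1) * ((e : ℤ) + 1) := by
      have := hmodZ.symm.dvd
      push_cast at this
      have h4 : ((e : ℤ) - 1) * ((e : ℤ) + 1) = (e : ℤ) ^ 2 - 1 := by ring
      rwa [h4]
    rcases (Nat.prime_iff_prime_int.1 hp).dvd_or_dvd h3 with h4 | h4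
    · exact hbad e he hen (Or.inr (Or.inr (Int.modEq_iff_dvd.2 h4).symm))
    · refine hbad e he hen (Or.inl (Int.modEq_iff_dvd.2 ?_).symm)
      rwa [sub_neg_eq_add]
  · have hL0 : F.card ≠ 0 := by
      rw [hFc]
      exact hpp.ne_zero
    obtain ⟨φ, hφ⟩ := Finset.card_ne_zero.1 hL0
    have hin : ∀ ψ ∈ F, classInner (fun x : L => χ x) ψ ≠ 0 := by
      intro ψ hψ
      have h2 : (fun x : L => χ x) = ∑ φ ∈ F, φ := h1
      rw [h2, inner_sum_left, Finset.sum_eq_single ψ]
      · rw [inner_irr_self (hF ψ hψ)]; exact one_ne_zero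
      · intro b hb hbne
        exact inner_irr_ne (hF b hb) (hF ψ hψ) hbne
      · intro h; exact absurd hψ h
    have hdeg : ∀ ψ ∈ F, ψ 1 = φ 1 := by
      intro ψ hψ
      obtain ⟨g, rfl⟩ := constituents_conj L hχ (hF φ hφ) (hF ψ hψ) (hin φ hφ) (hin ψ hψ)
      exact cj_at_one L g φ
    obtain ⟨d, _, hd⟩ := exists_degree_pos (hF φ hφ)
    have h3 := congrFun h1 1
    rw [Finset.sum_apply, Finset.sum_congr rfl hdeg, Finset.sum_const, hd] at h3
    change χ 1 = _ at h3
    rw [hn, nsmul_eq_mul, hFc] at h3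
    refine hbad _ hpp ⟨d, by exact_mod_cast h3⟩ (Or.inr (Or.inr hmodZ))

/-- the main theorem -/
theorem main (hp : p.Prime) : ∀ (m : ℕ), IH.{u} p m := by
  intro m
  induction m using Nat.strong_induction_on with
  | _ m ih =>
    intro G _ _ χ n hs hc hχ hf hn hb
    exact step hp (ih _ hc) hχ hf hn hb

end chars

end H77.SolvDeg
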