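import Cfsg.Agent.Lib.H77.PRatExt
import Cfsg.Agent.Lib.H66.CopFrattini
import Cfsg.Agent.Lib.H66.PRed
import Cfsg.Agent.Lib.H1.Cores

/-!
# The bound for p-solvable linear groups (S4472) (helper77)
-/

set_option autoImplicit false
set_option linter.style.haveILetI false
set_option linter.unusedSectionVars false
set_option linter.unusedVariables false
open Cfsg

open scoped Pointwise

namespace H77.Winter

open H18 H18.CharBasic H18.CharOrtho H18.CharInd H18.CharQuot H31.Clifford H77.SchurBound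

universe u

/-- a `p`-group with a rational character: bound for the quotient by the kernel -/
theorem pbound' {p : ℕ} (hp : p.Prime) (P : Type u) [Group P] [Fintype P] (hP : IsPGroup p P)
    {β : P → ℂ} (hβ : IsCharacter P β) (hrat : ∀ (σ : ℂ ≃+* ℂ) (x : P), σ (β x) = β x) {n : ℕ}
    (hn : β 1 = n) {a : ℕ} (ha : p ^ a ≤ (kerSub β hβ).index) : a ≤ S p n := by
  classical
  haveI : Fact p.Prime := ⟨hp⟩
  obtain ⟨b, hb⟩ := IsPGroup.iff_card.1 (hP.to_quotient (kerSub β hβ))
  letI := Fintype.ofFinite (P ⧸ kerSub β hβ)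
  have h1 := pbound hp n (P ⧸ kerSub β hβ) b hb (deflate (kerSub β hβ) β)
    (isCharacter_deflate _ hβ (fun n hn => hn)) (fun q hq => deflate_faithful hβ q hq) (by
      intro σ q
      obtain ⟨g, rfl⟩ := QuotientGroup.mk_surjective q
      rw [deflate_mk _ hβ (fun n hn => hn)]
      exact hrat σ g) (by rw [deflate_one _ hβ (fun n hn => hn), hn])
  have h2 : (kerSub β hβ).index = p ^ b := hb
  rw [h2] at ha
  exact ((Nat.pow_le_pow_iff_right hp.one_lt).1 ha).trans h1

/-- `P` a `p`-subgroup normalizing the `p'`-subgroup `Q`, `χ` faithful on `Q`. -/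
theorem bound_act {p : ℕ} (hp : p.Prime) {G : Type u} [Group G] [Finite G] {χ : G → ℂ}
    (hχ : IsCharacter G χ) {n : ℕ} (hn : χ 1 = n) (Q P : Subgroup G)
    (hfaith : ∀ q ∈ Q, χ q = χ 1 → q = 1)
    (hQ : (Nat.card Q).Coprime p) (hP : IsPGroup p P)
    (hPQ : P ≤ Subgroup.normalizer (Q : Set G)) {a : ℕ}
    (ha : p ^ a ≤ (Subgroup.centralizer (Q : Set G)).relIndex P) : a ≤ S p n := by
  classical
  haveI : Fact p.Prime := ⟨hp⟩
  set X : Subgroup G := Q ⊔ P with hX
  letI := Fintype.ofFinite X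
  letI := Fintype.ofFinite P
  let Q' : Subgroup X := Q.subgroupOf X
  letI := Fintype.ofFinite Q'
  have hQX : Q ≤ X := le_sup_left
  have hPX : P ≤ X := le_sup_right
  have hXn : X ≤ Subgroup.normalizer (Q : Set G) := sup_le Subgroup.le_normalizer hPQ
  haveI hQ'n : Q'.Normal := by
    refine ⟨fun q hq x => ?_⟩
    rw [Subgroup.mem_subgroupOf] at hq ⊢
    exact (Subgroup.mem_normalizer_iff.1 (hXn x.2) _).1 hq
  have hcardQ : Nat.card Q' = Nat.card Q := Nat.card_congr (Subgroup.subgroupOfEquivOfLe hQX).toEquiv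
  obtain ⟨m, hm⟩ : ∃ m, Q'.index = p ^ m := by
    let f : P →* X ⧸ Q' := (QuotientGroup.mk' Q').comp (Subgroup.inclusion hPX)
    have hf : Function.Surjective f := by
      intro y
      obtain ⟨x, rfl⟩ := QuotientGroup.mk_surjective y
      have h1 : (Q.subgroupOf X) ⊔ (P.subgroupOf X) = ⊤ := by
        rw [← Subgroup.subgroupOf_sup hQX hPX, ← hX, Subgroup.subgroupOf_self]
      have h2 : x ∈ (((Q.subgroupOf X) ⊔ (P.subgroupOf X) : Subgroup X) : Set X) := by
        rw [h1]; trivial
      have h3 : (((Q.subgroupOf X) ⊔ (P.subgroupOf X) : Subgroup X) : Set X) =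
          (Q' : Set X) * (P.subgroupOf X : Set X) := Subgroup.normal_mul Q' _
      rw [h3] at h2
      obtain ⟨q, hq, y, hy, rfl⟩ := Set.mem_mul.1 h2
      refine ⟨⟨(y : G), hy⟩, ?_⟩
      show QuotientGroup.mk' Q' y = QuotientGroup.mk' Q' (q * y)
      rw [map_mul, QuotientGroup.mk'_apply _ q, (QuotientGroup.eq_one_iff q).2 hq, one_mul]
    exact IsPGroup.iff_card.1 (hP.of_surjective f hf)
  obtain ⟨β, hβ, hβQ, hβσ⟩ := H77.PRatExt.exists_ext hp Q' (by rw [hcardQ]; exact hQ) hm n
    (fun q : Q' => χ ((q : X) : G)) (isCharacter_restrict Q' (isCharacter_restrict X hχ)) (by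
      intro x
      exact cj_restrict Q' x (isClassFunction_of_isCharacter (isCharacter_restrict X hχ))) hn
  -- restrict to P
  let ι : P →* X := Subgroup.inclusion hPX
  have hβP : IsCharacter P (fun x => β (ι x)) := isCharacter_comp ι hβ
  have hn' : β (ι 1) = n := by
    rw [map_one]
    have := hβQ 1
    rw [OneMemClass.coe_one] at this
    rw [this]
    exact hn
  refine pbound' hp P hP hβP ?_ hn' (ha.trans ?_)
  · intro σ x
    obtain ⟨j, hj⟩ := hP x
    apply hβσ σ (ι x) j
    rw [← map_pow, hj, map_one]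
  · -- kernel centralizes Q
    apply Nat.le_of_dvd (Nat.pos_of_ne_zero Subgroup.index_ne_zero_of_finite)
    apply Subgroup.index_dvd_of_le
    intro x hx
    rw [Subgroup.mem_subgroupOf, Subgroup.mem_centralizer_iff]
    intro q hq
    have hx' : β (ι x) = β 1 := by
      have h1 : β (ι x) = β (ι 1) := hx
      rwa [map_one] at h1
    let K := kerSub β hβ
    have hxK : ι x ∈ K := hx'
    let q' : X := ⟨q, hQX hq⟩
    have hq' : q' ∈ Q' := hq
    have h1 : ι x * q' * (ι x)⁻¹ * q'⁻¹ ∈ K := by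
      have h2 : q' * (ι x)⁻¹ * q'⁻¹ ∈ K := (kerSub_normal hβ).conj_mem _ (K.inv_mem hxK) q'
      have h3 : ι x * q' * (ι x)⁻¹ * q'⁻¹ = ι x * (q' * (ι x)⁻¹ * q'⁻¹) := by group
      rw [h3]
      exact K.mul_mem hxK h2
    have h2 : ι x * q' * (ι x)⁻¹ * q'⁻¹ ∈ Q' :=
      Q'.mul_mem (hQ'n.conj_mem _ hq' (ι x)) (Q'.inv_mem hq')
    have h3 : ι x * q' * (ι x)⁻¹ * q'⁻¹ = 1 := by
      have h4 : β (ι x * q' * (ι x)⁻¹ * q'⁻¹) = β 1 := h1
      have h5 := hβQ ⟨_, h2⟩
      have h6 := hβQ 1
      rw [OneMemClass.coe_one] at h6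
      rw [h5, h6] at h4
      apply Subtype.ext
      exact hfaith _ h2 h4
    have h4 : (x : G) * q * (x : G)⁻¹ * q⁻¹ = 1 := congrArg Subtype.val h3
    calc q * (x : G) = ((x : G) * q * (x : G)⁻¹ * q⁻¹)⁻¹ * (x * q) := by group
      _ = x * q := by rw [h4]; group

/-- S4472 -/
theorem main {p : ℕ} (hp : p.Prime) {G : Type u} [Group G] [Finite G] {χ : G → ℂ}
    (hχ : IsCharacter G χ) (hfaith : ∀ g, χ g = χ 1 → g = 1) {n : ℕ} (hn : χ 1 = n)
    (hs : IsPSolvable p G) : ((pCore p G).index).factorization p ≤ S p n := by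
  classical
  haveI : Fact p.Prime := ⟨hp⟩
  set R := pCore p G with hR
  have hRp : IsPGroup p R := H1.Cores.isPGroup_pCore p
  haveI hRs : Group.IsSolvable R := by
    haveI := hRp.isNilpotent
    infer_instance
  set N : Subgroup G := (pPrimeCore p (G ⧸ R)).comap (QuotientGroup.mk' R) with hN
  have hRN : R ≤ N := by
    intro x hx
    rw [hN, Subgroup.mem_comap, QuotientGroup.mk'_apply, (QuotientGroup.eq_one_iff x).2 hx]
    exact Subgroup.one_mem _
  have hNn : N.Normal := inferInstance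
  have hrel : R.relIndex N = Nat.card (pPrimeCore p (G ⧸ R)) := by
    have h1 : R = (⊥ : Subgroup (G ⧸ R)).comap (QuotientGroup.mk' R) := by
      rw [MonoidHom.comap_bot, QuotientGroup.ker_mk']
    conv_lhs => rw [h1, hN]
    rw [Subgroup.relIndex_comap, Subgroup.map_comap_eq_self_of_surjective
      (QuotientGroup.mk'_surjective R), Subgroup.relIndex_bot_left]
  have hNcop : (R.relIndex N).Coprime p := by
    rw [hrel]; exact H1.Cores.coprime_card_pPrimeCore p
  obtain ⟨k, hk⟩ := IsPGroup.iff_card.1 hRp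
  obtain ⟨Q, hQN, hRQ, hRQN, hQc, htop⟩ := H66.CopFrattini.exists_compl R N hRN
    (by rw [hk]; exact (hNcop.pow_right k).symm) hRs
  set H := Subgroup.normalizer (Q : Set G) with hH
  -- a Sylow p-subgroup of H
  obtain ⟨P⟩ : Nonempty (Sylow p H) := inferInstance
  set P' : Subgroup G := (P : Subgroup H).map H.subtype with hP'
  have hP'p : IsPGroup p P' := P.2.map _
  have hP'H : P' ≤ H := Subgroup.map_subtype_le _
  -- the centralizer of Q in P is contained in R
  have hcR : Subgroup.centralizer (Q : Set G) ⊓ P' ≤ R := by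
    rintro x ⟨hx1, hx2⟩
    have hcent := H66.PRed.centralizer_pPrimeCore_le (H37.PSolv.quotient hs R)
      (H1.Cores.pCore_quotient_pCore p)
    have h1 : (x : G ⧸ R) ∈ Subgroup.centralizer (pPrimeCore p (G ⧸ R) : Set (G ⧸ R)) := by
      rw [Subgroup.mem_centralizer_iff]
      intro y hy
      obtain ⟨y, rfl⟩ := QuotientGroup.mk_surjective y
      have hyN : y ∈ N := hy
      rw [← hRQN] at hyN
      have hyN' : y ∈ ((R ⊔ Q : Subgroup G) : Set G) := hyN
      rw [Subgroup.normal_mul] at hyN'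
      obtain ⟨r, hr, q, hq, rfl⟩ := Set.mem_mul.1 hyN'
      rw [QuotientGroup.mk_mul, (QuotientGroup.eq_one_iff r).2 hr, one_mul, ← QuotientGroup.mk_mul,
        ← QuotientGroup.mk_mul, Subgroup.mem_centralizer_iff.1 hx1 q hq]
    have h2 := hcent h1
    -- p-element and p'-element
    obtain ⟨j, hj⟩ := hP'p ⟨x, hx2⟩
    have hj' : x ^ p ^ j = 1 := congrArg Subtype.val hj
    have h3 : orderOf (x : G ⧸ R) ∣ p ^ j := by
      apply orderOf_dvd_of_pow_eq_one
      rw [← QuotientGroup.mk_pow, hj', QuotientGroup.mk_one]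
    have h4 : orderOf (x : G ⧸ R) ∣ Nat.card (pPrimeCore p (G ⧸ R)) := by
      have := orderOf_dvd_natCard (⟨(x : G ⧸ R), h2⟩ : pPrimeCore p (G ⧸ R))
      rwa [Subgroup.orderOf_mk] at this
    have h5 : orderOf (x : G ⧸ R) = 1 := by
      apply Nat.eq_one_of_dvd_coprimes _ h4 h3
      exact (H1.Cores.coprime_card_pPrimeCore p).pow_right j
    exact (QuotientGroup.eq_one_iff x).1 (orderOf_eq_one_iff.1 h5)
  -- indices
  have hidx : p ^ ((R.index).factorization p) ≤ (Subgroup.centralizer (Q : Set G)).relIndex P' := by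
    have e1 : R.index = R.relIndex H := by
      rw [← Subgroup.relIndex_top_right, ← htop, Subgroup.relIndex_sup_left]
    have e2 : Nat.card (R ⊓ H : Subgroup G) * R.relIndex H = Nat.card H := by
      rw [← Subgroup.inf_relIndex_right R H]
      have := Subgroup.relIndex_mul_relIndex (⊥ : Subgroup G) (R ⊓ H) H bot_le inf_le_right
      rwa [Subgroup.relIndex_bot_left, Subgroup.relIndex_bot_left] at this
    have e3 : Nat.card (R ⊓ P' : Subgroup G) * R.relIndex P' = Nat.card P' := by
      rw [← Subgroup.inf_relIndex_right R P']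
      have := Subgroup.relIndex_mul_relIndex (⊥ : Subgroup G) (R ⊓ P') P' bot_le inf_le_right
      rwa [Subgroup.relIndex_bot_left, Subgroup.relIndex_bot_left] at this
    obtain ⟨s, hs'⟩ := IsPGroup.iff_card.1 (hRp.to_le (inf_le_left : R ⊓ H ≤ R))
    have e4 : Nat.card P' = p ^ (Nat.card H).factorization p := by
      rw [hP', Subgroup.card_map_of_injective H.subtype_injective, P.card_eq_multiplicity]
    have e5 : (Nat.card H).factorization p = s + (R.relIndex H).factorization p := by
      have hne : R.relIndex H ≠ 0 := by rw [← e1]; exact Subgroup.index_ne_zero_of_finite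
      rw [← e2, hs', Nat.factorization_mul (pow_ne_zero s hp.ne_zero) hne, Finsupp.add_apply,
        Nat.factorization_pow, Finsupp.smul_apply, hp.factorization_self, smul_eq_mul, mul_one]
    have e6 : Nat.card (R ⊓ P' : Subgroup G) ≤ p ^ s := by
      rw [← hs']
      exact Subgroup.card_le_of_le (inf_le_inf_left R hP'H)
    have e7 : p ^ ((R.index).factorization p) ≤ R.relIndex P' := by
      rw [e1]
      have e8 : p ^ s * p ^ ((R.relIndex H).factorization p) ≤ p ^ s * R.relIndex P' := by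
        rw [← pow_add, ← e5, ← e4, ← e3]
        exact Nat.mul_le_mul_right _ e6
      exact Nat.le_of_mul_le_mul_left e8 (pow_pos hp.pos s)
    refine e7.trans ?_
    rw [← Subgroup.inf_relIndex_right (Subgroup.centralizer (Q : Set G)) P']
    apply Nat.le_of_dvd
    · exact Nat.pos_of_ne_zero Subgroup.index_ne_zero_of_finite
    · exact Subgroup.relIndex_dvd_of_le_left P' hcR
  have hQcop : (Nat.card Q).Coprime p := by rw [hQc]; exact hNcop
  exact bound_act hp hχ hn Q P' (fun q _ => hfaith q) hQcop hP'p hP'H hidx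

end H77.Winter
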