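import Cfsg.Agent.Lib.H77.Winter
import Cfsg.Agent.Lib.H77.SolvDeg2
import Cfsg.Agent.Lib.H26.SupCard
import Cfsg.Agent.Lib.H66.PRed

/-!
# p-solvable linear groups of degree less than p (S4468) (helper77)
-/

set_option autoImplicit false
set_option linter.style.haveILetI false
set_option linter.unusedSectionVars false
set_option linter.unusedVariables false
open Cfsg

namespace H77.Winter2

open H18 H18.CharBasic H18.CharOrtho H18.CharInd H18.CharQuot H31.Clifford
open H77.SolvDeg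
open scoped commutatorElement

universe u

variable {p : ℕ}

theorem S_zero {n : ℕ} (hp : p.Prime) (h : n + 1 < p) : H77.SchurBound.S p n = 0 := by
  unfold H77.SchurBound.S
  apply Finset.sum_eq_zero
  intro i _
  apply Nat.div_eq_of_lt
  have h1 : 1 ≤ p ^ i := Nat.one_le_pow _ _ hp.pos
  have h2 : (p - 1) * 1 ≤ (p - 1) * p ^ i := Nat.mul_le_mul_left _ h1
  omega

theorem cp_of_core {G : Type u} [Group G] [Finite G] (hp : p.Prime)
    (h : ((pCore p G).index).factorization p = 0) : H19.Ito.CP p G := by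
  apply cp_of_mem (H1.Cores.isPGroup_pCore p)
  intro x hx
  apply mem_of_index hp _ hx
  intro hd
  have h1 := (Nat.factorization_eq_zero_iff _ _).1 h
  rcases h1 with h1 | h1 | h1
  · exact h1 hp
  · exact h1 hd
  · exact Subgroup.index_ne_zero_of_finite h1

theorem cp_of_small {G : Type u} [Group G] [Finite G] (hp : p.Prime) {χ : G → ℂ}
    (hχ : IsCharacter G χ) (hfaith : ∀ g, χ g = χ 1 → g = 1) {n : ℕ} (hn : χ 1 = n)
    (hs : IsPSolvable p G) (hnp : n + 1 < p) : H19.Ito.CP p G := by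
  apply cp_of_core hp
  have h1 := H77.Winter.main hp hχ hfaith hn hs
  rw [S_zero hp hnp] at h1
  omega

theorem irr_of_not_cp {G : Type u} [Group G] [Fintype G] (hp : p.Prime) {χ : G → ℂ}
    (hχ : IsCharacter G χ) (hfaith : ∀ g, χ g = χ 1 → g = 1) {n : ℕ} (hn : χ 1 = n)
    (hs : IsPSolvable p G) (hnp : n + 1 ≤ p) (h0 : ¬ H19.Ito.CP p G) : IsIrrCharacter G χ := by
  by_contra hirr
  have : Fact p.Prime := ⟨hp⟩
  apply h0
  apply cp_of_quot hp hχ hfaith
  intro φ hφ hne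
  obtain ⟨d, hd0, hd⟩ := exists_degree_pos hφ
  have h1 := H77.SubChar.degree_le hχ hφ hne hn hd
  have h2 : d ≠ n := by
    intro h
    apply hirr
    rw [H77.SubChar.eq_of_degree hχ hφ hne (by rw [hn, hd, h])]
    exact hφ
  have hφc := isCharacter_of_isIrr hφ
  refine cp_of_small hp (isCharacter_deflate (kerSub φ hφc) hφc (fun n hn => hn))
    (H77.SchurBound.deflate_faithful hφc) (n := d) ?_ (H37.PSolv.quotient hs _) (by omega)
  rw [H77.SchurBound.deflate_one _ hφc (fun n hn => hn), hd]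

theorem pow_two_of {n : ℕ} (hp : p.Prime) (hnp : n + 1 = p) (h : ¬ Bad p n) :
    ∃ k : ℕ, n = 2 ^ k := by
  have : Fact p.Prime := ⟨hp⟩
  unfold Bad at h
  push Not at h
  obtain ⟨q, hq, hqn, h⟩ := h
  have hn0 : 0 < n := by have := hp.two_le; omega
  have h1 : q ≤ n := Nat.le_of_dvd hn0 hqn
  have h2 : 1 < q := hq.one_lt
  have h3 : q = n := by
    rcases h with h | h | h
    · have h4 := Int.modEq_iff_dvd.1 h.symm
      rw [sub_neg_eq_add] at h4
      have h5 : p ∣ q + 1 := by exact_mod_cast h4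
      have h6 := Nat.le_of_dvd (by omega) h5
      omega
    · have h4 := Int.modEq_iff_dvd.1 h.symm
      rw [sub_zero] at h4
      have h5 : p ∣ q := by exact_mod_cast h4
      have h6 := Nat.le_of_dvd (by omega) h5
      omega
    · exfalso
      have h4 := Int.modEq_iff_dvd.1 h.symm
      have h5 : ((q - 1 : ℕ) : ℤ) = (q : ℤ) - 1 := by push_cast [h2.le]; rfl
      rw [← h5] at h4
      have h5 : p ∣ q - 1 := by exact_mod_cast h4
      have h6 := Nat.le_of_dvd (by omega) h5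
      omega
  rcases hp.eq_two_or_odd' with h4 | h4
  · exact ⟨0, by omega⟩
  · obtain ⟨r, k, hr, hk, hrk⟩ := (isPrimePow_nat_iff _).1 hq
    have h5 : 2 ∣ r ^ k := by
      rw [hrk, h3]
      obtain ⟨j, hj⟩ := h4
      exact ⟨j, by omega⟩
    have h6 : r = 2 := ((Nat.prime_dvd_prime_iff_eq Nat.prime_two hr).1
      (Nat.prime_two.dvd_of_dvd_pow h5)).symm
    exact ⟨k, by rw [← h3, ← hrk, h6]⟩

theorem main {G : Type u} [Group G] [Fintype G] (hp : p.Prime) {χ : G → ℂ}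
    (hχ : IsCharacter G χ) (hfaith : ∀ g, χ g = χ 1 → g = 1) {n : ℕ} (hn : χ 1 = n)
    (hs : IsPSolvable p G) (hnp : n + 1 ≤ p) (P : Sylow p G) (hP : ¬ (P : Subgroup G).Normal) :
    n + 1 = p ∧ (∃ k : ℕ, n = 2 ^ k) ∧ IsIrrCharacter G χ := by
  classical
  have : Fact p.Prime := ⟨hp⟩
  have h0 : ¬ H19.Ito.CP p G := fun h => hP (H19.Ito.normal_of_cp h P)
  have h1 : n + 1 = p := by
    by_contra h
    exact h0 (cp_of_small hp hχ hfaith hn hs (lt_of_le_of_ne hnp h))
  refine ⟨h1, ?_, irr_of_not_cp hp hχ hfaith hn hs hnp h0⟩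
  apply pow_two_of hp h1
  intro hbad
  have hx : ∃ x : G, PE p x ∧ x ∉ pCore p G := by
    by_contra hcon
    push Not at hcon
    exact h0 (cp_of_mem (H1.Cores.isPGroup_pCore p) hcon)
  obtain ⟨x, ⟨k, hk⟩, hxR⟩ := hx
  obtain ⟨q, hq, hqp, Q, hQ, x', hxx', hxN, hxC⟩ := H66.PRed.exists_qgroup hs x k hk 0
    (by rwa [pow_zero, pow_one])
  rw [pow_zero, pow_one] at hxC
  obtain ⟨l, hl⟩ := H66.PRed.pow_eq_one_of_coset _ (H1.Cores.isPGroup_pCore p) hk hxx'
  have hqF : Fact q.Prime := ⟨hq⟩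
  have hQs : Group.IsSolvable Q := by
    have := hQ.isNilpotent
    infer_instance
  set H := Q ⊔ Subgroup.zpowers x' with hH
  have hHs : Group.IsSolvable H := by
    apply H26.SupCard.isSolvable_sup (Subgroup.zpowers_le.2 hxN) hQs
    infer_instance
  letI : Fintype H := Fintype.ofFinite _
  have hxH : x' ∈ H := (le_sup_right : Subgroup.zpowers x' ≤ H) (Subgroup.mem_zpowers x')
  have hQH : Q ≤ H := le_sup_left
  have hHcp : ¬ H19.Ito.CP p H := by
    intro h
    apply hxC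
    rw [Subgroup.mem_centralizer_iff]
    intro y hy
    have hyx : y * x' * y⁻¹ ∈ H := H.mul_mem (H.mul_mem (hQH hy) hxH) (H.inv_mem (hQH hy))
    obtain ⟨j, hj⟩ := h ⟨y * x' * y⁻¹, hyx⟩ ⟨x'⁻¹, H.inv_mem hxH⟩
      ⟨l, Subtype.ext (by
        change (y * x' * y⁻¹) ^ p ^ l = 1
        rw [conj_pow, hl]; group)⟩
      ⟨l, Subtype.ext (by
        change (x'⁻¹) ^ p ^ l = 1
        rw [inv_pow, hl, inv_one])⟩
    have h3 : (y * x' * y⁻¹ * x'⁻¹) ^ p ^ j = 1 := congrArg Subtype.val hj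
    have h4 : y * x' * y⁻¹ * x'⁻¹ ∈ Q := by
      have h5 : y * x' * y⁻¹ * x'⁻¹ = y * (x' * y⁻¹ * x'⁻¹) := by group
      rw [h5]
      apply Q.mul_mem hy
      exact (Subgroup.mem_normalizer_iff.1 hxN _).1 (Q.inv_mem hy)
    obtain ⟨m, hm⟩ := hQ ⟨_, h4⟩
    have h5 : (y * x' * y⁻¹ * x'⁻¹) ^ q ^ m = 1 := congrArg Subtype.val hm
    have h6 : Nat.Coprime (p ^ j) (q ^ m) :=
      Nat.Coprime.pow _ _ ((Nat.coprime_primes hp hq).2 (Ne.symm hqp))
    have h7 := Nat.eq_one_of_dvd_coprimes h6 (orderOf_dvd_of_pow_eq_one h3)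
      (orderOf_dvd_of_pow_eq_one h5)
    have h8 := orderOf_eq_one_iff.1 h7
    exact mul_inv_eq_iff_eq_mul.1 (mul_inv_eq_one.1 h8)
  apply hHcp
  have hfH : ∀ g : H, χ g = χ (1 : H) → g = 1 := fun g hg => Subtype.ext (hfaith _ hg)
  have hχH : IsIrrCharacter H (fun x : H => χ x) :=
    irr_of_not_cp hp (isCharacter_restrict H hχ) hfH hn (H37.PSolv.subgroup hs H) hnp hHcp
  exact H77.SolvDeg.main hp (Nat.card H + 1) H (fun x : H => χ x) n hHs (Nat.lt_succ_self _) hχH
    hfH hn hbad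

end H77.Winter2
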